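import Cfsg.Agent.Lib.Helper21.Osima
import Cfsg.Agent.Lib.Helper17.W2pB

/-!
# S4648, piece KU-FB: `χ(e_B a) = [χ ∈ B] χ(a)`
-/

set_option autoImplicit false

namespace Cfsg.Agent.Lib.Helper30.Kuls

open Cfsg Cfsg.Agent.Lib.Helper21 Cfsg.Agent.Lib.Helper4 Cfsg.Agent.Lib.Helper17
open scoped ComplexConjugate

universe u

open scoped Classical in
/-- FB -/
theorem kuls_funcB {G : Type u} [Group G] [Fintype G] (B : Set (IrrCharacter G))
    (χ : IrrCharacter G) (a : G → ℂ) :
    ∑ g : G, conv (blockCoeff B) a g * (χ : G → ℂ) g =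
      if χ ∈ B then ∑ g : G, a g * (χ : G → ℂ) g else 0 := by
  haveI : Finite (IrrCharacter G) := irr_finite
  letI : Fintype (IrrCharacter G) := Fintype.ofFinite _
  have hG : (Nat.card G : ℂ) ≠ 0 := by
    have : Nat.card G ≠ 0 := Nat.card_pos.ne'
    exact_mod_cast this
  -- the inner sum
  have hinner : ∀ x : G, ∑ h : G, blockCoeff B h * (χ : G → ℂ) (h * x)
      = if χ ∈ B then (χ : G → ℂ) x else 0 := by
    intro x
    have h1 : ∀ h : G, blockCoeff B h * (χ : G → ℂ) (h * x)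
        = (Nat.card G : ℂ)⁻¹ * ∑ ψ : IrrCharacter G, (if ψ ∈ B then (1 : ℂ) else 0)
          * ((ψ : G → ℂ) 1 * (conj ((ψ : G → ℂ) h) * (χ : G → ℂ) (h * x))) := by
      intro h
      rw [blockCoeff_eq_sum, mul_assoc, Finset.sum_mul]
      congr 1
      apply Finset.sum_congr rfl
      intro ψ _
      ring
    rw [Finset.sum_congr rfl (fun h _ => h1 h), ← Finset.mul_sum, Finset.sum_comm]
    have h2 : ∀ ψ : IrrCharacter G, ∑ h : G, (if ψ ∈ B then (1 : ℂ) else 0)
          * ((ψ : G → ℂ) 1 * (conj ((ψ : G → ℂ) h) * (χ : G → ℂ) (h * x)))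
        = (if ψ ∈ B then (1 : ℂ) else 0) * ((ψ : G → ℂ) 1
          * (if ψ = χ then (Nat.card G : ℂ) / (ψ : G → ℂ) 1 * (ψ : G → ℂ) x else 0)) := by
      intro ψ
      rw [← Finset.mul_sum, ← Finset.mul_sum, ← gen_orth ψ χ x]
      congr 2
      rw [← Equiv.sum_comp (Equiv.inv G) (fun g => (ψ : G → ℂ) g * (χ : G → ℂ) (g⁻¹ * x))]
      apply Finset.sum_congr rfl
      intro h _
      simp only [Equiv.inv_apply]
      rw [irr_inv, inv_inv]
    rw [Finset.sum_congr rfl (fun ψ _ => h2 ψ), Finset.sum_eq_single χ]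
    · rw [if_pos rfl]
      have hne := irr_one_ne_zero χ
      by_cases hχ : χ ∈ B
      · rw [if_pos hχ, if_pos hχ]
        field_simp
      · rw [if_neg hχ, if_neg hχ]
        simp
    · intro ψ _ hψ
      rw [if_neg hψ]
      simp
    · intro hχ
      exact absurd (Finset.mem_univ χ) hχ
  -- reorganize the double sum
  have hmain : ∑ g : G, conv (blockCoeff B) a g * (χ : G → ℂ) g
      = ∑ x : G, a x * ∑ h : G, blockCoeff B h * (χ : G → ℂ) (h * x) := by
    have e1 : ∀ g : G, conv (blockCoeff B) a g * (χ : G → ℂ) g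
        = ∑ h : G, blockCoeff B h * a (h⁻¹ * g) * (χ : G → ℂ) g := by
      intro g
      rw [conv_apply, Finset.sum_mul]
    rw [Finset.sum_congr rfl (fun g _ => e1 g), Finset.sum_comm]
    have e2 : ∀ h : G, ∑ g : G, blockCoeff B h * a (h⁻¹ * g) * (χ : G → ℂ) g
        = ∑ x : G, blockCoeff B h * a x * (χ : G → ℂ) (h * x) := by
      intro h
      rw [← Equiv.sum_comp (Equiv.mulLeft h)
        (fun g => blockCoeff B h * a (h⁻¹ * g) * (χ : G → ℂ) g)]
      apply Finset.sum_congr rfl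
      intro x _
      simp only [Equiv.coe_mulLeft, inv_mul_cancel_left]
    rw [Finset.sum_congr rfl (fun h _ => e2 h), Finset.sum_comm]
    apply Finset.sum_congr rfl
    intro x _
    rw [Finset.mul_sum]
    apply Finset.sum_congr rfl
    intro h _
    ring
  rw [hmain, Finset.sum_congr rfl (fun x _ => by rw [hinner x])]
  by_cases hχ : χ ∈ B
  · simp only [if_pos hχ]
  · simp only [if_neg hχ, mul_zero, Finset.sum_const_zero]

end Cfsg.Agent.Lib.Helper30.Kuls
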