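-- helper30: the Transitivity Theorem for solvable signalizer functors (rank >= 3).
import Mathlib
import Cfsg.Prelude.Def_Balance
import Cfsg.Agent.S1282
import Cfsg.Agent.Lib.Helper1.Coprime2
import Cfsg.Agent.Lib.Helper30.Invol

set_option autoImplicit false
open Cfsg

namespace Cfsg.Agent.Lib.Helper30

open Subgroup

section Transitivity
variable {G : Type*} [Group G]

theorem le_normalizer_of_conj_mem {A U : Subgroup G} (h : ∀ b ∈ A, ∀ u ∈ U, b * u * b⁻¹ ∈ U) :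
    A ≤ normalizer (U : Set G) := by
  intro b hb
  rw [mem_normalizer_iff]
  intro u
  refine ⟨h b hb u, fun hu => ?_⟩
  have := h b⁻¹ (A.inv_mem hb) _ hu
  simpa [mul_assoc] using this

theorem conj_mem_of_le_normalizer {A U : Subgroup G} (h : A ≤ normalizer (U : Set G)) :
    ∀ b ∈ A, ∀ u ∈ U, b * u * b⁻¹ ∈ U :=
  fun b hb u hu => (mem_normalizer_iff.mp (h hb) u).mp hu

theorem signalizerInf_le {A : Subgroup G} {θ : G → Subgroup G} {a : G} (ha : a ∈ A)
    (ha1 : a ≠ 1) : signalizerInf A θ ≤ θ a :=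
  iInf_le (fun a : {a : G // a ∈ A ∧ a ≠ 1} => θ (a : G)) ⟨a, ha, ha1⟩

theorem signalizerInf_le_centralizer {p : ℕ} {A : Subgroup G} {θ : G → Subgroup G}
    (hθ : IsSignalizerFunctor p A θ) : signalizerInf A θ ≤ centralizer (A : Set G) := by
  intro c hc
  rw [mem_centralizer_iff]
  intro a ha
  by_cases ha1 : a = 1
  · rw [ha1, one_mul, mul_one]
  · have := hθ.1 a ha ha1 (signalizerInf_le ha ha1 hc)
    exact mem_centralizer_iff.mp this a rfl

theorem mem_signalizerInf {p : ℕ} {A : Subgroup G} {θ : G → Subgroup G}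
    (hθ : IsSignalizerFunctor p A θ) {a c : G} (ha : a ∈ A) (ha1 : a ≠ 1) (hc : c ∈ θ a)
    (hcA : c ∈ centralizer (A : Set G)) : c ∈ signalizerInf A θ := by
  unfold signalizerInf
  rw [mem_iInf]
  rintro ⟨b, hb, hb1⟩
  apply hθ.2.2.2 a ha ha1 b hb hb1
  refine mem_inf.mpr ⟨hc, ?_⟩
  rw [mem_centralizer_iff]
  intro h hh
  rw [Set.mem_singleton_iff] at hh
  subst hh
  exact mem_centralizer_iff.mp hcA h hb

theorem commute_conj {b c u : G} (h : b * c = c * b) :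
    b * (c * u * c⁻¹) * b⁻¹ = c * (b * u * b⁻¹) * c⁻¹ := by
  have h2 : b⁻¹ * c⁻¹ = c⁻¹ * b⁻¹ := by rw [← mul_inv_rev, ← mul_inv_rev, h]
  calc b * (c * u * c⁻¹) * b⁻¹ = (b * c) * u * (c⁻¹ * b⁻¹) := by group
    _ = (c * b) * u * (b⁻¹ * c⁻¹) := by rw [h, h2]
    _ = c * (b * u * b⁻¹) * c⁻¹ := by group

theorem map_conj_one (K : Subgroup G) : K.map (MulAut.conj (1 : G)).toMonoidHom = K := by
  have : (MulAut.conj (1 : G)).toMonoidHom = MonoidHom.id G := by ext x; simp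
  rw [this, Subgroup.map_id]

theorem signalizerFamily_map_conj [Finite G] {p : ℕ} {A : Subgroup G} {θ : G → Subgroup G}
    (hθ : IsSignalizerFunctor p A θ) {c : G} (hc : c ∈ signalizerInf A θ) {U : Subgroup G}
    (hU : U ∈ signalizerFamily p A θ) :
    U.map (MulAut.conj c).toMonoidHom ∈ signalizerFamily p A θ := by
  obtain ⟨hs, hp', hinv, hcen⟩ := hU
  have hcA := mem_centralizer_iff.mp (signalizerInf_le_centralizer hθ hc)
  refine ⟨?_, ?_, ?_, ?_⟩
  · haveI := hs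
    exact Cfsg.Agent.Lib.Helper1.isSolvable_map _ U
  · rw [card_map_equiv]; exact hp'
  · rintro b hb _ ⟨u, hu, rfl⟩
    refine ⟨b * u * b⁻¹, hinv b hb u hu, ?_⟩
    simp only [MulEquiv.coe_toMonoidHom, MulAut.conj_apply]
    exact (commute_conj (hcA b hb)).symm
  · intro a ha ha1 x hx
    obtain ⟨hx1, hx2⟩ := mem_inf.mp hx
    obtain ⟨u, hu, rfl⟩ := hx1
    have hca : c ∈ θ a := signalizerInf_le ha ha1 hc
    simp only [MulEquiv.coe_toMonoidHom, MulAut.conj_apply] at hx2 ⊢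
    have hua : u ∈ centralizer {a} := by
      rw [mem_centralizer_iff] at hx2 ⊢
      intro h hh
      rw [Set.mem_singleton_iff] at hh
      subst hh
      have h1 := hx2 h rfl
      have h2 := hcA h ha
      have h3 : h * u * h⁻¹ = u := by
        have h4 := commute_conj (u := u) h2
        rw [h1, mul_inv_cancel_right] at h4
        exact (mul_left_cancel (mul_right_cancel h4)).symm
      calc h * u = h * u * h⁻¹ * h := by group
        _ = u * h := by rw [h3]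
    exact (θ a).mul_mem ((θ a).mul_mem hca (hcen a ha ha1 (mem_inf.mpr ⟨hu, hua⟩)))
      ((θ a).inv_mem hca)

/-- Conjugacy under `θ(C_G(A))`. -/
def SigConj (A : Subgroup G) (θ : G → Subgroup G) (Q₁ Q₂ : Subgroup G) : Prop :=
  ∃ c ∈ signalizerInf A θ, Q₁.map (MulAut.conj c).toMonoidHom = Q₂

theorem SigConj.symm {A : Subgroup G} {θ : G → Subgroup G} {Q₁ Q₂ : Subgroup G}
    (h : SigConj A θ Q₁ Q₂) : SigConj A θ Q₂ Q₁ := by
  obtain ⟨c, hc, rfl⟩ := h
  refine ⟨c⁻¹, inv_mem hc, ?_⟩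
  rw [map_conj_map_conj, inv_mul_cancel, map_conj_one]

theorem SigConj.trans {A : Subgroup G} {θ : G → Subgroup G} {Q₁ Q₂ Q₃ : Subgroup G}
    (h₁ : SigConj A θ Q₁ Q₂) (h₂ : SigConj A θ Q₂ Q₃) : SigConj A θ Q₁ Q₃ := by
  obtain ⟨c, hc, rfl⟩ := h₁
  obtain ⟨d, hd, rfl⟩ := h₂
  exact ⟨d * c, mul_mem hd hc, (map_conj_map_conj _ _ _).symm⟩

/-- `Q` is a maximal `q`-subgroup in the family of `θ`. -/
def IsMaxSig (p : ℕ) (A : Subgroup G) (θ : G → Subgroup G) (q : ℕ) (Q : Subgroup G) : Prop :=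
  Q ∈ signalizerFamily p A θ ∧ IsPGroup q Q ∧
    ∀ R ∈ signalizerFamily p A θ, IsPGroup q R → Q ≤ R → R = Q

theorem IsMaxSig.map_conj [Finite G] {p q : ℕ} {A : Subgroup G} {θ : G → Subgroup G}
    (hθ : IsSignalizerFunctor p A θ) {c : G} (hc : c ∈ signalizerInf A θ) {Q : Subgroup G}
    (hQ : IsMaxSig p A θ q Q) : IsMaxSig p A θ q (Q.map (MulAut.conj c).toMonoidHom) := by
  obtain ⟨hQ1, hQ2, hQ3⟩ := hQ
  refine ⟨signalizerFamily_map_conj hθ hc hQ1, hQ2.map _, ?_⟩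
  intro R hR hRq hle
  have h1 : Q ≤ R.map (MulAut.conj c⁻¹).toMonoidHom := by
    intro x hx
    refine ⟨c * x * c⁻¹, hle (conj_mem_map_conj c hx), ?_⟩
    simp only [MulEquiv.coe_toMonoidHom, MulAut.conj_apply]
    group
  have h2 := hQ3 _ (signalizerFamily_map_conj hθ (inv_mem hc) hR) (hRq.map _) h1
  rw [← h2, map_conj_map_conj, mul_inv_cancel, map_conj_one]

theorem exists_isMaxSig_ge [Finite G] {p q : ℕ} {A : Subgroup G} {θ : G → Subgroup G}
    {Q : Subgroup G} (hQ : Q ∈ signalizerFamily p A θ) (hq : IsPGroup q Q) :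
    ∃ R, IsMaxSig p A θ q R ∧ Q ≤ R := by
  haveI : Nonempty {V : Subgroup G // Q ≤ V ∧ V ∈ signalizerFamily p A θ ∧ IsPGroup q V} :=
    ⟨⟨Q, le_rfl, hQ, hq⟩⟩
  obtain ⟨⟨V, hQV, hV, hVq⟩, hmax⟩ := Finite.exists_max
    (fun V : {V : Subgroup G // Q ≤ V ∧ V ∈ signalizerFamily p A θ ∧ IsPGroup q V} =>
      Nat.card V.1)
  refine ⟨V, ⟨hV, hVq, ?_⟩, hQV⟩
  intro R hR hRq hVR
  have := hmax ⟨R, le_trans hQV hVR, hR, hRq⟩
  exact (Subgroup.eq_of_le_of_card_ge hVR this).symm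

theorem card_lt_of_le_of_not_le [Finite G] {D E N : Subgroup G} (hDE : D ≤ E) (hNE : N ≤ E)
    (hND : ¬ N ≤ D) : Nat.card D < Nat.card E := by
  by_contra h
  push Not at h
  have := Subgroup.eq_of_le_of_card_ge hDE h
  exact hND (this ▸ hNE)

theorem not_dvd_card_of_isPGroup [Finite G] {p q : ℕ} [Fact p.Prime] [Fact q.Prime] (hqp : q ≠ p)
    {V : Subgroup G} (hV : IsPGroup q V) : ¬ p ∣ Nat.card V := by
  have hp := (Fact.out : p.Prime)
  have hq := (Fact.out : q.Prime)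
  intro hdvd
  obtain ⟨n, hn⟩ := IsPGroup.iff_card.mp hV
  rw [hn] at hdvd
  exact hqp ((Nat.prime_dvd_prime_iff_eq hp hq).mp (hp.dvd_of_dvd_pow hdvd)).symm

/-- Product lemma: `D S` lies in the family of `θ` when `D` does and `S ≤ θ a` normalizes `D`. -/
theorem sup_mem_signalizerFamily [Finite G] {p q : ℕ} [Fact p.Prime] [Fact q.Prime]
    {A : Subgroup G} {θ : G → Subgroup G} (hA : IsElementaryAbelian p A)
    (hθ : IsSignalizerFunctor p A θ) (hqp : q ≠ p) {a : G} (ha : a ∈ A) (ha1 : a ≠ 1)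
    {D S : Subgroup G} (hDq : IsPGroup q D) (hSq : IsPGroup q S)
    (hAD : A ≤ normalizer (D : Set G)) (hAS : A ≤ normalizer (S : Set G))
    (hSD : S ≤ normalizer (D : Set G))
    (hDθ : ∀ b ∈ A, b ≠ 1 → D ⊓ centralizer {b} ≤ θ b) (hSθ : S ≤ θ a) :
    D ⊔ S ∈ signalizerFamily p A θ ∧ IsPGroup q (D ⊔ S : Subgroup G) := by
  have hp := (Fact.out : p.Prime)
  have hDSq : IsPGroup q (D ⊔ S : Subgroup G) := IsPGroup.to_sup_of_normal_left' hDq hSq hSD
  refine ⟨⟨?_, not_dvd_card_of_isPGroup hqp hDSq, ?_, ?_⟩, hDSq⟩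
  · haveI := hDSq.isNilpotent
    infer_instance
  · apply conj_mem_of_le_normalizer
    intro b hb
    rw [mem_normalizer_iff_map_conj, Subgroup.map_sup, mem_normalizer_iff_map_conj.mp (hAD hb),
      mem_normalizer_iff_map_conj.mp (hAS hb)]
  · intro b hb hb1 x hx
    obtain ⟨hx1, hx2⟩ := mem_inf.mp hx
    obtain ⟨s, hs, d, hd, rfl⟩ : ∃ s ∈ S, ∃ d ∈ D, x = s * d := by
      have hx' : x⁻¹ ∈ D ⊔ S := inv_mem hx1
      obtain ⟨n, hn, s', hs', h⟩ := Cfsg.Agent.S0057.sup_mem hSD hx'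
      exact ⟨s'⁻¹, inv_mem hs', n⁻¹, inv_mem hn, by rw [← mul_inv_rev, ← h, inv_inv]⟩
    have hbx : b * (s * d) = (s * d) * b := (mem_centralizer_iff.mp hx2 b rfl)
    have hZ : IsPGroup p (zpowers b) := by
      have hbp : b ^ p = 1 := hA.2 b hb
      rintro ⟨y, k, rfl⟩
      refine ⟨1, ?_⟩
      apply Subtype.ext
      simp only [pow_one, Subgroup.coe_pow, Subgroup.coe_one]
      rw [← zpow_natCast, ← zpow_mul, mul_comm, zpow_mul, zpow_natCast, hbp, one_zpow]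
    have hZA : zpowers b ≤ A := by rw [zpowers_le]; exact hb
    have hN : ¬ p ∣ Nat.card (D ⊓ S : Subgroup G) :=
      not_dvd_card_of_isPGroup hqp (hDq.to_le inf_le_left)
    have hZN : zpowers b ≤ normalizer ((D ⊓ S : Subgroup G) : Set G) := fun y hy =>
      normalizer_inf_le _ _ (mem_inf.mpr ⟨hAD (hZA hy), hAS (hZA hy)⟩)
    have hcomm : ∀ y ∈ zpowers b, y * (s * d) = (s * d) * y := by
      intro y hy
      have h1 : zpowers b ≤ centralizer {s * d} := by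
        rw [zpowers_le, mem_centralizer_iff]
        intro h hh
        rw [Set.mem_singleton_iff] at hh
        subst hh
        exact hbx.symm
      exact (mem_centralizer_iff.mp (h1 hy) _ rfl).symm
    obtain ⟨n, hn, hfix⟩ := coset_fixed p hZ hZN hN s (by
      intro y hy
      have h1 := hcomm y hy
      have h2 : s⁻¹ * (y * s * y⁻¹) = d * (y * d * y⁻¹)⁻¹ := by
        have h3 : y * s * y⁻¹ * (y * d * y⁻¹) = s * d := by
          calc y * s * y⁻¹ * (y * d * y⁻¹) = y * (s * d) * y⁻¹ := by group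
            _ = s * d := by rw [h1, mul_inv_cancel_right]
        rw [eq_mul_inv_iff_mul_eq, mul_assoc, h3, inv_mul_cancel_left]
      refine mem_inf.mpr ⟨?_, ?_⟩
      · rw [h2]
        exact D.mul_mem hd (D.inv_mem (conj_mem_of_le_normalizer hAD y (hZA hy) d hd))
      · exact S.mul_mem (S.inv_mem hs) (conj_mem_of_le_normalizer hAS y (hZA hy) s hs))
    have hbsn : b * (s * n) = s * n * b := by
      have h1 := hfix b (mem_zpowers b)
      calc b * (s * n) = b * (s * n) * b⁻¹ * b := by group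
        _ = s * n * b := by rw [h1]
    have hsn : s * n ∈ θ b := by
      apply hθ.2.2.2 a ha ha1 b hb hb1
      refine mem_inf.mpr ⟨hSθ (S.mul_mem hs (mem_inf.mp hn).2), ?_⟩
      rw [mem_centralizer_iff]
      intro h hh
      rw [Set.mem_singleton_iff] at hh
      subst hh
      exact hbsn
    have hnd : n⁻¹ * d ∈ θ b := by
      apply hDθ b hb hb1
      refine mem_inf.mpr ⟨D.mul_mem (D.inv_mem (mem_inf.mp hn).1) hd, ?_⟩
      rw [mem_centralizer_iff]
      intro h hh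
      rw [Set.mem_singleton_iff] at hh
      subst hh
      have h3 : n⁻¹ * d = (s * n)⁻¹ * (s * d) := by group
      rw [h3]
      have c1 : Commute h (s * n) := hbsn
      have c2 : Commute h (s * d) := hbx
      exact (c1.inv_right.mul_right c2).eq
    have h4 : s * d = (s * n) * (n⁻¹ * d) := by group
    rw [h4]
    exact mul_mem hsn hnd


theorem isPGroup_of_elemAb {p : ℕ} {A : Subgroup G} (hA : IsElementaryAbelian p A) :
    IsPGroup p A := fun a =>
  ⟨1, by rw [pow_one]; exact Subtype.ext (by simpa using hA.2 a a.2)⟩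

theorem isSolvable_of_elemAb {p : ℕ} {A : Subgroup G} (hA : IsElementaryAbelian p A) :
    Group.IsSolvable A := Group.isSolvable_of_comm (fun a b => hA.1.is_comm.comm a b)

theorem coprime_of_elemAb [Finite G] {p : ℕ} [Fact p.Prime] {A X : Subgroup G}
    (hA : IsElementaryAbelian p A) (hX : ¬ p ∣ Nat.card X) :
    (Nat.card A).Coprime (Nat.card X) := by
  have hp := (Fact.out : p.Prime)
  obtain ⟨n, hn⟩ := IsPGroup.iff_card.mp (isPGroup_of_elemAb hA)
  rw [hn]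
  exact Nat.Coprime.pow_left _ ((Nat.Prime.coprime_iff_not_dvd hp).mpr hX)

/-- The Transitivity Theorem, induction form. -/
theorem transitivity_aux [Finite G] {p : ℕ} [Fact p.Prime] {A : Subgroup G}
    (hA : IsElementaryAbelian p A) (hA3 : p ^ 3 ≤ Nat.card A) {θ : G → Subgroup G}
    (hθ : IsSolvableSignalizerFunctor p A θ) {q : ℕ} [Fact q.Prime] (hqp : q ≠ p) :
    ∀ (n : ℕ) (Q₁ Q₂ : Subgroup G), IsMaxSig p A θ q Q₁ → IsMaxSig p A θ q Q₂ →
      Nat.card G - Nat.card (Q₁ ⊓ Q₂ : Subgroup G) = n → SigConj A θ Q₁ Q₂ := by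
  intro n
  induction n using Nat.strong_induction_on with
  | _ n ih =>
  intro Q₁ Q₂ hQ₁ hQ₂ hn
  by_cases hD₁ : Q₁ ⊓ Q₂ = Q₁
  · have h1 : Q₂ = Q₁ := hQ₁.2.2 Q₂ hQ₂.1 hQ₂.2.1 (inf_eq_left.mp hD₁)
    exact ⟨1, one_mem _, by rw [map_conj_one, h1]⟩
  by_cases hD₂ : Q₁ ⊓ Q₂ = Q₂
  · have h1 : Q₁ = Q₂ := hQ₂.2.2 Q₁ hQ₁.1 hQ₁.2.1 (inf_eq_right.mp hD₂)
    exact ⟨1, one_mem _, by rw [map_conj_one, h1]⟩
  obtain ⟨hs₁, hp₁, hinv₁, hcen₁⟩ := hQ₁.1
  obtain ⟨hs₂, hp₂, hinv₂, hcen₂⟩ := hQ₂.1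
  have hA₁ : A ≤ normalizer (Q₁ : Set G) := le_normalizer_of_conj_mem hinv₁
  have hA₂ : A ≤ normalizer (Q₂ : Set G) := le_normalizer_of_conj_mem hinv₂
  obtain ⟨a, ha, ha1, hN₁, hN₂⟩ := Cfsg.Agent.S1282.result p A hA hA3 q hqp Q₁ Q₂ hQ₁.2.1
    hQ₂.2.1 hA₁ hA₂ hD₁ hD₂
  obtain ⟨D, hD⟩ : ∃ D : Subgroup G, D = Q₁ ⊓ Q₂ := ⟨_, rfl⟩
  rw [← hD] at hN₁ hN₂ hn
  have hDQ₁ : D ≤ Q₁ := hD ▸ inf_le_left
  have hDQ₂ : D ≤ Q₂ := hD ▸ inf_le_right
  have hAD : A ≤ normalizer (D : Set G) := fun b hb => by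
    rw [hD]; exact normalizer_inf_le _ _ (mem_inf.mpr ⟨hA₁ hb, hA₂ hb⟩)
  have hDq : IsPGroup q D := hQ₁.2.1.to_le hDQ₁
  have hDθ : ∀ b ∈ A, b ≠ 1 → D ⊓ centralizer {b} ≤ θ b := fun b hb hb1 =>
    le_trans (inf_le_inf_right _ hDQ₁) (hcen₁ b hb hb1)
  obtain ⟨M, hM⟩ : ∃ M : Subgroup G, M = θ a ⊓ normalizer (D : Set G) := ⟨_, rfl⟩
  have hMθ : M ≤ θ a := hM ▸ inf_le_left
  have hMD : M ≤ normalizer (D : Set G) := hM ▸ inf_le_right
  have hAθa : A ≤ normalizer (θ a : Set G) :=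
    le_normalizer_of_conj_mem (fun b hb x hx => hθ.1.2.2.1 a ha ha1 b hb x hx)
  have hAM : A ≤ normalizer (M : Set G) := fun b hb => by
    rw [hM]; exact normalizer_inf_le _ _ (mem_inf.mpr ⟨hAθa hb, le_normalizer (hAD hb)⟩)
  have hcopM : (Nat.card A).Coprime (Nat.card M) :=
    coprime_of_elemAb hA (fun h => hθ.1.2.1 a ha ha1 (dvd_trans h (Subgroup.card_dvd_of_le hMθ)))
  have hsolvA : Group.IsSolvable A := isSolvable_of_elemAb hA
  have hAa : A ≤ normalizer ((centralizer {a} : Subgroup G) : Set G) := by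
    intro b hb
    have hba : b * a = a * b := congrArg Subtype.val (hA.1.is_comm.comm ⟨b, hb⟩ ⟨a, ha⟩)
    rw [mem_normalizer_iff_map_conj, map_conj_centralizer_set]
    congr 1
    ext x
    simp only [Set.mem_image, Set.mem_singleton_iff, exists_eq_left]
    rw [hba, mul_inv_cancel_right]
    exact eq_comm
  have claim : ∀ Q : Subgroup G, IsMaxSig p A θ q Q → D ≤ Q →
      ¬ (normalizer (D : Set G) ⊓ Q ⊓ centralizer {a} ≤ D) →
      ∃ (P : Sylow q M) (R : Subgroup G),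
        A ≤ normalizer (((P : Subgroup M).map M.subtype : Subgroup G) : Set G) ∧
        IsMaxSig p A θ q R ∧ D ⊔ (P : Subgroup M).map M.subtype ≤ R ∧ SigConj A θ Q R ∧
        ¬ ((P : Subgroup M).map M.subtype ≤ D) := by
    intro Q hQ hDQ hN
    obtain ⟨hs, hp', hinv, hcen⟩ := hQ.1
    have hAQ : A ≤ normalizer (Q : Set G) := le_normalizer_of_conj_mem hinv
    have hNM : normalizer (D : Set G) ⊓ Q ⊓ centralizer {a} ≤ M := by
      rw [hM]
      refine le_inf ?_ (le_trans inf_le_left inf_le_left)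
      exact le_trans (inf_le_inf_right _ inf_le_right) (hcen a ha ha1)
    have hNq : IsPGroup q (normalizer (D : Set G) ⊓ Q ⊓ centralizer {a} : Subgroup G) :=
      hQ.2.1.to_le (le_trans inf_le_left inf_le_right)
    have hAN : A ≤ normalizer ((normalizer (D : Set G) ⊓ Q ⊓ centralizer {a} : Subgroup G) : Set G) :=
      fun b hb => normalizer_inf_le _ _ (mem_inf.mpr
        ⟨normalizer_inf_le _ _ (mem_inf.mpr ⟨le_normalizer (hAD hb), hAQ hb⟩), hAa hb⟩)
    obtain ⟨P, hNP, hAP⟩ := Cfsg.Agent.Lib.Helper1.invariant_pgroup_le_invariant_sylow hAM hcopM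
      (Or.inl hsolvA) q _ hNM hNq hAN
    have hSM : (P : Subgroup M).map M.subtype ≤ M := by
      rintro _ ⟨x, _, rfl⟩; exact x.2
    have hSq : IsPGroup q ((P : Subgroup M).map M.subtype : Subgroup G) := P.2.map _
    obtain ⟨hfam, hDSq⟩ := sup_mem_signalizerFamily hA hθ.1 hqp ha ha1 hDq hSq hAD hAP
      (le_trans hSM hMD) hDθ (le_trans hSM hMθ)
    obtain ⟨R, hR, hDSR⟩ := exists_isMaxSig_ge hfam hDSq
    have hSD : ¬ ((P : Subgroup M).map M.subtype ≤ D) := fun h => hN (le_trans hNP h)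
    refine ⟨P, R, hAP, hR, hDSR, ?_, hSD⟩
    have hlt : Nat.card D < Nat.card (Q ⊓ R : Subgroup G) :=
      card_lt_of_le_of_not_le (le_inf hDQ (le_trans le_sup_left hDSR))
        (le_inf (le_trans inf_le_left inf_le_right) (le_trans hNP (le_trans le_sup_right hDSR))) hN
    have hle := Subgroup.card_le_card_group (Q ⊓ R)
    exact ih (Nat.card G - Nat.card (Q ⊓ R : Subgroup G)) (by omega) Q R hQ hR rfl
  obtain ⟨P₁, R₁, hAP₁, hR₁, hDS₁, hc₁, hS₁D⟩ := claim Q₁ hQ₁ hDQ₁ hN₁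
  obtain ⟨P₂, R₂, hAP₂, hR₂, hDS₂, hc₂, hS₂D⟩ := claim Q₂ hQ₂ hDQ₂ hN₂
  obtain ⟨c, hcA, hcP⟩ := Cfsg.Agent.Lib.Helper1.invariant_sylow_conj hAM hcopM (Or.inl hsolvA) q
    P₁ P₂ hAP₁ hAP₂
  have hcS : ((P₁ : Subgroup M).map M.subtype).map (MulAut.conj (c : G)).toMonoidHom
      = (P₂ : Subgroup M).map M.subtype := by
    rw [← Cfsg.Agent.Lib.Helper1.conj_smul_eq_map, ← Cfsg.Agent.Lib.Helper1.map_subtype_conj_smul,
      ← hcP, Sylow.pointwise_smul_def]
  have hcθ : (c : G) ∈ signalizerInf A θ := mem_signalizerInf hθ.1 ha ha1 (hMθ c.2) hcA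
  have hcD : D.map (MulAut.conj (c : G)).toMonoidHom = D :=
    mem_normalizer_iff_map_conj.mp (hMD c.2)
  have hR₁' := IsMaxSig.map_conj hθ.1 hcθ hR₁
  have hle₁ : D ⊔ (P₂ : Subgroup M).map M.subtype ≤ R₁.map (MulAut.conj (c : G)).toMonoidHom := by
    rw [← hcD, ← hcS, ← Subgroup.map_sup]
    exact Subgroup.map_mono hDS₁
  have hlt : Nat.card D < Nat.card (R₁.map (MulAut.conj (c : G)).toMonoidHom ⊓ R₂ : Subgroup G) :=
    card_lt_of_le_of_not_le (le_inf (le_trans le_sup_left hle₁) (le_trans le_sup_left hDS₂))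
      (le_inf (le_trans le_sup_right hle₁) (le_trans le_sup_right hDS₂)) hS₂D
  have hle := Subgroup.card_le_card_group (R₁.map (MulAut.conj (c : G)).toMonoidHom ⊓ R₂)
  have hc₃ : SigConj A θ (R₁.map (MulAut.conj (c : G)).toMonoidHom) R₂ :=
    ih (Nat.card G - Nat.card (R₁.map (MulAut.conj (c : G)).toMonoidHom ⊓ R₂ : Subgroup G))
      (by omega) _ R₂ hR₁' hR₂ rfl
  exact (hc₁.trans (SigConj.trans ⟨c, hcθ, rfl⟩ hc₃)).trans hc₂.symm

/-- The Transitivity Theorem: `θ(C_G(A))` is transitive on the maximal `q`-subgroups in the family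
of a solvable signalizer functor `θ` (rank at least 3, `q ≠ p`). -/
theorem transitivity [Finite G] {p : ℕ} [Fact p.Prime] {A : Subgroup G}
    (hA : IsElementaryAbelian p A) (hA3 : p ^ 3 ≤ Nat.card A) {θ : G → Subgroup G}
    (hθ : IsSolvableSignalizerFunctor p A θ) {q : ℕ} [Fact q.Prime] (hqp : q ≠ p)
    {Q₁ Q₂ : Subgroup G} (h₁ : IsMaxSig p A θ q Q₁) (h₂ : IsMaxSig p A θ q Q₂) :
    SigConj A θ Q₁ Q₂ :=
  transitivity_aux hA hA3 hθ hqp _ Q₁ Q₂ h₁ h₂ rfl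


theorem signalizerFamily_of_le [Finite G] {p : ℕ} {A : Subgroup G} {θ : G → Subgroup G}
    {U V : Subgroup G} (hU : U ∈ signalizerFamily p A θ) (hVU : V ≤ U)
    (hAV : A ≤ normalizer (V : Set G)) : V ∈ signalizerFamily p A θ := by
  obtain ⟨hs, hp', hinv, hcen⟩ := hU
  refine ⟨?_, fun h => hp' (dvd_trans h (Subgroup.card_dvd_of_le hVU)),
    conj_mem_of_le_normalizer hAV, fun a ha ha1 => le_trans (inf_le_inf_right _ hVU) (hcen a ha ha1)⟩
  exact Group.isSolvable_of_isSolvable_injective (Subgroup.inclusion_injective hVU)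

theorem theta_mem_signalizerFamily {p : ℕ} {A : Subgroup G} {θ : G → Subgroup G}
    (hθ : IsSolvableSignalizerFunctor p A θ) {a : G} (ha : a ∈ A) (ha1 : a ≠ 1) :
    θ a ∈ signalizerFamily p A θ :=
  ⟨hθ.2 a ha ha1, hθ.1.2.1 a ha ha1, fun b hb x hx => hθ.1.2.2.1 a ha ha1 b hb x hx,
    fun b hb hb1 => hθ.1.2.2.2 a ha ha1 b hb hb1⟩

theorem bot_mem_signalizerFamily {p : ℕ} [Fact p.Prime] {A : Subgroup G} {θ : G → Subgroup G} :
    (⊥ : Subgroup G) ∈ signalizerFamily p A θ := by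
  have hp := (Fact.out : p.Prime)
  refine ⟨inferInstance, ?_, ?_, ?_⟩
  · rw [Subgroup.card_bot]
    exact hp.one_lt.ne' ∘ Nat.dvd_one.mp
  · intro b _ u hu
    rw [Subgroup.mem_bot] at hu ⊢
    rw [hu, mul_one, mul_inv_cancel]
  · intro a _ _
    exact le_trans inf_le_left bot_le

end Transitivity

end Cfsg.Agent.Lib.Helper30
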