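-- helper30: A-invariant Sylow subgroups in subgroup form; factorization of q-groups (KS 11.2.1).
import Mathlib
import Cfsg.Agent.S0057
import Cfsg.Agent.S0058
import Cfsg.Agent.Lib.Helper1.Coprime2
import Cfsg.Agent.Lib.Helper30.Transitivity

set_option autoImplicit false
open Cfsg

namespace Cfsg.Agent.Lib.Helper30

open Subgroup
open scoped commutatorElement

section InvSylow
variable {G : Type*} [Group G] [Finite G]

/-- `P` is a Sylow `q`-subgroup of `K` (as subgroups of `G`). -/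
def IsSyl (q : ℕ) (P K : Subgroup G) : Prop :=
  P ≤ K ∧ Nat.card P = q ^ (Nat.card K).factorization q

theorem IsSyl.isPGroup {q : ℕ} [Fact q.Prime] {P K : Subgroup G} (h : IsSyl q P K) :
    IsPGroup q P := IsPGroup.of_card h.2

/-- a `q`-subgroup of `K` has order dividing the `q`-part of `|K|`. -/
theorem card_dvd_of_isPGroup_le {q : ℕ} [Fact q.Prime] {U K : Subgroup G} (hU : IsPGroup q U)
    (hUK : U ≤ K) : Nat.card U ∣ q ^ (Nat.card K).factorization q := by
  obtain ⟨n, hn⟩ := IsPGroup.iff_card.mp hU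
  rw [hn]
  have h1 : q ^ n ∣ Nat.card K := hn ▸ Subgroup.card_dvd_of_le hUK
  exact pow_dvd_pow q
    ((Nat.Prime.pow_dvd_iff_le_factorization Fact.out Nat.card_pos.ne').mp h1)

theorem isSyl_of_card_le {q : ℕ} [Fact q.Prime] {U K : Subgroup G} (hU : IsPGroup q U)
    (hUK : U ≤ K) (h : q ^ (Nat.card K).factorization q ≤ Nat.card U) : IsSyl q U K :=
  ⟨hUK, le_antisymm (Nat.le_of_dvd (pow_pos (Fact.out : q.Prime).pos _)
    (card_dvd_of_isPGroup_le hU hUK)) h⟩

theorem bot_le_normalizer' (A : Subgroup G) : A ≤ normalizer (((⊥ : Subgroup G) : Subgroup G) : Set G) := by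
  intro a _
  rw [mem_normalizer_iff]
  intro h
  simp only [mem_bot]
  constructor
  · rintro rfl; simp
  · intro h1
    have : h = a⁻¹ * (a * h * a⁻¹) * a := by group
    rw [this, h1]; simp

/-- Coprime action: an `A`-invariant `q`-subgroup of `K` lies in an `A`-invariant Sylow
`q`-subgroup of `K`. -/
theorem exists_isSyl_ge {A K : Subgroup G} (hAK : A ≤ normalizer (K : Set G))
    (hcop : (Nat.card A).Coprime (Nat.card K)) (hsolv : Group.IsSolvable A)
    (q : ℕ) [Fact q.Prime] (U : Subgroup G) (hUK : U ≤ K) (hU : IsPGroup q U)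
    (hUA : A ≤ normalizer (U : Set G)) :
    ∃ P : Subgroup G, IsSyl q P K ∧ U ≤ P ∧ A ≤ normalizer (P : Set G) := by
  obtain ⟨P, hUP, hAP⟩ := Cfsg.Agent.Lib.Helper1.invariant_pgroup_le_invariant_sylow hAK hcop
    (Or.inl hsolv) q U hUK hU hUA
  refine ⟨(P : Subgroup K).map K.subtype, ⟨Subgroup.map_subtype_le _, ?_⟩, hUP, hAP⟩
  rw [Subgroup.card_map_of_injective K.subtype_injective]
  exact P.card_eq_multiplicity

theorem exists_isSyl {A K : Subgroup G} (hAK : A ≤ normalizer (K : Set G))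
    (hcop : (Nat.card A).Coprime (Nat.card K)) (hsolv : Group.IsSolvable A)
    (q : ℕ) [Fact q.Prime] :
    ∃ P : Subgroup G, IsSyl q P K ∧ A ≤ normalizer (P : Set G) := by
  obtain ⟨P, h1, _, h2⟩ := exists_isSyl_ge hAK hcop hsolv q ⊥ bot_le IsPGroup.of_bot
    (bot_le_normalizer' A)
  exact ⟨P, h1, h2⟩

/-- Coprime action: two `A`-invariant Sylow `q`-subgroups of `K` are conjugate under `C_K(A)`. -/
theorem isSyl_conj {A K : Subgroup G} (hAK : A ≤ normalizer (K : Set G))
    (hcop : (Nat.card A).Coprime (Nat.card K)) (hsolv : Group.IsSolvable A)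
    (q : ℕ) [Fact q.Prime] {P₁ P₂ : Subgroup G} (h₁ : IsSyl q P₁ K) (h₂ : IsSyl q P₂ K)
    (hA₁ : A ≤ normalizer (P₁ : Set G)) (hA₂ : A ≤ normalizer (P₂ : Set G)) :
    ∃ c ∈ K ⊓ centralizer (A : Set G), P₁.map (MulAut.conj c).toMonoidHom = P₂ := by
  have hc₁ : Nat.card (P₁.subgroupOf K) = q ^ (Nat.card K).factorization q := by
    rw [Cfsg.Agent.Lib.Helper1.card_subgroupOf_of_le h₁.1]; exact h₁.2
  have hc₂ : Nat.card (P₂.subgroupOf K) = q ^ (Nat.card K).factorization q := by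
    rw [Cfsg.Agent.Lib.Helper1.card_subgroupOf_of_le h₂.1]; exact h₂.2
  have e₁ : ((Sylow.ofCard (P₁.subgroupOf K) hc₁ : Sylow q K) : Subgroup K).map K.subtype = P₁ := by
    rw [Sylow.coe_ofCard]; exact Subgroup.map_subgroupOf_eq_of_le h₁.1
  have e₂ : ((Sylow.ofCard (P₂.subgroupOf K) hc₂ : Sylow q K) : Subgroup K).map K.subtype = P₂ := by
    rw [Sylow.coe_ofCard]; exact Subgroup.map_subgroupOf_eq_of_le h₂.1
  obtain ⟨c, hcA, hcP⟩ := Cfsg.Agent.Lib.Helper1.invariant_sylow_conj hAK hcop (Or.inl hsolv) q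
    (Sylow.ofCard (P₁.subgroupOf K) hc₁) (Sylow.ofCard (P₂.subgroupOf K) hc₂)
    (by rw [e₁]; exact hA₁) (by rw [e₂]; exact hA₂)
  refine ⟨c, mem_inf.mpr ⟨c.2, hcA⟩, ?_⟩
  rw [← e₁, ← e₂, ← Cfsg.Agent.Lib.Helper1.conj_smul_eq_map,
    ← Cfsg.Agent.Lib.Helper1.map_subtype_conj_smul, ← hcP, Sylow.pointwise_smul_def]

theorem le_normalizer_centralizer_of_comm {A : Subgroup G} (hAc : ∀ a ∈ A, ∀ b ∈ A, a * b = b * a)
    (T : Set G) (hT : T ⊆ A) : A ≤ normalizer ((centralizer T : Subgroup G) : Set G) := by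
  intro b hb
  rw [mem_normalizer_iff_map_conj, map_conj_centralizer_set]
  congr 1
  ext x
  simp only [Set.mem_image]
  constructor
  · rintro ⟨s, hs, rfl⟩
    rw [hAc b hb s (hT hs), mul_inv_cancel_right]; exact hs
  · intro hx
    exact ⟨x, hx, by rw [hAc b hb x (hT hx), mul_inv_cancel_right]⟩

theorem map_conj_centralizer_of_mem {T : Set G} {c : G} (hc : c ∈ centralizer T) :
    (centralizer T).map (MulAut.conj c).toMonoidHom = centralizer T := by
  rw [map_conj_centralizer_set]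
  congr 1
  ext x
  simp only [Set.mem_image]
  constructor
  · rintro ⟨s, hs, rfl⟩
    rw [← mem_centralizer_iff.mp hc s hs, mul_inv_cancel_right]; exact hs
  · intro hx
    exact ⟨x, hx, by rw [← mem_centralizer_iff.mp hc x hx, mul_inv_cancel_right]⟩

/-- The centralizer of `T ⊆ A` in an `A`-invariant Sylow `q`-subgroup of `K` is a Sylow
`q`-subgroup of `C_K(T)` (`A` abelian, coprime action). -/
theorem isSyl_inf_centralizer {A K : Subgroup G} (hAK : A ≤ normalizer (K : Set G))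
    (hcop : (Nat.card A).Coprime (Nat.card K)) (hAc : ∀ a ∈ A, ∀ b ∈ A, a * b = b * a)
    (q : ℕ) [Fact q.Prime] {P : Subgroup G} (hP : IsSyl q P K) (hAP : A ≤ normalizer (P : Set G))
    (T : Set G) (hT : T ⊆ A) : IsSyl q (P ⊓ centralizer T) (K ⊓ centralizer T) := by
  have hsolv : Group.IsSolvable A :=
    Group.isSolvable_of_comm (fun a b => Subtype.ext (hAc a a.2 b b.2))
  have hAT := le_normalizer_centralizer_of_comm hAc T hT
  have hAL : A ≤ normalizer ((K ⊓ centralizer T : Subgroup G) : Set G) := fun b hb =>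
    normalizer_inf_le _ _ (mem_inf.mpr ⟨hAK hb, hAT hb⟩)
  have hcopL : (Nat.card A).Coprime (Nat.card (K ⊓ centralizer T : Subgroup G)) :=
    Nat.Coprime.coprime_dvd_right (Subgroup.card_dvd_of_le inf_le_left) hcop
  obtain ⟨R, hR, hAR⟩ := exists_isSyl hAL hcopL hsolv q
  obtain ⟨P₂, hP₂, hRP₂, hAP₂⟩ := exists_isSyl_ge hAK hcop hsolv q R (hR.1.trans inf_le_left)
    hR.isPGroup hAR
  obtain ⟨c, hc, hcP⟩ := isSyl_conj hAK hcop hsolv q hP hP₂ hAP hAP₂
  have hcT : c ∈ centralizer T := centralizer_le hT (mem_inf.mp hc).2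
  have h1 : R ≤ (P ⊓ centralizer T).map (MulAut.conj c).toMonoidHom := by
    rw [Subgroup.map_inf _ _ _ (MulAut.conj c).injective, hcP, map_conj_centralizer_of_mem hcT]
    exact le_inf hRP₂ (hR.1.trans inf_le_right)
  have h2 : Nat.card R ≤ Nat.card (P ⊓ centralizer T : Subgroup G) := by
    have := Subgroup.card_le_of_le h1
    rwa [Subgroup.card_map_of_injective (MulAut.conj c).injective] at this
  refine isSyl_of_card_le (hP.isPGroup.to_le inf_le_left) (inf_le_inf_right _ hP.1) ?_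
  rw [← hR.2]; exact h2

theorem not_isCyclic_of_elemAb {p : ℕ} [Fact p.Prime] {A : Subgroup G}
    (hA : IsElementaryAbelian p A) (hA2 : p ^ 2 ≤ Nat.card A) : ¬ IsCyclic A := by
  intro hc
  obtain ⟨g, hg⟩ := hc.exists_generator
  have h1 : orderOf g = Nat.card A := orderOf_eq_card_of_forall_mem_zpowers hg
  have h2 : g ^ p = 1 := Subtype.ext (by simpa using hA.2 g g.2)
  have h3 : Nat.card A ∣ p := h1 ▸ orderOf_dvd_of_pow_eq_one h2
  have hp := (Fact.out : p.Prime)
  have h4 := Nat.le_of_dvd hp.pos h3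
  have h5 : p < p ^ 2 := by
    have := hp.two_le
    nlinarith
  omega

theorem le_normalizer_lowerCentralSeries {A Q : Subgroup G} (hAQ : A ≤ normalizer (Q : Set G)) :
    ∀ n, A ≤ normalizer ((Q.lowerCentralSeries n : Subgroup G) : Set G)
  | 0 => hAQ
  | n + 1 => by
    intro a ha
    rw [Subgroup.lowerCentralSeries_succ, Cfsg.Agent.Lib.Helper1.mem_normalizer_iff_conj_smul,
      Cfsg.Agent.Lib.Helper1.conj_smul_commutator,
      (Cfsg.Agent.Lib.Helper1.mem_normalizer_iff_conj_smul a _).mp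
        (le_normalizer_lowerCentralSeries hAQ n ha),
      (Cfsg.Agent.Lib.Helper1.mem_normalizer_iff_conj_smul a Q).mp (hAQ ha)]

/-- Factorization of a nilpotent group from factorizations of the centralizers `C_Q(a)`:
if `A` is a noncyclic elementary abelian `p`-group acting coprimely on the nilpotent group `Q`
and `C_Q(a) ⊆ X Y` for all `a ∈ A#`, then `Q = X Y`. -/
theorem nilpotent_fact {p : ℕ} [Fact p.Prime] {A Q X Y : Subgroup G}
    (hA : IsElementaryAbelian p A) (hA2 : p ^ 2 ≤ Nat.card A) (hnil : Group.IsNilpotent Q)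
    (hcop : (Nat.card A).Coprime (Nat.card Q)) (hAQ : A ≤ normalizer (Q : Set G))
    (hY : Y ≤ Q)
    (hfac : ∀ a ∈ A, a ≠ 1 → ∀ g ∈ Q ⊓ centralizer {a}, ∃ x ∈ X, ∃ y ∈ Y, g = x * y) :
    ∀ g ∈ Q, ∃ x ∈ X, ∃ y ∈ Y, g = x * y := by
  haveI := hA.1
  have hnc := not_isCyclic_of_elemAb hA hA2
  have key : ∀ n, ∀ g ∈ Q, ∃ x ∈ X, ∃ y ∈ Y, ∃ z ∈ Q.lowerCentralSeries n, g = x * y * z := by
    intro n
    induction n with
    | zero =>
      intro g hg
      exact ⟨1, one_mem _, 1, one_mem _, g, hg, by simp⟩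
    | succ n ih =>
      have hΓQ : Q.lowerCentralSeries n ≤ Q := Subgroup.lowerCentralSeries_antitone Q (Nat.zero_le n)
      have hAΓ := le_normalizer_lowerCentralSeries hAQ n
      have hcopΓ : (Nat.card A).Coprime (Nat.card (Q.lowerCentralSeries n)) :=
        Nat.Coprime.coprime_dvd_right (Subgroup.card_dvd_of_le hΓQ) hcop
      have hgen := Cfsg.Agent.S0058.result A (Q.lowerCentralSeries n) hnc hAΓ hcopΓ
      have hQN := Subgroup.self_le_normalizer_lowerCentralSeries Q (n + 1)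
      have hC : ∀ z ∈ Q.lowerCentralSeries n, ∀ x ∈ X, ∀ y ∈ Y,
          ∀ w ∈ Q.lowerCentralSeries (n + 1),
          ∃ x' ∈ X, ∃ y' ∈ Y, ∃ w' ∈ Q.lowerCentralSeries (n + 1), x * y * w * z = x' * y' * w' := by
        intro z hz
        rw [← hgen] at hz
        refine Subgroup.iSup_induction _
          (C := fun z => ∀ x ∈ X, ∀ y ∈ Y, ∀ w ∈ Q.lowerCentralSeries (n + 1),
            ∃ x' ∈ X, ∃ y' ∈ Y, ∃ w' ∈ Q.lowerCentralSeries (n + 1), x * y * w * z = x' * y' * w')
          hz (fun a z hz' => ?_) ?_ ?_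
        · refine Subgroup.iSup_induction _
            (C := fun z => ∀ x ∈ X, ∀ y ∈ Y, ∀ w ∈ Q.lowerCentralSeries (n + 1),
              ∃ x' ∈ X, ∃ y' ∈ Y, ∃ w' ∈ Q.lowerCentralSeries (n + 1), x * y * w * z = x' * y' * w')
            hz' (fun ha z hz'' => ?_) ?_ ?_
          · obtain ⟨hzΓ, hza⟩ := mem_inf.mp hz''
            obtain ⟨xc, hxc, yc, hyc, hzc⟩ := hfac a ha.1 ha.2 z (mem_inf.mpr ⟨hΓQ hzΓ, hza⟩)
            intro x hx y hy w hw
            refine ⟨x * xc, X.mul_mem hx hxc, yc * y, Y.mul_mem hyc hy,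
              (y⁻¹ * z⁻¹ * y * z) * (z⁻¹ * w * z), ?_, ?_⟩
            · refine Subgroup.mul_mem _ ?_ ?_
              · have h1 : ⁅z⁻¹, y⁻¹⁆ ∈ Q.lowerCentralSeries (n + 1) :=
                  Subgroup.commutator_mem_commutator (inv_mem hzΓ) (Q.inv_mem (hY hy))
                have h2 := inv_mem h1
                have h3 : (⁅z⁻¹, y⁻¹⁆)⁻¹ = y⁻¹ * z⁻¹ * y * z := by
                  simp [commutatorElement_def, mul_assoc]
                rwa [h3] at h2
              · have h1 := (mem_normalizer_iff.mp (hQN (Q.inv_mem (hΓQ hzΓ))) w).mp hw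
                simpa using h1
            · rw [hzc]
              have : yc⁻¹ * xc⁻¹ = (xc * yc)⁻¹ := by group
              group
          · intro x hx y hy w hw
            exact ⟨x, hx, y, hy, w, hw, by simp⟩
          · intro z₁ z₂ h₁ h₂ x hx y hy w hw
            obtain ⟨x', hx', y', hy', w', hw', e⟩ := h₁ x hx y hy w hw
            obtain ⟨x'', hx'', y'', hy'', w'', hw'', e'⟩ := h₂ x' hx' y' hy' w' hw'
            exact ⟨x'', hx'', y'', hy'', w'', hw'', by rw [← mul_assoc, e, e']⟩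
        · intro x hx y hy w hw
          exact ⟨x, hx, y, hy, w, hw, by simp⟩
        · intro z₁ z₂ h₁ h₂ x hx y hy w hw
          obtain ⟨x', hx', y', hy', w', hw', e⟩ := h₁ x hx y hy w hw
          obtain ⟨x'', hx'', y'', hy'', w'', hw'', e'⟩ := h₂ x' hx' y' hy' w' hw'
          exact ⟨x'', hx'', y'', hy'', w'', hw'', by rw [← mul_assoc, e, e']⟩
      intro g hg
      obtain ⟨x, hx, y, hy, z, hz, e⟩ := ih g hg
      obtain ⟨x', hx', y', hy', w', hw', e'⟩ := hC z hz x hx y hy 1 (one_mem _)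
      exact ⟨x', hx', y', hy', w', hw', by rw [e, ← e']; simp⟩
  obtain ⟨n, hn⟩ := (Subgroup.isNilpotent_iff_lowerCentralSeries Q).mp hnil
  intro g hg
  obtain ⟨x, hx, y, hy, z, hz, e⟩ := key n g hg
  rw [hn, mem_bot] at hz
  exact ⟨x, hx, y, hy, by rw [e, hz, mul_one]⟩

/-- `|S : S ∩ T| · |S ∩ T| = |S|`. -/
theorem relIndex_mul_card_inf (S T : Subgroup G) :
    T.relIndex S * Nat.card (S ⊓ T : Subgroup G) = Nat.card S := by
  have h1 := Subgroup.card_mul_index (T.subgroupOf S)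
  rw [← Subgroup.inf_subgroupOf_right, Cfsg.Agent.Lib.Helper1.card_subgroupOf_of_le inf_le_right,
    Subgroup.inf_subgroupOf_right, inf_comm] at h1
  rw [mul_comm]; exact h1

/-- if `S T ⊇ U ⊇ S`, then `|U| · |S ∩ T| = |S| · |T|` provided `T ≤ U`. -/
theorem card_mul_card_inf_of_cover {S T U : Subgroup G} (hSU : S ≤ U) (hTU : T ≤ U)
    (h : ∀ u ∈ U, ∃ s ∈ S, ∃ t ∈ T, u = s * t) :
    Nat.card U * Nat.card (S ⊓ T : Subgroup G) = Nat.card S * Nat.card T := by
  have h1 : T.relIndex S = T.relIndex U := Cfsg.Agent.S0057.relIndex_of_cover hSU (fun u hu => by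
    obtain ⟨s, hs, t, ht, e⟩ := h u hu
    exact ⟨s, hs, by rw [e]; simpa using ht⟩)
  have h2 := relIndex_mul_card_inf S T
  have h3 := relIndex_mul_card_inf U T
  rw [inf_eq_right.mpr hTU] at h3
  rw [← h2, ← h3, h1]; ring

/-- converse: if `|U| · |S ∩ T| ≤ |S| · |T|` with `S, T ≤ U` then `U = S T`. -/
theorem cover_of_card_le {S T U : Subgroup G} (hSU : S ≤ U) (hTU : T ≤ U)
    (h : Nat.card U * Nat.card (S ⊓ T : Subgroup G) ≤ Nat.card S * Nat.card T) :
    ∀ u ∈ U, ∃ s ∈ S, ∃ t ∈ T, u = s * t := by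
  have h2 := relIndex_mul_card_inf S T
  have h3 := relIndex_mul_card_inf U T
  rw [inf_eq_right.mpr hTU] at h3
  have h4 : T.relIndex S ≤ T.relIndex U :=
    Subgroup.relIndex_le_of_le_right hSU (fun h0 => by
      rw [h0, zero_mul] at h3; exact Nat.card_pos.ne' h3.symm)
  have h5 : T.relIndex U ≤ T.relIndex S := by
    have hpos : 0 < Nat.card T * Nat.card (S ⊓ T : Subgroup G) :=
      Nat.mul_pos Nat.card_pos Nat.card_pos
    refine Nat.le_of_mul_le_mul_right ?_ hpos
    calc T.relIndex U * (Nat.card T * Nat.card (S ⊓ T : Subgroup G))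
        = Nat.card U * Nat.card (S ⊓ T : Subgroup G) := by rw [← h3]; ring
      _ ≤ Nat.card S * Nat.card T := h
      _ = T.relIndex S * (Nat.card T * Nat.card (S ⊓ T : Subgroup G)) := by rw [← h2]; ring
  intro u hu
  obtain ⟨s, hs, hst⟩ := Cfsg.Agent.S0057.cover_of_relIndex hSU (le_antisymm h4 h5) u hu
  exact ⟨s, hs, s⁻¹ * u, hst, by group⟩

/-- `|S| · |T| ≤ |U| · |S ∩ T|` for subgroups `S, T ≤ U`. -/
theorem card_mul_card_le {S T U : Subgroup G} (hSU : S ≤ U) (hTU : T ≤ U) :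
    Nat.card S * Nat.card T ≤ Nat.card U * Nat.card (S ⊓ T : Subgroup G) := by
  have h2 := relIndex_mul_card_inf S T
  have h3 := relIndex_mul_card_inf U T
  rw [inf_eq_right.mpr hTU] at h3
  have h4 : T.relIndex S ≤ T.relIndex U :=
    Subgroup.relIndex_le_of_le_right hSU (fun h0 => by
      rw [h0, zero_mul] at h3; exact Nat.card_pos.ne' h3.symm)
  calc Nat.card S * Nat.card T
      = T.relIndex S * (Nat.card T * Nat.card (S ⊓ T : Subgroup G)) := by rw [← h2]; ring
    _ ≤ T.relIndex U * (Nat.card T * Nat.card (S ⊓ T : Subgroup G)) :=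
        Nat.mul_le_mul_right _ h4
    _ = Nat.card U * Nat.card (S ⊓ T : Subgroup G) := by rw [← h3]; ring

theorem factorization_mul_apply {a b : ℕ} (ha : a ≠ 0) (hb : b ≠ 0) (q : ℕ) :
    (a * b).factorization q = a.factorization q + b.factorization q := by
  rw [Nat.factorization_mul ha hb]; rfl

end InvSylow

end Cfsg.Agent.Lib.Helper30
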