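import Mathlib
import Cfsg.Prelude.Def_GeometricClasses
import Cfsg.Agent.Lib.Helper71.Asch0
import Cfsg.Agent.Lib.Helper71.Asch8
import Cfsg.Agent.Lib.Helper1.SP8EADefs

/-! Sub-project SP8-EA of S5823 (architect helper1), piece EA3: an isometry `P (A ⊗ B) P⁻¹` of a
tensor form `f₁ ⊗ f₂` has `B` a similitude of `f₂`. -/

set_option autoImplicit false

namespace Cfsg.Agent.Lib.Helper30.SP8EA3

open Matrix Cfsg.Geo Cfsg.Agent.Lib.Helper71.Asch Cfsg.Agent.Lib.Helper1.SP8EADefs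
open scoped Kronecker

variable {n : ℕ} {F : Type*} [Field F] [Fintype F]

omit [Fintype F] in
/-- the form of a Gram matrix as a dot product -/
theorem ea3_form {κ : Type} [Fintype κ] (M : Matrix κ κ F) (u v : κ → F) :
    formOfGram id M u v = u ⬝ᵥ (M *ᵥ v) := by
  unfold formOfGram
  simp only [dotProduct, Matrix.mulVec, Finset.mul_sum, mul_assoc, id_eq]

omit [Fintype F] in
/-- moving a matrix across the form -/
theorem ea3_adj {κ : Type} [Fintype κ] [DecidableEq κ] (A G : Matrix κ κ F) (x y : κ → F) :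
    (A *ᵥ x) ⬝ᵥ (G *ᵥ (A *ᵥ y)) = x ⬝ᵥ ((Aᵀ * G * A) *ᵥ y) := by
  rw [← Matrix.mulVec_mulVec, ← Matrix.mulVec_mulVec, Matrix.dotProduct_mulVec x Aᵀ,
    Matrix.vecMul_transpose]

omit [Fintype F] in
/-- matrices with the same bilinear form are equal -/
theorem ea3_ext {κ : Type} [Fintype κ] [DecidableEq κ] (M N : Matrix κ κ F)
    (h : ∀ x y : κ → F, x ⬝ᵥ (M *ᵥ y) = x ⬝ᵥ (N *ᵥ y)) : M = N := by
  ext a b
  have h1 := h (Pi.single a 1) (Pi.single b 1)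
  rw [single_one_dotProduct, single_one_dotProduct, Matrix.mulVec_single_one,
    Matrix.mulVec_single_one] at h1
  exact h1

/-- EA3: an isometry `P (A ⊗ B) P⁻¹` of a tensor form `f₁ ⊗ f₂` has `B` a similitude of `f₂`. -/
theorem EA3 (f : (Fin n → F) → (Fin n → F) → F) (e : Fin n ≃ Fin 2 × Fin 4) (P : GL (Fin n) F)
    (f₁ : (Fin 2 → F) → (Fin 2 → F) → F) (f₂ : (Fin 4 → F) → (Fin 4 → F) → F)
    (h1 : IsSymplecticForm f₁) (h2 : IsSymmetricForm f₂)
    (ht : IsTensorFormStructure id f f₁ f₂ e P) (A : GL (Fin 2) F) (B : GL (Fin 4) F)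
    (hfix : ∀ u v, f (tmat e P A.1 B.1 *ᵥ u) (tmat e P A.1 B.1 *ᵥ v) = f u v) :
    ∃ μ : F, μ ≠ 0 ∧ B.1ᵀ * gramMatrix f₂ * B.1 = μ • gramMatrix f₂ := by
  obtain ⟨c, hc, hform⟩ := ht
  have hPinv : (P⁻¹ : GL (Fin n) F).1 * P.1 = 1 := by
    rw [← Units.val_mul, inv_mul_cancel, Units.val_one]
  have hact : ∀ x : Fin 2 × Fin 4 → F,
      tmat e P A.1 B.1 *ᵥ (P.1 *ᵥ (x ∘ e)) = P.1 *ᵥ (((A.1 ⊗ₖ B.1) *ᵥ x) ∘ e) := by
    intro x
    have hR : (Matrix.reindex e.symm e.symm (A.1 ⊗ₖ B.1)) *ᵥ (x ∘ e) =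
        ((A.1 ⊗ₖ B.1) *ᵥ x) ∘ e := by
      rw [Matrix.reindex_apply]
      simp only [Equiv.symm_symm]
      rw [Matrix.submatrix_mulVec_equiv]
      have h : (x ∘ e) ∘ e.symm = x := by
        funext a
        simp
      rw [h]
    unfold tmat
    rw [Matrix.mulVec_mulVec, Matrix.mul_assoc, hPinv, Matrix.mul_one, ← Matrix.mulVec_mulVec,
      hR]
  -- the Kronecker identity
  have hK : (A.1 ⊗ₖ B.1)ᵀ * (gramMatrix f₁ ⊗ₖ gramMatrix f₂) * (A.1 ⊗ₖ B.1) =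
      gramMatrix f₁ ⊗ₖ gramMatrix f₂ := by
    apply ea3_ext
    intro x y
    have e1 := hfix (P.1 *ᵥ (x ∘ e)) (P.1 *ᵥ (y ∘ e))
    rw [hact, hact, hform, hform, ea3_form, ea3_form, ea3_adj] at e1
    exact mul_left_cancel₀ hc e1
  have hK2 : (A.1ᵀ * gramMatrix f₁ * A.1) ⊗ₖ (B.1ᵀ * gramMatrix f₂ * B.1) =
      gramMatrix f₁ ⊗ₖ gramMatrix f₂ := by
    rw [Matrix.mul_kronecker_mul, Matrix.mul_kronecker_mul, Matrix.kroneckerMap_transpose]
    exact hK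
  -- the Gram matrices are nonzero
  have hG1 : gramMatrix f₁ 0 1 ≠ 0 := by
    intro h0
    have hv : (Pi.single 1 1 : Fin 2 → F) ≠ 0 := by
      intro h
      have h' := congrFun h 1
      simp at h'
    obtain ⟨⟨x, hx⟩, -⟩ := h1.nondegenerate _ hv
    apply hx
    have hxe : x = x 0 • (Pi.single 0 1 : Fin 2 → F) + x 1 • (Pi.single 1 1 : Fin 2 → F) := by
      funext i
      fin_cases i <;> simp
    have e0 : f₁ (Pi.single 0 1) (Pi.single 1 1) = 0 := h0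
    rw [hxe, h1.bilinear.add_left, h1.bilinear.smul_left, h1.bilinear.smul_left,
      h1.alternating, e0]
    ring
  have hG2 : ∃ j l, gramMatrix f₂ j l ≠ 0 := by
    by_contra hcon
    have hcon' : ∀ j l, gramMatrix f₂ j l = 0 := fun j l =>
      by_contra fun h => hcon ⟨j, l, h⟩
    have hv : (Pi.single 0 1 : Fin 4 → F) ≠ 0 := by
      intro h
      have h' := congrFun h 0
      simp at h'
    obtain ⟨⟨x, hx⟩, -⟩ := h2.nondegenerate _ hv
    apply hx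
    have hxe : x = x 0 • (Pi.single 0 1 : Fin 4 → F) + x 1 • (Pi.single 1 1 : Fin 4 → F) +
        x 2 • (Pi.single 2 1 : Fin 4 → F) + x 3 • (Pi.single 3 1 : Fin 4 → F) := by
      funext i
      fin_cases i <;> simp
    have e0 : f₂ (Pi.single 0 1) (Pi.single 0 1) = 0 := hcon' 0 0
    have e1 : f₂ (Pi.single 1 1) (Pi.single 0 1) = 0 := hcon' 1 0
    have e2 : f₂ (Pi.single 2 1) (Pi.single 0 1) = 0 := hcon' 2 0
    have e3 : f₂ (Pi.single 3 1) (Pi.single 0 1) = 0 := hcon' 3 0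
    rw [hxe, h2.bilinear.add_left, h2.bilinear.add_left, h2.bilinear.add_left,
      h2.bilinear.smul_left, h2.bilinear.smul_left, h2.bilinear.smul_left,
      h2.bilinear.smul_left, e0, e1, e2, e3]
    ring
  obtain ⟨j, l, hjl⟩ := hG2
  have hent : ∀ j' l', (A.1ᵀ * gramMatrix f₁ * A.1) 0 1 * (B.1ᵀ * gramMatrix f₂ * B.1) j' l' =
      gramMatrix f₁ 0 1 * gramMatrix f₂ j' l' := by
    intro j' l'
    exact congrFun (congrFun hK2 (0, j')) (1, l')
  have ht0 : (A.1ᵀ * gramMatrix f₁ * A.1) 0 1 ≠ 0 := by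
    intro h0
    have h := hent j l
    rw [h0, zero_mul] at h
    exact mul_ne_zero hG1 hjl h.symm
  refine ⟨gramMatrix f₁ 0 1 / (A.1ᵀ * gramMatrix f₁ * A.1) 0 1, div_ne_zero hG1 ht0, ?_⟩
  ext j' l'
  rw [Matrix.smul_apply, smul_eq_mul, div_mul_eq_mul_div, eq_div_iff ht0]
  linear_combination hent j' l'

end Cfsg.Agent.Lib.Helper30.SP8EA3
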