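import Cfsg.Agent.Lib.Helper98.O72Defs
import Cfsg.Agent.Lib.Helper98.O72Fix
import Cfsg.Agent.Lib.Helper96.SpTI
import Cfsg.Agent.Lib.Helper4.SpHalf
import Cfsg.Agent.S0750

/-!
# Project O72 (S5972, helper98), piece WITT (helper30): Witt extension for symmetric forms in odd
characteristic, from the landed S0750, and transitivity on totally isotropic subspaces.
-/

set_option autoImplicit false
set_option linter.unusedSectionVars false
set_option linter.unusedVariables false

namespace Cfsg.Agent.Lib.Helper98.O72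

open Module Polynomial Cfsg.Agent.Lib.Helper96.Sp Cfsg.Agent.Lib.Helper96.BG

universe u v

variable {F : Type*} [Field F] [Fintype F] {V : Type*} [AddCommGroup V] [Module F V]
  [FiniteDimensional F V] {B : LinearMap.BilinForm F V}

/-- PIECE WITT (first half). -/
theorem witt_ext (hS : B.IsSymm) (hchar2 : (2 : F) ≠ 0) (hN : ND B ⊤)
    (X Y : Submodule F V) (φ : X ≃ₗ[F] Y)
    (hφ : ∀ x : X, B (φ x : V) (φ x : V) = B (x : V) (x : V)) :
    ∃ g : V ≃ₗ[F] V, Isom B (g : V →ₗ[F] V) ∧ ∀ x : X, g (x : V) = (φ x : V) := by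
  set Q : QuadraticForm F V := LinearMap.BilinMap.toQuadraticMap B with hQdef
  have hQa : ∀ v : V, Q v = B v v := fun v => rfl
  have hpol : ∀ x y : V, QuadraticMap.polarBilin Q x y = 2 * B x y := by
    intro x y
    rw [QuadraticMap.polarBilin_apply_apply, hQdef, LinearMap.BilinMap.polar_toQuadraticMap,
      hS.eq y x]
    ring
  have hQ : (QuadraticMap.polarBilin Q).Nondegenerate := by
    constructor
    · intro x hx
      apply hN x Submodule.mem_top
      intro y _
      have h1 := hx y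
      rw [hpol] at h1
      exact (mul_eq_zero.mp h1).resolve_left hchar2
    · intro y hy
      apply hN y Submodule.mem_top
      intro x _
      have h1 := hy x
      rw [hpol, hS.eq x y] at h1
      exact (mul_eq_zero.mp h1).resolve_left hchar2
  obtain ⟨g, hg, hgφ⟩ := Cfsg.Agent.S0750.result Q hQ X Y φ (fun x => hφ x)
  refine ⟨g, ?_, hgφ⟩
  intro x y
  show B (g x) (g y) = B x y
  have h1 := hg (x + y)
  have hx := hg x
  have hy := hg y
  rw [hQa, hQa] at h1 hx hy
  simp only [map_add, LinearMap.add_apply] at h1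
  have s1 := hS.eq (g y) (g x)
  have s2 := hS.eq y x
  have h2 : 2 * B (g x) (g y) = 2 * B x y := by
    linear_combination h1 - hx - hy - s1 + s2
  exact mul_left_cancel₀ hchar2 h2

/-- PIECE WITT (second half). -/
theorem witt_ti (hS : B.IsSymm) (hchar2 : (2 : F) ≠ 0) (hN : ND B ⊤)
    (W W' : Submodule F V) (hW : Orth B W W) (hW' : Orth B W' W')
    (hfin : finrank F W = finrank F W') :
    ∃ h : V ≃ₗ[F] V, Isom B (h : V →ₗ[F] V) ∧ W.map (h : V →ₗ[F] V) = W' := by
  let φ : W ≃ₗ[F] W' := LinearEquiv.ofFinrankEq W W' hfin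
  obtain ⟨g, hg, hgφ⟩ := witt_ext hS hchar2 hN W W' φ (fun x => by
    rw [hW' _ (φ x).2 _ (φ x).2, hW _ x.2 _ x.2])
  refine ⟨g, hg, ?_⟩
  apply le_antisymm
  · rintro _ ⟨x, hx, rfl⟩
    have h1 := hgφ ⟨x, hx⟩
    show g x ∈ W'
    rw [show g x = (φ ⟨x, hx⟩ : V) from h1]
    exact (φ ⟨x, hx⟩).2
  · intro y hy
    refine ⟨(φ.symm ⟨y, hy⟩ : V), (φ.symm ⟨y, hy⟩).2, ?_⟩
    have h1 := hgφ (φ.symm ⟨y, hy⟩)
    rw [LinearEquiv.apply_symm_apply] at h1
    exact h1

end Cfsg.Agent.Lib.Helper98.O72
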