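import Mathlib
import Cfsg.Agent.Lib.Helper34.PLen2
import Cfsg.Agent.Lib.Helper30.Cores

/-!
# B&G Section 10, piece P7A (p-length one lemmas) for helper32

`PLengthLE p 1 Λ` is equivalent to the existence of a normal series `K ≤ L` with `K` a `p'`-group,
`L / K` a `p`-group and `Λ / L` a `p'`-group; it passes to subgroups and lifts from normal
subgroups of index prime to `p`.
-/

set_option autoImplicit false

open Cfsg

namespace Cfsg.Agent.Lib.Helper30.BG10

theorem p7_pow_mem_of_relIndex {Λ : Type*} [Group Λ] {K L : Subgroup Λ} [K.Normal] {n : ℕ}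
    (hn : K.relIndex L = n) {x : Λ} (hx : x ∈ L) : x ^ n ∈ K := by
  have h := Subgroup.pow_index_mem (K.subgroupOf L) (⟨x, hx⟩ : L)
  rw [Subgroup.mem_subgroupOf] at h
  have h2 : (K.subgroupOf L).index = n := hn
  rw [h2] at h
  simpa using h

theorem p7_relIndex_pow {Λ : Type*} [Group Λ] [Finite Λ] (p : ℕ) [Fact p.Prime]
    {K L : Subgroup Λ} [K.Normal] (h : ∀ x ∈ L, ∃ k : ℕ, x ^ (p ^ k) ∈ K) :
    ∃ j : ℕ, K.relIndex L = p ^ j := by
  have hP : IsPGroup p (↥L ⧸ K.subgroupOf L) := by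
    intro q
    obtain ⟨y, rfl⟩ := QuotientGroup.mk_surjective q
    obtain ⟨k, hk⟩ := h y.1 y.2
    refine ⟨k, ?_⟩
    rw [← QuotientGroup.mk_pow, QuotientGroup.eq_one_iff, Subgroup.mem_subgroupOf]
    simpa using hk
  obtain ⟨j, hj⟩ := IsPGroup.iff_card.mp hP
  refine ⟨j, ?_⟩
  rw [← hj]
  exact Subgroup.index_eq_card _

/-- Key lemma: a subnormal subgroup `X` of index prime to `p` all of whose elements have a
`p`-power in `O_{p'}(Λ)` forces `p`-length at most one. -/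
theorem p7_plen_of_subnormal {Λ : Type*} [Group Λ] [Finite Λ] (p : ℕ) [Fact p.Prime]
    (X : Subgroup Λ) (hX : X.IsSubnormal)
    (hpow : ∀ x ∈ X, ∃ k : ℕ, x ^ (p ^ k) ∈ pPrimeCore p Λ)
    (hi : (X.index).Coprime p) : PLengthLE p 1 Λ := by
  have h1 : (upperPSeries p Λ 1).1 = pPrimeCore p Λ :=
    Cfsg.Agent.Lib.Helper34.upperPSeries_one_eq p
  have h2 : (upperPSeries p Λ 2).1 =
      (pCore p (Λ ⧸ (upperPSeries p Λ 1).1)).comap (QuotientGroup.mk' _) :=
    Cfsg.Agent.Lib.Helper34.upperPSeries_succ_odd (G := Λ) p 1 (by decide)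
  have h3 : (upperPSeries p Λ 3).1 =
      (pPrimeCore p (Λ ⧸ (upperPSeries p Λ 2).1)).comap (QuotientGroup.mk' _) :=
    Cfsg.Agent.Lib.Helper34.upperPSeries_succ_even (G := Λ) p 2 (by decide)
  have hXU : X ≤ (upperPSeries p Λ 2).1 := by
    intro x hx
    rw [h2, Subgroup.mem_comap]
    have hsub : (X.map (QuotientGroup.mk' (upperPSeries p Λ 1).1)).IsSubnormal :=
      hX.map (QuotientGroup.mk'_surjective _)
    have hpg : IsPGroup p ↥(X.map (QuotientGroup.mk' (upperPSeries p Λ 1).1)) := by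
      rintro ⟨q, hq⟩
      obtain ⟨y, hy, rfl⟩ := Subgroup.mem_map.mp hq
      obtain ⟨k, hk⟩ := hpow y hy
      refine ⟨k, Subtype.ext ?_⟩
      show (QuotientGroup.mk' _ y) ^ (p ^ k) = 1
      rw [← map_pow, QuotientGroup.mk'_apply, QuotientGroup.eq_one_iff, h1]
      exact hk
    exact Cfsg.Agent.Lib.Helper30.le_pCore_of_subnormal hsub hpg (Subgroup.mem_map_of_mem _ hx)
  have hidx : ((upperPSeries p Λ 2).1.index).Coprime p :=
    Nat.Coprime.coprime_dvd_left (Subgroup.index_dvd_of_le hXU) hi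
  show (upperPSeries p Λ 3).1 = ⊤
  rw [h3]
  have htop : pPrimeCore p (Λ ⧸ (upperPSeries p Λ 2).1) = ⊤ := by
    rw [eq_top_iff]
    apply Cfsg.Agent.Lib.Helper30.le_pPrimeCore_of_normal Subgroup.normal_top
    rw [Subgroup.card_top, ← Subgroup.index_eq_card]
    exact hidx
  rw [htop, Subgroup.comap_top]

/-- **P7A (1)**. -/
theorem plen_of_series {Λ : Type*} [Group Λ] [Finite Λ] (p : ℕ) [Fact p.Prime]
    (K L : Subgroup Λ) [K.Normal] [L.Normal] (hKL : K ≤ L) (hK : (Nat.card K).Coprime p)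
    (hL : ∃ j : ℕ, K.relIndex L = p ^ j) (hi : (L.index).Coprime p) : PLengthLE p 1 Λ := by
  obtain ⟨j, hj⟩ := hL
  refine p7_plen_of_subnormal p L (Subgroup.Normal.isSubnormal inferInstance) ?_ hi
  intro x hx
  exact ⟨j, Cfsg.Agent.Lib.Helper30.le_pPrimeCore_of_normal inferInstance hK
    (p7_pow_mem_of_relIndex hj hx)⟩

/-- **P7A (2)**. -/
theorem plen_series {Λ : Type*} [Group Λ] [Finite Λ] (p : ℕ) [Fact p.Prime]
    (h : PLengthLE p 1 Λ) :
    ∃ K L : Subgroup Λ, K.Normal ∧ L.Normal ∧ K ≤ L ∧ (Nat.card K).Coprime p ∧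
      (∃ j : ℕ, K.relIndex L = p ^ j) ∧ (L.index).Coprime p := by
  have h2 : (upperPSeries p Λ 2).1 =
      (pCore p (Λ ⧸ (upperPSeries p Λ 1).1)).comap (QuotientGroup.mk' _) :=
    Cfsg.Agent.Lib.Helper34.upperPSeries_succ_odd (G := Λ) p 1 (by decide)
  have h3 : (upperPSeries p Λ 3).1 =
      (pPrimeCore p (Λ ⧸ (upperPSeries p Λ 2).1)).comap (QuotientGroup.mk' _) :=
    Cfsg.Agent.Lib.Helper34.upperPSeries_succ_even (G := Λ) p 2 (by decide)
  refine ⟨(upperPSeries p Λ 1).1, (upperPSeries p Λ 2).1, inferInstance, inferInstance,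
    Cfsg.Agent.Lib.Helper34.upperPSeries_le_succ p 1,
    Cfsg.Agent.Lib.Helper34.card_upperPSeries_one_coprime p, ?_, ?_⟩
  · apply p7_relIndex_pow p
    intro x hx
    rw [h2, Subgroup.mem_comap] at hx
    obtain ⟨k, hk⟩ := Cfsg.Agent.Lib.Helper30.pCore_isPGroup p
      (G := Λ ⧸ (upperPSeries p Λ 1).1) ⟨_, hx⟩
    refine ⟨k, ?_⟩
    have hk' : (QuotientGroup.mk' (upperPSeries p Λ 1).1 x) ^ (p ^ k) = 1 := by
      simpa using congrArg Subtype.val hk
    rwa [← map_pow, QuotientGroup.mk'_apply, QuotientGroup.eq_one_iff] at hk'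
  · have h4 : (upperPSeries p Λ 3).1 = ⊤ := h
    rw [h3] at h4
    have htop : pPrimeCore p (Λ ⧸ (upperPSeries p Λ 2).1) = ⊤ := by
      rw [eq_top_iff]
      intro q _
      obtain ⟨y, rfl⟩ := QuotientGroup.mk_surjective q
      have hy : y ∈ (pPrimeCore p (Λ ⧸ (upperPSeries p Λ 2).1)).comap (QuotientGroup.mk' _) := by
        rw [h4]; exact Subgroup.mem_top y
      exact hy
    have hc := Cfsg.Agent.Lib.Helper30.pPrimeCore_coprime (G := Λ ⧸ (upperPSeries p Λ 2).1) p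
    rw [htop, Subgroup.card_top, ← Subgroup.index_eq_card] at hc
    exact hc

/-- **P7A (3)**. -/
theorem plen_subgroup {G : Type*} [Group G] [Finite G] (p : ℕ) [Fact p.Prime]
    {H M : Subgroup G} (hHM : H ≤ M) (h : PLengthLE p 1 ↥M) : PLengthLE p 1 ↥H := by
  obtain ⟨K, L, hKn, hLn, hKL, hK, ⟨j, hj⟩, hi⟩ := plen_series p h
  have hfinj : Function.Injective (Subgroup.inclusion hHM) := Subgroup.inclusion_injective hHM
  have hKn' : (K.comap (Subgroup.inclusion hHM)).Normal := hKn.comap _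
  have hLn' : (L.comap (Subgroup.inclusion hHM)).Normal := hLn.comap _
  refine p7_plen_of_subnormal p (L.comap (Subgroup.inclusion hHM)) hLn'.isSubnormal ?_ ?_
  · intro x hx
    refine ⟨j, ?_⟩
    have h1 : (Subgroup.inclusion hHM x) ^ (p ^ j) ∈ K :=
      p7_pow_mem_of_relIndex hj (Subgroup.mem_comap.mp hx)
    have h2 : x ^ (p ^ j) ∈ K.comap (Subgroup.inclusion hHM) := by
      rw [Subgroup.mem_comap, map_pow]; exact h1
    refine Cfsg.Agent.Lib.Helper30.le_pPrimeCore_of_normal hKn' ?_ h2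
    exact Nat.Coprime.coprime_dvd_left (Subgroup.card_comap_dvd_of_injective K _ hfinj) hK
  · rw [Subgroup.index_comap]
    exact Nat.Coprime.coprime_dvd_left (Subgroup.relIndex_dvd_index_of_normal L _) hi

/-- **P7A (4)**. -/
theorem plen_of_normal {Λ : Type*} [Group Λ] [Finite Λ] (p : ℕ) [Fact p.Prime]
    (N : Subgroup Λ) [N.Normal] (hi : (N.index).Coprime p) (h : PLengthLE p 1 ↥N) :
    PLengthLE p 1 Λ := by
  obtain ⟨K, L, hKn, hLn, hKL, hK, ⟨j, hj⟩, hiL⟩ := plen_series p h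
  have hNs : N.IsSubnormal := Subgroup.Normal.isSubnormal inferInstance
  have hKs : (K.map N.subtype).IsSubnormal := hKn.isSubnormal.trans' hNs
  have hLs : (L.map N.subtype).IsSubnormal := hLn.isSubnormal.trans' hNs
  refine p7_plen_of_subnormal p (L.map N.subtype) hLs ?_ ?_
  · intro x hx
    obtain ⟨y, hy, rfl⟩ := Subgroup.mem_map.mp hx
    refine ⟨j, ?_⟩
    have h1 : y ^ (p ^ j) ∈ K := p7_pow_mem_of_relIndex hj hy
    have h2 : (N.subtype y) ^ (p ^ j) ∈ K.map N.subtype := by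
      rw [← map_pow]; exact Subgroup.mem_map_of_mem _ h1
    refine Cfsg.Agent.Lib.Helper30.le_pPrimeCore_of_subnormal hKs ?_ h2
    rw [Cfsg.Agent.Lib.Helper30.card_map_subtype]
    exact hK
  · rw [Subgroup.index_map_subtype]
    exact Nat.Coprime.mul_left hiL hi

end Cfsg.Agent.Lib.Helper30.BG10
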