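import Mathlib
import Cfsg.Agent.Lib.Helper5.BQ0

/-!
# S0996, piece BQ-X3: the arithmetic of the non-exceptional degrees (helper30 for helper5)
-/

set_option autoImplicit false

namespace Cfsg.Agent.Lib.Helper5.BQ

/-- Common set-up for the pieces X3 and AY: split `d = d₁ d₂` with `d₁ = gcd(d, e)`,
`e = d₁ e₁`, `1 + n p = d₂ c`. -/
theorem arith_split (p e n d : ℕ) (hp : p.Prime) (he1 : 1 ≤ e) (hep : e < p) (hd1 : 1 ≤ d)
    (hdvd : d ∣ (1 + n * p) * e) :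
    ∃ d₁ d₂ e₁ c : ℕ, d = d₁ * d₂ ∧ e = d₁ * e₁ ∧ 1 + n * p = d₂ * c ∧ 1 ≤ d₁ ∧ 1 ≤ d₂ ∧
      1 ≤ e₁ ∧ 1 ≤ c ∧ ¬ (p : ℤ) ∣ (d₁ : ℤ) ∧ ¬ (p : ℤ) ∣ (d₂ : ℤ) := by
  have hg : 0 < Nat.gcd d e := Nat.gcd_pos_of_pos_left e hd1
  obtain ⟨d₂, hd₂⟩ : Nat.gcd d e ∣ d := Nat.gcd_dvd_left d e
  obtain ⟨e₁, he₁⟩ : Nat.gcd d e ∣ e := Nat.gcd_dvd_right d e
  have hcop : Nat.Coprime d₂ e₁ := by
    have h := Nat.coprime_div_gcd_div_gcd hg
    have h1 : d / Nat.gcd d e = d₂ := Nat.div_eq_of_eq_mul_right hg hd₂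
    have h2 : e / Nat.gcd d e = e₁ := Nat.div_eq_of_eq_mul_right hg he₁
    rwa [h1, h2] at h
  have hd₂m : d₂ ∣ 1 + n * p := by
    have h1 : Nat.gcd d e * d₂ ∣ Nat.gcd d e * ((1 + n * p) * e₁) := by
      have : Nat.gcd d e * ((1 + n * p) * e₁) = (1 + n * p) * e := by
        conv_rhs => rw [he₁]
        ring
      rw [this, ← hd₂]; exact hdvd
    have h2 : d₂ ∣ (1 + n * p) * e₁ := (Nat.mul_dvd_mul_iff_left hg).mp h1
    exact hcop.dvd_of_dvd_mul_right h2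
  obtain ⟨c, hc⟩ := hd₂m
  have hd₂pos : 1 ≤ d₂ := by
    rcases Nat.eq_zero_or_pos d₂ with h | h
    · rw [h, mul_zero] at hd₂; omega
    · exact h
  have he₁pos : 1 ≤ e₁ := by
    rcases Nat.eq_zero_or_pos e₁ with h | h
    · rw [h, mul_zero] at he₁; omega
    · exact h
  have hcpos : 1 ≤ c := by
    rcases Nat.eq_zero_or_pos c with h | h
    · rw [h, mul_zero] at hc; omega
    · exact h
  refine ⟨Nat.gcd d e, d₂, e₁, c, hd₂, he₁, hc, hg, hd₂pos, he₁pos, hcpos, ?_, ?_⟩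
  · intro h
    have h' : p ∣ Nat.gcd d e := by exact_mod_cast h
    have hle : Nat.gcd d e ≤ e := Nat.le_of_dvd he1 (Nat.gcd_dvd_right d e)
    have := Nat.le_of_dvd hg h'
    omega
  · intro h
    have h' : p ∣ d₂ := by exact_mod_cast h
    have h1 : p ∣ 1 + n * p := Dvd.dvd.trans h' ⟨c, hc⟩
    have h2 : p ∣ 1 := (Nat.dvd_add_left (Dvd.intro_left n rfl)).mp h1
    have := Nat.le_of_dvd (by norm_num) h2
    have := hp.two_le
    omega

/-- BQ-X3 (pure arithmetic) -/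
theorem arith_X2 (p e t n d : ℕ) (s : ℤ) (hp : p.Prime) (hp5 : 5 ≤ p) (he2 : 2 ≤ e)
    (het : e * t = p - 1) (hn1 : 1 ≤ n) (hn : 2 * n < p + 3) (hd2 : 2 ≤ d)
    (hdvd : d ∣ (1 + n * p) * e) (hsq : d * d < (1 + n * p) * (e * p))
    (hs : s = 1 ∨ s = -1) (hmod : (d : ℤ) ≡ s [ZMOD p]) :
    (s = 1 ∧ d = 1 + n * p) ∨ (s = -1 ∧ d = p - 1 ∧ t ∣ n + 1) := by
  have hpZ : Prime (p : ℤ) := Nat.prime_iff_prime_int.mp hp
  have ht1 : 1 ≤ t := by
    rcases Nat.eq_zero_or_pos t with h | h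
    · rw [h, mul_zero] at het; omega
    · exact h
  have hep : e < p := by
    have : e ≤ e * t := Nat.le_mul_of_pos_right e ht1
    omega
  obtain ⟨d₁, d₂, e₁, c, hd, he, hm, hd₁, hd₂, he₁, hc, hpd₁, hpd₂⟩ :=
    arith_split p e n d hp (by omega) hep (by omega) hdvd
  -- σ
  set σ := e₁ * t with hσ
  have hσ1 : 1 ≤ σ := Nat.mul_pos he₁ ht1
  have hd₁σ : d₁ * σ = p - 1 := by rw [hσ, ← mul_assoc, ← he, het]
  have hd₁σ' : d₁ * σ + 1 = p := by omega
  have hd₁σZ : (d₁ : ℤ) * (σ : ℤ) = (p : ℤ) - 1 := by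
    have : ((d₁ * σ + 1 : ℕ) : ℤ) = (p : ℤ) := by exact_mod_cast hd₁σ'
    push_cast at this
    linarith
  have hmZ : (d₂ : ℤ) * (c : ℤ) = 1 + (n : ℤ) * (p : ℤ) := by exact_mod_cast hm.symm
  have hdZ : (d : ℤ) = (d₁ : ℤ) * (d₂ : ℤ) := by exact_mod_cast hd
  have hmod' : (p : ℤ) ∣ s - (d₁ : ℤ) * (d₂ : ℤ) := by
    rw [← hdZ]; exact Int.modEq_iff_dvd.mp hmod
  have hσp : σ < p := by
    have : σ ≤ d₁ * σ := Nat.le_mul_of_pos_left σ hd₁
    omega
  have hd₁p : d₁ < p := by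
    have : d₁ ≤ d₁ * σ := Nat.le_mul_of_pos_right d₁ hσ1
    omega
  rcases hs with rfl | rfl
  · left
    refine ⟨rfl, ?_⟩
    -- p ∣ c - d₁
    have ha : (p : ℤ) ∣ (c : ℤ) - (d₁ : ℤ) := by
      have h1 : (p : ℤ) ∣ (d₂ : ℤ) * ((c : ℤ) - (d₁ : ℤ)) := by
        have : (d₂ : ℤ) * ((c : ℤ) - (d₁ : ℤ)) =
            (1 - (d₁ : ℤ) * (d₂ : ℤ)) + (n : ℤ) * (p : ℤ) := by
          rw [mul_sub, hmZ]; ring
        rw [this]
        exact dvd_add hmod' (Dvd.intro_left _ rfl)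
      exact (hpZ.dvd_or_dvd h1).resolve_left hpd₂
    have hb : (p : ℤ) ∣ (d₂ : ℤ) + (σ : ℤ) := by
      have h1 : (p : ℤ) ∣ (d₁ : ℤ) * ((d₂ : ℤ) + (σ : ℤ)) := by
        have : (d₁ : ℤ) * ((d₂ : ℤ) + (σ : ℤ)) = (p : ℤ) - (1 - (d₁ : ℤ) * (d₂ : ℤ)) := by
          rw [mul_add, hd₁σZ]; ring
        rw [this]
        exact dvd_sub (dvd_refl _) hmod'
      exact (hpZ.dvd_or_dvd h1).resolve_left hpd₁
    -- c = d₁ + k p
    obtain ⟨k, hk⟩ : ∃ k : ℕ, c = d₁ + k * p := by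
      obtain ⟨k', hk'⟩ := ha
      have hk'0 : 0 ≤ k' := by
        by_contra hneg
        push Not at hneg
        have h1 : (p : ℤ) * k' ≤ -(p : ℤ) := by nlinarith
        have h2 : (1 : ℤ) ≤ (c : ℤ) := by exact_mod_cast hc
        have h3 : (d₁ : ℤ) < (p : ℤ) := by exact_mod_cast hd₁p
        linarith
      refine ⟨k'.toNat, ?_⟩
      have : (c : ℤ) = (d₁ : ℤ) + ((k'.toNat : ℕ) : ℤ) * (p : ℤ) := by
        rw [Int.toNat_of_nonneg hk'0]; linarith
      exact_mod_cast this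
    obtain ⟨j, hj⟩ : ∃ j : ℕ, d₂ + σ = j * p := by
      obtain ⟨j', hj'⟩ := hb
      have hj'0 : 0 ≤ j' := by
        by_contra hneg
        push Not at hneg
        have h1 : (p : ℤ) * j' ≤ -(p : ℤ) := by nlinarith
        have h2 : (0 : ℤ) ≤ (d₂ : ℤ) + (σ : ℤ) := by positivity
        have h3 : (0 : ℤ) < (p : ℤ) := by exact_mod_cast hp.pos
        linarith
      refine ⟨j'.toNat, ?_⟩
      have : ((d₂ : ℤ) + (σ : ℤ)) = ((j'.toNat : ℕ) : ℤ) * (p : ℤ) := by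
        rw [Int.toNat_of_nonneg hj'0]; linarith
      exact_mod_cast this
    have hj1 : 1 ≤ j := by
      rcases Nat.eq_zero_or_pos j with h | h
      · rw [h, zero_mul] at hj; omega
      · exact h
    -- n + 1 = j d₁ + k d₂
    have hn' : n + 1 = j * d₁ + k * d₂ := by
      have hZ : ((n : ℤ) + 1) * (p : ℤ) = ((j : ℤ) * (d₁ : ℤ) + (k : ℤ) * (d₂ : ℤ)) * (p : ℤ) := by
        have hkZ : (c : ℤ) = (d₁ : ℤ) + (k : ℤ) * (p : ℤ) := by exact_mod_cast hk
        have hjZ : (d₂ : ℤ) + (σ : ℤ) = (j : ℤ) * (p : ℤ) := by exact_mod_cast hj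
        have hσZ : (σ : ℤ) = (j : ℤ) * (p : ℤ) - (d₂ : ℤ) := by linarith
        have h1 : (d₁ : ℤ) * ((j : ℤ) * (p : ℤ) - (d₂ : ℤ)) = (p : ℤ) - 1 := by
          rw [← hσZ]; exact hd₁σZ
        have h2 : (d₂ : ℤ) * ((d₁ : ℤ) + (k : ℤ) * (p : ℤ)) = 1 + (n : ℤ) * (p : ℤ) := by
          rw [← hkZ]; exact hmZ
        linear_combination (-1 : ℤ) * h1 - h2
      have hp0 : (p : ℤ) ≠ 0 := by exact_mod_cast hp.ne_zero
      have := mul_right_cancel₀ hp0 hZ
      exact_mod_cast this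
    rcases Nat.eq_zero_or_pos k with hk0 | hkpos
    · rw [hk0, zero_mul, add_zero] at hk
      rw [hd, hm, hk, mul_comm]
    · exfalso
      have h1 : d₁ + d₂ ≤ n + 1 := by
        rw [hn']
        have := Nat.le_mul_of_pos_left d₁ hj1
        have := Nat.le_mul_of_pos_left d₂ hkpos
        omega
      have h2 : p ≤ d₂ + σ := by
        rw [hj]; exact Nat.le_mul_of_pos_left p hj1
      rcases Nat.lt_or_ge d₁ 2 with h | h
      · have hd₁1 : d₁ = 1 := by omega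
        rw [hd₁1, one_mul] at hd₁σ hd
        -- σ = p - 1, d₂ = d ≥ 2, so j ≥ 2
        have hj2 : 2 ≤ j := by
          by_contra hj2
          have : j = 1 := by omega
          rw [this, one_mul] at hj
          omega
        have h3 : 2 * p ≤ d₂ + σ := by
          rw [hj]; exact Nat.mul_le_mul_right p hj2
        have h4 : j * 1 + k * d₂ ≥ 2 + d₂ := by
          have := Nat.le_mul_of_pos_left d₂ hkpos
          omega
        rw [hd₁1] at hn'
        omega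
      · have h3 : 2 * σ ≤ p - 1 := by
          rw [← hd₁σ]; exact Nat.mul_le_mul_right σ h
        omega
  · right
    refine ⟨rfl, ?_⟩
    have ha : (p : ℤ) ∣ (c : ℤ) + (d₁ : ℤ) := by
      have h1 : (p : ℤ) ∣ (d₂ : ℤ) * ((c : ℤ) + (d₁ : ℤ)) := by
        have : (d₂ : ℤ) * ((c : ℤ) + (d₁ : ℤ)) =
            (n : ℤ) * (p : ℤ) - (-1 - (d₁ : ℤ) * (d₂ : ℤ)) := by
          rw [mul_add, hmZ]; ring
        rw [this]
        exact dvd_sub (Dvd.intro_left _ rfl) hmod'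
      exact (hpZ.dvd_or_dvd h1).resolve_left hpd₂
    have hb : (p : ℤ) ∣ (d₂ : ℤ) - (σ : ℤ) := by
      have h1 : (p : ℤ) ∣ (d₁ : ℤ) * ((d₂ : ℤ) - (σ : ℤ)) := by
        have : (d₁ : ℤ) * ((d₂ : ℤ) - (σ : ℤ)) = -(p : ℤ) - (-1 - (d₁ : ℤ) * (d₂ : ℤ)) := by
          rw [mul_sub, hd₁σZ]; ring
        rw [this]
        exact dvd_sub (dvd_neg.mpr (dvd_refl _)) hmod'
      exact (hpZ.dvd_or_dvd h1).resolve_left hpd₁
    obtain ⟨k, hk⟩ : ∃ k : ℕ, c + d₁ = k * p := by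
      obtain ⟨k', hk'⟩ := ha
      have hk'0 : 0 ≤ k' := by
        by_contra hneg
        push Not at hneg
        have h1 : (p : ℤ) * k' ≤ -(p : ℤ) := by nlinarith
        have h2 : (0 : ℤ) ≤ (c : ℤ) + (d₁ : ℤ) := by positivity
        have h3 : (0 : ℤ) < (p : ℤ) := by exact_mod_cast hp.pos
        linarith
      refine ⟨k'.toNat, ?_⟩
      have : ((c : ℤ) + (d₁ : ℤ)) = ((k'.toNat : ℕ) : ℤ) * (p : ℤ) := by
        rw [Int.toNat_of_nonneg hk'0]; linarith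
      exact_mod_cast this
    have hk1 : 1 ≤ k := by
      rcases Nat.eq_zero_or_pos k with h | h
      · rw [h, zero_mul] at hk; omega
      · exact h
    obtain ⟨j, hj⟩ : ∃ j : ℕ, d₂ = σ + j * p := by
      obtain ⟨j', hj'⟩ := hb
      have hj'0 : 0 ≤ j' := by
        by_contra hneg
        push Not at hneg
        have h1 : (p : ℤ) * j' ≤ -(p : ℤ) := by nlinarith
        have h2 : (1 : ℤ) ≤ (d₂ : ℤ) := by exact_mod_cast hd₂
        have h3 : (σ : ℤ) < (p : ℤ) := by exact_mod_cast hσp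
        linarith
      refine ⟨j'.toNat, ?_⟩
      have : (d₂ : ℤ) = (σ : ℤ) + ((j'.toNat : ℕ) : ℤ) * (p : ℤ) := by
        rw [Int.toNat_of_nonneg hj'0]; linarith
      exact_mod_cast this
    -- n + 1 = σ k + j c
    have hn' : n + 1 = σ * k + j * c := by
      have hZ : ((n : ℤ) + 1) * (p : ℤ) = ((σ : ℤ) * (k : ℤ) + (j : ℤ) * (c : ℤ)) * (p : ℤ) := by
        have hkZ : (c : ℤ) + (d₁ : ℤ) = (k : ℤ) * (p : ℤ) := by exact_mod_cast hk
        have hjZ : (d₂ : ℤ) = (σ : ℤ) + (j : ℤ) * (p : ℤ) := by exact_mod_cast hj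
        have hd₁Z : (d₁ : ℤ) = (k : ℤ) * (p : ℤ) - (c : ℤ) := by linarith
        have h1 : ((k : ℤ) * (p : ℤ) - (c : ℤ)) * (σ : ℤ) = (p : ℤ) - 1 := by
          rw [← hd₁Z]; exact hd₁σZ
        have h2 : ((σ : ℤ) + (j : ℤ) * (p : ℤ)) * (c : ℤ) = 1 + (n : ℤ) * (p : ℤ) := by
          rw [← hjZ]; exact hmZ
        linear_combination (-1 : ℤ) * h1 - h2
      have hp0 : (p : ℤ) ≠ 0 := by exact_mod_cast hp.ne_zero
      have := mul_right_cancel₀ hp0 hZ
      exact_mod_cast this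
    rcases Nat.eq_zero_or_pos j with hj0 | hjpos
    · rw [hj0, zero_mul, add_zero] at hj hn'
      refine ⟨?_, ?_⟩
      · rw [hd, hj, hd₁σ]
      · rw [hn', hσ]
        exact ⟨e₁ * k, by ring⟩
    · exfalso
      have h1 : σ + c ≤ n + 1 := by
        rw [hn']
        have := Nat.le_mul_of_pos_right σ hk1
        have := Nat.le_mul_of_pos_left c hjpos
        omega
      have h2 : p ≤ c + d₁ := by
        rw [hk]; exact Nat.le_mul_of_pos_left p hk1
      rcases Nat.lt_or_ge σ 2 with h | h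
      · have hσ1' : σ = 1 := by omega
        rw [hσ1', mul_one] at hd₁σ
        -- d₁ = p - 1 = e, t = 1
        have hk2 : ¬ 2 ≤ k := by
          intro hk2
          have h3 : 2 * p ≤ c + d₁ := by
            rw [hk]; exact Nat.mul_le_mul_right p hk2
          have h4 : σ * k + j * c ≥ 2 + c := by
            rw [hσ1', one_mul]
            have := Nat.le_mul_of_pos_left c hjpos
            omega
          omega
        have hk1' : k = 1 := by omega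
        rw [hk1', one_mul] at hk
        have hc1 : c = 1 := by omega
        rw [hc1, mul_one] at hm
        -- d = d₁ d₂ = (p - 1) (1 + n p)
        have hde : d₁ ≤ e := by
          rw [he]; exact Nat.le_mul_of_pos_right d₁ he₁
        have hee : e = d₁ := by omega
        rw [hd, hee, hm] at hsq
        have h5 : d₁ * d₂ < p := by
          have h6 : d₁ * d₂ * (d₁ * d₂) < d₁ * d₂ * p := by
            calc d₁ * d₂ * (d₁ * d₂) < d₂ * (d₁ * p) := hsq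
              _ = d₁ * d₂ * p := by ring
          exact lt_of_mul_lt_mul_left h6 (Nat.zero_le _)
        have h7 : 1 + p ≤ d₂ := by
          rw [← hm]
          have : p ≤ n * p := Nat.le_mul_of_pos_left p hn1
          omega
        have h8 : d₂ ≤ d₁ * d₂ := Nat.le_mul_of_pos_left d₂ hd₁
        omega
      · have h3 : 2 * d₁ ≤ p - 1 := by
          rw [← hd₁σ, mul_comm d₁ σ]; exact Nat.mul_le_mul_right d₁ h
        omega

end Cfsg.Agent.Lib.Helper5.BQ
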