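import Mathlib
import Cfsg.Agent.Lib.Helper5.BQ0
import Cfsg.Agent.Lib.Helper30.BQX3

/-!
# S0996, piece BQ-AY: the arithmetic of the exceptional degree (helper30 for helper5)
-/

set_option autoImplicit false

namespace Cfsg.Agent.Lib.Helper5.BQ

/-- BQ-AY (pure arithmetic) -/
theorem arith_Y (p e t n x₀ : ℕ) (ε : ℤ) (hp : p.Prime) (hp5 : 5 ≤ p) (he2 : 2 ≤ e)
    (het : e * t = p - 1) (hn1 : 1 ≤ n) (hn : 2 * n < p + 3) (hx2 : 2 ≤ x₀)
    (hdvd : x₀ ∣ (1 + n * p) * e) (hsq : x₀ * x₀ < (1 + n * p) * (e * p))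
    (hε : ε = 1 ∨ ε = -1) (hmod : (x₀ : ℤ) ≡ ε * (e : ℤ) [ZMOD p]) :
    (ε = 1 ∧ x₀ = e) ∨ (ε = -1 ∧ x₀ * t = 1 + n * p) := by
  have hpZ : Prime (p : ℤ) := Nat.prime_iff_prime_int.mp hp
  have ht1 : 1 ≤ t := by
    rcases Nat.eq_zero_or_pos t with h | h
    · rw [h, mul_zero] at het; omega
    · exact h
  have hep : e < p := by
    have : e ≤ e * t := Nat.le_mul_of_pos_right e ht1
    omega
  obtain ⟨d₁, d₂, e₁, c, hd, he, hm, hd₁, hd₂, he₁, hc, hpd₁, hpd₂⟩ :=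
    arith_split p e n x₀ hp (by omega) hep (by omega) hdvd
  set τ := d₁ * t with hτ
  have hτ1 : 1 ≤ τ := Nat.mul_pos hd₁ ht1
  have he₁τ : e₁ * τ = p - 1 := by
    rw [hτ, ← mul_assoc, mul_comm e₁ d₁, ← he, het]
  have he₁τ' : e₁ * τ + 1 = p := by omega
  have he₁τZ : (e₁ : ℤ) * (τ : ℤ) = (p : ℤ) - 1 := by
    have : ((e₁ * τ + 1 : ℕ) : ℤ) = (p : ℤ) := by exact_mod_cast he₁τ'
    push_cast at this
    linarith
  have hmZ : (d₂ : ℤ) * (c : ℤ) = 1 + (n : ℤ) * (p : ℤ) := by exact_mod_cast hm.symm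
  have hxZ : (x₀ : ℤ) = (d₁ : ℤ) * (d₂ : ℤ) := by exact_mod_cast hd
  have heZ : (e : ℤ) = (d₁ : ℤ) * (e₁ : ℤ) := by exact_mod_cast he
  have hτp : τ < p := by
    have : τ ≤ e₁ * τ := Nat.le_mul_of_pos_left τ he₁
    omega
  have he₁p : e₁ < p := by
    have : e₁ ≤ e₁ * τ := Nat.le_mul_of_pos_right e₁ hτ1
    omega
  have hpe₁ : ¬ (p : ℤ) ∣ (e₁ : ℤ) := by
    intro h
    have h' : p ∣ e₁ := by exact_mod_cast h
    have := Nat.le_of_dvd he₁ h'
    omega
  have hmod' : (p : ℤ) ∣ ε * (e₁ : ℤ) - (d₂ : ℤ) := by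
    have h1 : (p : ℤ) ∣ (d₁ : ℤ) * (ε * (e₁ : ℤ) - (d₂ : ℤ)) := by
      have h0 := Int.modEq_iff_dvd.mp hmod
      have : (d₁ : ℤ) * (ε * (e₁ : ℤ) - (d₂ : ℤ)) = ε * (e : ℤ) - (x₀ : ℤ) := by
        rw [hxZ, heZ]; ring
      rw [this]; exact h0
    exact (hpZ.dvd_or_dvd h1).resolve_left hpd₁
  have hp0 : (p : ℤ) ≠ 0 := by exact_mod_cast hp.ne_zero
  rcases hε with rfl | rfl
  · left
    refine ⟨rfl, ?_⟩
    rw [one_mul] at hmod'
    -- d₂ = e₁ + j p
    obtain ⟨j, hj⟩ : ∃ j : ℕ, d₂ = e₁ + j * p := by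
      obtain ⟨j', hj'⟩ := hmod'
      have hj'0 : j' ≤ 0 := by
        by_contra hpos
        push Not at hpos
        have h1 : (p : ℤ) ≤ (p : ℤ) * j' := by nlinarith
        have h2 : (1 : ℤ) ≤ (d₂ : ℤ) := by exact_mod_cast hd₂
        have h3 : (e₁ : ℤ) < (p : ℤ) := by exact_mod_cast he₁p
        linarith
      refine ⟨(-j').toNat, ?_⟩
      have : (d₂ : ℤ) = (e₁ : ℤ) + (((-j').toNat : ℕ) : ℤ) * (p : ℤ) := by
        rw [Int.toNat_of_nonneg (by linarith)]; linarith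
      exact_mod_cast this
    have hjZ : (d₂ : ℤ) = (e₁ : ℤ) + (j : ℤ) * (p : ℤ) := by exact_mod_cast hj
    -- p ∣ c + τ
    have hb : (p : ℤ) ∣ (c : ℤ) + (τ : ℤ) := by
      have h1 : (p : ℤ) ∣ (e₁ : ℤ) * ((c : ℤ) + (τ : ℤ)) := by
        have : (e₁ : ℤ) * ((c : ℤ) + (τ : ℤ)) =
            (p : ℤ) * ((n : ℤ) + 1 - (j : ℤ) * (c : ℤ)) := by
          have h2 : ((e₁ : ℤ) + (j : ℤ) * (p : ℤ)) * (c : ℤ) = 1 + (n : ℤ) * (p : ℤ) := by
            rw [← hjZ]; exact hmZ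
          linear_combination h2 + he₁τZ
        rw [this]; exact Dvd.intro _ rfl
      exact (hpZ.dvd_or_dvd h1).resolve_left hpe₁
    obtain ⟨k, hk⟩ : ∃ k : ℕ, c + τ = k * p := by
      obtain ⟨k', hk'⟩ := hb
      have hk'0 : 0 ≤ k' := by
        by_contra hneg
        push Not at hneg
        have h1 : (p : ℤ) * k' ≤ -(p : ℤ) := by nlinarith
        have h2 : (0 : ℤ) ≤ (c : ℤ) + (τ : ℤ) := by positivity
        have h3 : (0 : ℤ) < (p : ℤ) := by exact_mod_cast hp.pos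
        linarith
      refine ⟨k'.toNat, ?_⟩
      have : ((c : ℤ) + (τ : ℤ)) = ((k'.toNat : ℕ) : ℤ) * (p : ℤ) := by
        rw [Int.toNat_of_nonneg hk'0]; linarith
      exact_mod_cast this
    have hk1 : 1 ≤ k := by
      rcases Nat.eq_zero_or_pos k with h | h
      · rw [h, zero_mul] at hk; omega
      · exact h
    have hn' : n + 1 = e₁ * k + j * c := by
      have hZ : ((n : ℤ) + 1) * (p : ℤ) = ((e₁ : ℤ) * (k : ℤ) + (j : ℤ) * (c : ℤ)) * (p : ℤ) := by
        have hkZ : (c : ℤ) + (τ : ℤ) = (k : ℤ) * (p : ℤ) := by exact_mod_cast hk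
        have hτZ : (τ : ℤ) = (k : ℤ) * (p : ℤ) - (c : ℤ) := by linarith
        have h1 : (e₁ : ℤ) * ((k : ℤ) * (p : ℤ) - (c : ℤ)) = (p : ℤ) - 1 := by
          rw [← hτZ]; exact he₁τZ
        have h2 : ((e₁ : ℤ) + (j : ℤ) * (p : ℤ)) * (c : ℤ) = 1 + (n : ℤ) * (p : ℤ) := by
          rw [← hjZ]; exact hmZ
        linear_combination (-1 : ℤ) * h1 - h2
      have := mul_right_cancel₀ hp0 hZ
      exact_mod_cast this
    rcases Nat.eq_zero_or_pos j with hj0 | hjpos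
    · rw [hj0, zero_mul, add_zero] at hj
      rw [hd, he, hj]
    · exfalso
      have h1 : e₁ + c ≤ n + 1 := by
        rw [hn']
        have := Nat.le_mul_of_pos_right e₁ hk1
        have := Nat.le_mul_of_pos_left c hjpos
        omega
      have h2 : p ≤ c + τ := by
        rw [hk]; exact Nat.le_mul_of_pos_left p hk1
      rcases Nat.lt_or_ge e₁ 2 with h | h
      · have he₁1 : e₁ = 1 := by omega
        rw [he₁1, one_mul] at he₁τ
        have hk2 : ¬ 2 ≤ k := by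
          intro hk2
          have h3 : 2 * p ≤ c + τ := by
            rw [hk]; exact Nat.mul_le_mul_right p hk2
          have h4 : e₁ * k + j * c ≥ 2 + c := by
            rw [he₁1, one_mul]
            have := Nat.le_mul_of_pos_left c hjpos
            omega
          omega
        have hk1' : k = 1 := by omega
        rw [hk1', one_mul] at hk
        have hc1 : c = 1 := by omega
        rw [hc1, mul_one] at hm
        have hee : e = d₁ := by rw [he, he₁1, mul_one]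
        rw [hd, hee, hm] at hsq
        have h5 : d₁ * d₂ < p := by
          have h6 : d₁ * d₂ * (d₁ * d₂) < d₁ * d₂ * p := by
            calc d₁ * d₂ * (d₁ * d₂) < d₂ * (d₁ * p) := hsq
              _ = d₁ * d₂ * p := by ring
          exact lt_of_mul_lt_mul_left h6 (Nat.zero_le _)
        have h7 : 1 + p ≤ d₂ := by
          rw [← hm]
          have : p ≤ n * p := Nat.le_mul_of_pos_left p hn1
          omega
        have h8 : d₂ ≤ d₁ * d₂ := Nat.le_mul_of_pos_left d₂ hd₁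
        omega
      · have h3 : 2 * τ ≤ p - 1 := by
          rw [← he₁τ]; exact Nat.mul_le_mul_right τ h
        omega
  · right
    refine ⟨rfl, ?_⟩
    -- d₂ + e₁ = j p
    have ha : (p : ℤ) ∣ (d₂ : ℤ) + (e₁ : ℤ) := by
      have : (d₂ : ℤ) + (e₁ : ℤ) = -((-1 : ℤ) * (e₁ : ℤ) - (d₂ : ℤ)) := by ring
      rw [this]; exact dvd_neg.mpr hmod'
    obtain ⟨j, hj⟩ : ∃ j : ℕ, d₂ + e₁ = j * p := by
      obtain ⟨j', hj'⟩ := ha
      have hj'0 : 0 ≤ j' := by
        by_contra hneg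
        push Not at hneg
        have h1 : (p : ℤ) * j' ≤ -(p : ℤ) := by nlinarith
        have h2 : (0 : ℤ) ≤ (d₂ : ℤ) + (e₁ : ℤ) := by positivity
        have h3 : (0 : ℤ) < (p : ℤ) := by exact_mod_cast hp.pos
        linarith
      refine ⟨j'.toNat, ?_⟩
      have : ((d₂ : ℤ) + (e₁ : ℤ)) = ((j'.toNat : ℕ) : ℤ) * (p : ℤ) := by
        rw [Int.toNat_of_nonneg hj'0]; linarith
      exact_mod_cast this
    have hjZ : (d₂ : ℤ) + (e₁ : ℤ) = (j : ℤ) * (p : ℤ) := by exact_mod_cast hj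
    have hj1 : 1 ≤ j := by
      rcases Nat.eq_zero_or_pos j with h | h
      · rw [h, zero_mul] at hj; omega
      · exact h
    -- p ∣ c - τ
    have hb : (p : ℤ) ∣ (c : ℤ) - (τ : ℤ) := by
      have h1 : (p : ℤ) ∣ (e₁ : ℤ) * ((c : ℤ) - (τ : ℤ)) := by
        have : (e₁ : ℤ) * ((c : ℤ) - (τ : ℤ)) =
            (p : ℤ) * ((j : ℤ) * (c : ℤ) - (n : ℤ) - 1) := by
          have he₁Z : (e₁ : ℤ) = (j : ℤ) * (p : ℤ) - (d₂ : ℤ) := by linarith
          have h2 : ((j : ℤ) * (p : ℤ) - (e₁ : ℤ)) * (c : ℤ) = 1 + (n : ℤ) * (p : ℤ) := by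
            have : (j : ℤ) * (p : ℤ) - (e₁ : ℤ) = (d₂ : ℤ) := by linarith
            rw [this]; exact hmZ
          linear_combination (-1 : ℤ) * h2 - he₁τZ
        rw [this]; exact Dvd.intro _ rfl
      exact (hpZ.dvd_or_dvd h1).resolve_left hpe₁
    obtain ⟨k, hk⟩ : ∃ k : ℕ, c = τ + k * p := by
      obtain ⟨k', hk'⟩ := hb
      have hk'0 : 0 ≤ k' := by
        by_contra hneg
        push Not at hneg
        have h1 : (p : ℤ) * k' ≤ -(p : ℤ) := by nlinarith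
        have h2 : (1 : ℤ) ≤ (c : ℤ) := by exact_mod_cast hc
        have h3 : (τ : ℤ) < (p : ℤ) := by exact_mod_cast hτp
        linarith
      refine ⟨k'.toNat, ?_⟩
      have : (c : ℤ) = (τ : ℤ) + ((k'.toNat : ℕ) : ℤ) * (p : ℤ) := by
        rw [Int.toNat_of_nonneg hk'0]; linarith
      exact_mod_cast this
    have hn' : n + 1 = j * τ + k * d₂ := by
      have hZ : ((n : ℤ) + 1) * (p : ℤ) = ((j : ℤ) * (τ : ℤ) + (k : ℤ) * (d₂ : ℤ)) * (p : ℤ) := by
        have hkZ : (c : ℤ) = (τ : ℤ) + (k : ℤ) * (p : ℤ) := by exact_mod_cast hk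
        have he₁Z : (e₁ : ℤ) = (j : ℤ) * (p : ℤ) - (d₂ : ℤ) := by linarith
        have h1 : ((j : ℤ) * (p : ℤ) - (d₂ : ℤ)) * (τ : ℤ) = (p : ℤ) - 1 := by
          rw [← he₁Z]; exact he₁τZ
        have h2 : (d₂ : ℤ) * ((τ : ℤ) + (k : ℤ) * (p : ℤ)) = 1 + (n : ℤ) * (p : ℤ) := by
          rw [← hkZ]; exact hmZ
        linear_combination (-1 : ℤ) * h1 - h2
      have := mul_right_cancel₀ hp0 hZ
      exact_mod_cast this
    rcases Nat.eq_zero_or_pos k with hk0 | hkpos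
    · rw [hk0, zero_mul, add_zero] at hk
      rw [hd, hm, hk, hτ]; ring
    · exfalso
      have h1 : τ + d₂ ≤ n + 1 := by
        rw [hn']
        have := Nat.le_mul_of_pos_left τ hj1
        have := Nat.le_mul_of_pos_left d₂ hkpos
        omega
      have h2 : p ≤ d₂ + e₁ := by
        rw [hj]; exact Nat.le_mul_of_pos_left p hj1
      rcases Nat.lt_or_ge τ 2 with h | h
      · have hτ1' : τ = 1 := by omega
        rw [hτ1', mul_one] at he₁τ
        -- d₁ = 1, so x₀ = d₂ ≥ 2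
        have hd₁1 : d₁ = 1 := by
          have : d₁ ≤ d₁ * t := Nat.le_mul_of_pos_right d₁ ht1
          omega
        rw [hd₁1, one_mul] at hd
        have hj2 : 2 ≤ j := by
          by_contra hj2
          have : j = 1 := by omega
          rw [this, one_mul] at hj
          omega
        have h3 : 2 * p ≤ d₂ + e₁ := by
          rw [hj]; exact Nat.mul_le_mul_right p hj2
        have h4 : j * τ + k * d₂ ≥ 2 + d₂ := by
          rw [hτ1', mul_one]
          have := Nat.le_mul_of_pos_left d₂ hkpos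
          omega
        omega
      · have h3 : 2 * e₁ ≤ p - 1 := by
          rw [← he₁τ, mul_comm e₁ τ]; exact Nat.mul_le_mul_right e₁ h
        omega

end Cfsg.Agent.Lib.Helper5.BQ
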