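import Mathlib
import Cfsg.Prelude.Def_Local
import Cfsg.Prelude.Def_Balance
import Cfsg.Agent.S0057
import Cfsg.Agent.Lib.Helper30.InvSylow
import Cfsg.Agent.Lib.Helper30.Transitivity
import Cfsg.Agent.Lib.Helper40.Signalizer

set_option autoImplicit false

namespace Cfsg.Agent.Lib.Helper30

open Cfsg Subgroup

section ElemAb
variable {G : Type*} [Group G] [Finite G]

omit [Finite G] in
/-- subgroups of an elementary abelian subgroup normalize each other. -/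
theorem le_normalizer_of_elemAb {p : ℕ} {A U V : Subgroup G} (hA : IsElementaryAbelian p A)
    (hU : U ≤ A) (hV : V ≤ A) : V ≤ normalizer (U : Set G) := by
  apply le_normalizer_of_conj_mem
  intro v hv u hu
  have h := Cfsg.Agent.Lib.Helper40.elemAb_comm hA (hV hv) (hU hu)
  rw [h, mul_inv_cancel_right]
  exact hu

omit [Finite G] in
/-- elements of a join inside an elementary abelian subgroup are products. -/
theorem mem_sup_elemAb {p : ℕ} {A U V : Subgroup G} (hA : IsElementaryAbelian p A)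
    (hU : U ≤ A) (hV : V ≤ A) {g : G} (hg : g ∈ U ⊔ V) : ∃ u ∈ U, ∃ v ∈ V, g = u * v := by
  have h := Subgroup.coe_mul_of_right_le_normalizer_left U V (le_normalizer_of_elemAb hA hU hV)
  have hg' : g ∈ ((U ⊔ V : Subgroup G) : Set G) := hg
  rw [h] at hg'
  obtain ⟨n, hn, a, ha, rfl⟩ := Set.mem_mul.1 hg'
  exact ⟨n, hn, a, ha, rfl⟩

omit [Finite G] in
/-- `E ⊓ ⟨x⟩ = ⊥` when `x ∉ E` has order dividing `p`. -/
theorem inf_zpowers_eq_bot {p : ℕ} [Fact p.Prime] {E : Subgroup G} {x : G} (hxp : x ^ p = 1)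
    (hxE : x ∉ E) : E ⊓ zpowers x = ⊥ := by
  rw [eq_bot_iff]
  intro g hg
  rw [mem_bot]
  by_contra hne
  obtain ⟨i, rfl⟩ := Subgroup.mem_zpowers_iff.mp hg.2
  exact hxE (Cfsg.Agent.Lib.Helper40.mem_of_zpow_mem_of_pow_prime Fact.out hxp hg.1 hne)

/-- `|E ⊔ ⟨x⟩| = |E| p` for `x ∈ A ∖ E`, `x ≠ 1`. -/
theorem card_sup_zpowers {p : ℕ} [Fact p.Prime] {A E : Subgroup G}
    (hA : IsElementaryAbelian p A) (hE : E ≤ A) {x : G} (hx : x ∈ A) (hxE : x ∉ E) :
    Nat.card (E ⊔ zpowers x : Subgroup G) = Nat.card E * p := by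
  have hxp : x ^ p = 1 := hA.2 x hx
  have hx1 : x ≠ 1 := fun h => hxE (h ▸ E.one_mem)
  have hcov := card_mul_card_inf_of_cover (S := E) (T := zpowers x) (U := E ⊔ zpowers x)
    le_sup_left le_sup_right
    (fun u hu => mem_sup_elemAb hA hE (Subgroup.zpowers_le_of_mem hx) hu)
  rw [inf_zpowers_eq_bot hxp hxE, Subgroup.card_bot, mul_one, Nat.card_zpowers,
    orderOf_eq_prime hxp hx1] at hcov
  exact hcov

/-- complements in elementary abelian subgroups. -/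
theorem exists_compl_elemAb {p : ℕ} [Fact p.Prime] {A E : Subgroup G}
    (hA : IsElementaryAbelian p A) (hE : E ≤ A) :
    ∃ A₁ : Subgroup G, A₁ ≤ A ∧ E ⊓ A₁ = ⊥ ∧ (∀ x ∈ A, ∃ e ∈ E, ∃ y ∈ A₁, x = e * y) ∧
      Nat.card A = Nat.card E * Nat.card A₁ := by
  classical
  haveI : Nonempty {A₁ : Subgroup G // A₁ ≤ A ∧ E ⊓ A₁ = ⊥} := ⟨⟨⊥, bot_le, inf_bot_eq _⟩⟩
  obtain ⟨⟨A₁, hA₁, hint⟩, hmax⟩ := Finite.exists_max
    (fun V : {A₁ : Subgroup G // A₁ ≤ A ∧ E ⊓ A₁ = ⊥} => Nat.card V.1)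
  have hcov : ∀ x ∈ A, ∃ e ∈ E, ∃ y ∈ A₁, x = e * y := by
    intro x hx
    by_contra hcon
    have hxF : x ∉ E ⊔ A₁ := fun h => hcon (mem_sup_elemAb hA hE hA₁ h)
    have hxp : x ^ p = 1 := hA.2 x hx
    have hA₂ : A₁ ⊔ zpowers x ≤ A := sup_le hA₁ (Subgroup.zpowers_le_of_mem hx)
    have hint₂ : E ⊓ (A₁ ⊔ zpowers x) = ⊥ := by
      rw [eq_bot_iff]
      intro g hg
      rw [mem_bot]
      obtain ⟨y, hy, z, hz, rfl⟩ := mem_sup_elemAb hA hA₁ (Subgroup.zpowers_le_of_mem hx) hg.2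
      have hz1 : z = 1 := by
        by_contra hz1
        obtain ⟨i, rfl⟩ := Subgroup.mem_zpowers_iff.mp hz
        have hzF : x ^ i ∈ E ⊔ A₁ := by
          have e1 : x ^ i = (y * x ^ i) * y⁻¹ := by
            have hc := Cfsg.Agent.Lib.Helper40.elemAb_comm hA (hA₁ hy) (A.zpow_mem hx i)
            rw [hc]; group
          rw [e1]
          exact mul_mem (mem_sup_left hg.1) (mem_sup_right (A₁.inv_mem hy))
        exact hxF (Cfsg.Agent.Lib.Helper40.mem_of_zpow_mem_of_pow_prime Fact.out hxp hzF hz1)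
      rw [hz1, mul_one] at hg ⊢
      have : y ∈ E ⊓ A₁ := ⟨hg.1, hy⟩
      rw [hint, mem_bot] at this
      exact this
    have h1 := hmax ⟨A₁ ⊔ zpowers x, hA₂, hint₂⟩
    have h2 : A₁ ⊔ zpowers x = A₁ := (Subgroup.eq_of_le_of_card_ge le_sup_left h1).symm
    apply hxF
    have : x ∈ A₁ := by rw [← h2]; exact mem_sup_right (Subgroup.mem_zpowers x)
    exact mem_sup_right this
  refine ⟨A₁, hA₁, hint, hcov, ?_⟩
  have h := card_mul_card_inf_of_cover (S := E) (T := A₁) (U := A) hE hA₁ hcov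
  rw [hint, Subgroup.card_bot, mul_one] at h
  exact h

/-- intermediate subgroups of prescribed order in a `p`-group. -/
theorem exists_between_card {p : ℕ} [Fact p.Prime] {F E₂ D : Subgroup G} (hF : IsPGroup p F)
    (hE₂ : E₂ ≤ F) (hD : D ≤ F) {k : ℕ} (hDk : Nat.card D = p ^ k)
    (hE₂k : Nat.card E₂ ≤ p ^ k) :
    ∃ D' : Subgroup G, E₂ ≤ D' ∧ D' ≤ F ∧ Nat.card D' = p ^ k := by
  have hp := (Fact.out : p.Prime)
  obtain ⟨n, hn⟩ := IsPGroup.iff_card.mp (hF.to_le hE₂)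
  have hnk : n ≤ k := by
    rw [hn] at hE₂k
    exact (Nat.pow_le_pow_iff_right hp.one_lt).mp hE₂k
  have hdvd : p ^ k ∣ Nat.card F := hDk ▸ Subgroup.card_dvd_of_le hD
  obtain ⟨K, hK, hle⟩ := Sylow.exists_subgroup_card_pow_prime_le p hdvd (E₂.subgroupOf F)
    (by rw [Cfsg.Agent.Lib.Helper1.card_subgroupOf_of_le hE₂]; exact hn) hnk
  refine ⟨K.map F.subtype, ?_, Subgroup.map_subtype_le _, ?_⟩
  · intro x hx
    exact ⟨⟨x, hE₂ hx⟩, hle (by simpa [Subgroup.mem_subgroupOf] using hx), rfl⟩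
  · rw [Subgroup.card_map_of_injective (Subgroup.subtype_injective F)]
    exact hK

end ElemAb

end Cfsg.Agent.Lib.Helper30
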