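import Mathlib
import Cfsg.Agent.Lib.Helper51.HypPairs
import Cfsg.Agent.Lib.Helper53.OddFB
import Cfsg.Agent.Lib.Helper54.OrthForms

/-!
# S2718 piece GG-QEXT (for helper51), part 0: everything except the appeal to GG-UNIV

A self-adjoint similarity `G` of the hyperbolic form `QPlus m F` with non-square multiplier `μ`
and `G * G = μ` has a vector `u` with `Q u = 1` orthogonal to `G u`.  The proof passes to the
quadratic extension `K = F(√μ)`; the universality statement over `K` (piece GG-UNIV) is taken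
here as a hypothesis.
-/

set_option autoImplicit false

namespace Cfsg.Agent.Lib.Helper30.GGQEXT

open Matrix Polynomial Cfsg Cfsg.Agent.Lib.Helper51

universe u

/-- Every element of `F[X]/(X² - μ)` is `x + √μ y`. -/
theorem adj_decomp {F : Type*} [Field F] (μ : F) (z : AdjoinRoot (X ^ 2 - C μ : F[X])) :
    ∃ x y : F, z = AdjoinRoot.of (X ^ 2 - C μ : F[X]) x
      + AdjoinRoot.root (X ^ 2 - C μ : F[X]) * AdjoinRoot.of (X ^ 2 - C μ : F[X]) y := by
  obtain ⟨g, rfl⟩ := AdjoinRoot.mk_surjective z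
  have hmonic : (X ^ 2 - C μ : F[X]).Monic := monic_X_pow_sub_C μ (by norm_num)
  have hne1 : (X ^ 2 - C μ : F[X]) ≠ 1 := by
    intro h
    have := congrArg Polynomial.natDegree h
    rw [natDegree_X_pow_sub_C, natDegree_one] at this
    omega
  have h1 : AdjoinRoot.mk (X ^ 2 - C μ) g
      = AdjoinRoot.mk (X ^ 2 - C μ) (g %ₘ (X ^ 2 - C μ)) := by
    rw [AdjoinRoot.mk_eq_mk]
    refine ⟨g /ₘ (X ^ 2 - C μ), ?_⟩
    have := modByMonic_add_div g (X ^ 2 - C μ)
    linear_combination -this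
  have hdeg : (g %ₘ (X ^ 2 - C μ)).natDegree ≤ 1 := by
    have h := natDegree_modByMonic_lt g hmonic hne1
    rw [natDegree_X_pow_sub_C] at h
    omega
  have h2 := eq_X_add_C_of_natDegree_le_one hdeg
  refine ⟨(g %ₘ (X ^ 2 - C μ)).coeff 0, (g %ₘ (X ^ 2 - C μ)).coeff 1, ?_⟩
  rw [h1]
  conv_lhs => rw [h2]
  rw [map_add, map_mul, AdjoinRoot.mk_C, AdjoinRoot.mk_C, AdjoinRoot.mk_X]
  ring

/-- The abstract form of the statement: `K ⊇ F` generated by a square root `c` of `μ`. -/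
theorem main_abs {F : Type*} [Field F] {K : Type*} [Field K]
    (e : F →+* K) (c : K) (μ : F) (hc : c ^ 2 = e μ)
    (hdec : ∀ z : K, ∃ x y : F, z = e x + c * e y) (hμ : ¬ IsSquare μ)
    (h2 : (2 : F) ≠ 0) {m : ℕ} (hm : 2 ≤ m)
    (G : Matrix (Fin m ⊕ Fin m) (Fin m ⊕ Fin m) F)
    (hGG : G * G = μ • (1 : Matrix (Fin m ⊕ Fin m) (Fin m ⊕ Fin m) F))
    (hG : ∀ v, QPlus m F (G *ᵥ v) = μ * QPlus m F v)
    (huniv : ∀ J : Matrix (Fin m ⊕ Fin m) (Fin m ⊕ Fin m) K, J * J = 1 →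
      (∀ v, QPlus m K (J *ᵥ v) = QPlus m K v) → J ≠ 1 → J ≠ -1 →
      ∃ ε : K, (ε = 1 ∨ ε = -1) ∧ ∀ t : K, t ≠ 0 →
        ∃ w : Fin m ⊕ Fin m → K, J *ᵥ w = ε • w ∧ QPlus m K w = t) :
    ∃ u : Fin m ⊕ Fin m → F, QPlus m F u = 1 ∧
      QuadraticMap.polar ⇑(QPlus m F) u (G *ᵥ u) = 0 := by
  classical
  have hinj : Function.Injective e := e.injective
  have hμ0 : μ ≠ 0 := by
    rintro rfl
    exact hμ ⟨0, by simp⟩
  have h2K : (2 : K) ≠ 0 := by
    intro h
    apply h2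
    apply hinj
    rw [map_ofNat, map_zero]
    exact h
  have heμ : e μ ≠ 0 := (map_ne_zero e).mpr hμ0
  have hc0 : c ≠ 0 := by
    intro h
    rw [h] at hc
    apply heμ
    rw [← hc]
    simp
  -- (ii) independence of 1 and a square root of μ
  have hind : ∀ c' : K, c' ^ 2 = e μ → ∀ x y : F, e x + c' * e y = 0 → x = 0 ∧ y = 0 := by
    intro c' hc' x y h
    by_cases hy : y = 0
    · subst hy
      rw [map_zero, mul_zero, add_zero] at h
      exact ⟨hinj (by rw [h, map_zero]), rfl⟩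
    · exfalso
      apply hμ
      refine ⟨-x / y, ?_⟩
      apply hinj
      have hey : e y ≠ 0 := (map_ne_zero e).mpr hy
      have hcc : c' = e (-x / y) := by
        rw [map_div₀, map_neg, eq_div_iff hey]
        linear_combination h
      rw [map_mul, ← hcc, ← hc', pow_two]
  have hdiag : ∀ s : K, s ^ 2 = e μ → ∀ g : F, e g ≠ s := by
    intro s hs g hg
    apply hμ
    refine ⟨g, ?_⟩
    apply hinj
    rw [map_mul, hg, ← hs, pow_two]
  -- the matrix over K
  set GK : Matrix (Fin m ⊕ Fin m) (Fin m ⊕ Fin m) K := G.map e with hGK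
  have hGKGK : GK * GK = (e μ) • (1 : Matrix (Fin m ⊕ Fin m) (Fin m ⊕ Fin m) K) := by
    rw [hGK, ← Matrix.map_mul, hGG]
    ext i j
    by_cases hij : i = j
    · subst hij
      simp [Matrix.map_apply, Matrix.smul_apply]
    · simp [Matrix.map_apply, Matrix.smul_apply, Matrix.one_apply_ne hij]
  have hsimK : ∀ w, QPlus m K (GK *ᵥ w) = e μ * QPlus m K w := by
    rw [Cfsg.Agent.Lib.Helper53.OddF.sim_iff_gram _ h2K]
    have h1 := (Cfsg.Agent.Lib.Helper53.OddF.sim_iff_gram (QPlus m F) h2 G μ).mp hG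
    rw [gram_QPlus'] at h1 ⊢
    have h3 := congrArg (fun A : Matrix (Fin m ⊕ Fin m) (Fin m ⊕ Fin m) F => A.map e) h1
    beta_reduce at h3
    rw [Matrix.map_mul, Matrix.map_mul, Matrix.transpose_map] at h3
    have hblk : (Matrix.fromBlocks (0 : Matrix (Fin m) (Fin m) F)
          (1 : Matrix (Fin m) (Fin m) F) (1 : Matrix (Fin m) (Fin m) F)
          (0 : Matrix (Fin m) (Fin m) F)).map e
        = Matrix.fromBlocks (0 : Matrix (Fin m) (Fin m) K) (1 : Matrix (Fin m) (Fin m) K)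
          (1 : Matrix (Fin m) (Fin m) K) (0 : Matrix (Fin m) (Fin m) K) := by
      rw [Matrix.fromBlocks_map]
      simp
    have hsm : (μ • Matrix.fromBlocks (0 : Matrix (Fin m) (Fin m) F)
          (1 : Matrix (Fin m) (Fin m) F) (1 : Matrix (Fin m) (Fin m) F)
          (0 : Matrix (Fin m) (Fin m) F)).map e
        = e μ • (Matrix.fromBlocks (0 : Matrix (Fin m) (Fin m) F)
          (1 : Matrix (Fin m) (Fin m) F) (1 : Matrix (Fin m) (Fin m) F)
          (0 : Matrix (Fin m) (Fin m) F)).map e := by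
      ext a b
      simp [Matrix.map_apply, Matrix.smul_apply]
    rw [hsm, hblk] at h3
    exact h3
  set J : Matrix (Fin m ⊕ Fin m) (Fin m ⊕ Fin m) K := c⁻¹ • GK with hJ
  have hJJ : J * J = 1 := by
    rw [hJ, Matrix.smul_mul, Matrix.mul_smul, hGKGK, smul_smul, smul_smul, ← hc]
    have : c⁻¹ * c⁻¹ * c ^ 2 = 1 := by field_simp
    rw [this, one_smul]
  have hJQ : ∀ v, QPlus m K (J *ᵥ v) = QPlus m K v := by
    intro v
    rw [hJ, Matrix.smul_mulVec, QuadraticMap.map_smul, hsimK, ← hc, smul_eq_mul]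
    field_simp
  have i₀ : Fin m := ⟨0, by omega⟩
  have hJ1 : J ≠ 1 := by
    intro h
    have h1 := congrFun (congrFun h (Sum.inl i₀)) (Sum.inl i₀)
    rw [hJ, Matrix.smul_apply, Matrix.one_apply_eq, hGK, Matrix.map_apply, smul_eq_mul] at h1
    apply hdiag c hc (G (Sum.inl i₀) (Sum.inl i₀))
    field_simp at h1
    exact h1
  have hJ2 : J ≠ -1 := by
    intro h
    have h1 := congrFun (congrFun h (Sum.inl i₀)) (Sum.inl i₀)
    rw [hJ, Matrix.smul_apply, Matrix.neg_apply, Matrix.one_apply_eq, hGK, Matrix.map_apply,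
      smul_eq_mul] at h1
    apply hdiag (-c) (by rw [neg_sq, hc]) (G (Sum.inl i₀) (Sum.inl i₀))
    field_simp at h1
    linear_combination h1
  obtain ⟨ε, hε, hall⟩ := huniv J hJJ hJQ hJ1 hJ2
  obtain ⟨w, hJw, hQw⟩ := hall (2 * e μ) (mul_ne_zero h2K heμ)
  set c' : K := ε * c with hc'
  have hc'2 : c' ^ 2 = e μ := by
    rcases hε with h | h
    · rw [hc', h, one_mul, hc]
    · rw [hc', h, neg_one_mul, neg_sq, hc]
  have hGw : GK *ᵥ w = c' • w := by
    have : GK = c • J := by rw [hJ, smul_smul, mul_inv_cancel₀ hc0, one_smul]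
    rw [this, Matrix.smul_mulVec, hJw, smul_smul, hc', mul_comm]
  have hdec' : ∀ z : K, ∃ x y : F, z = e x + c' * e y := by
    intro z
    obtain ⟨x, y, rfl⟩ := hdec z
    rcases hε with h | h
    · exact ⟨x, y, by rw [hc', h, one_mul]⟩
    · exact ⟨x, -y, by rw [hc', h, map_neg]; ring⟩
  choose u1 u2 hu using fun k => hdec' (w k)
  have hGu : G *ᵥ u2 = u1 := by
    funext k
    have hk := congrFun hGw k
    have hl : (GK *ᵥ w) k = e ((G *ᵥ u1) k) + c' * e ((G *ᵥ u2) k) := by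
      simp only [Matrix.mulVec, dotProduct, hGK, Matrix.map_apply, map_sum, map_mul]
      rw [Finset.mul_sum, ← Finset.sum_add_distrib]
      apply Finset.sum_congr rfl
      intro j _
      rw [hu j]
      ring
    have hr : (c' • w) k = e (μ * u2 k) + c' * e (u1 k) := by
      rw [Pi.smul_apply, smul_eq_mul, hu k, map_mul, ← hc'2]
      ring
    rw [hl, hr] at hk
    have := hind c' hc'2 ((G *ᵥ u1) k - μ * u2 k) ((G *ᵥ u2) k - u1 k)
      (by rw [map_sub, map_sub]; linear_combination hk)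
    exact sub_eq_zero.mp this.2
  have hw : ∀ k, w k = e ((G *ᵥ u2) k) + c' * e (u2 k) := by
    intro k
    rw [hGu]
    exact hu k
  have hQ : QPlus m K w = e (2 * μ * QPlus m F u2)
      + c' * e (QuadraticMap.polar ⇑(QPlus m F) u2 (G *ᵥ u2)) := by
    have hQG := hG u2
    have e1 : (2 : F) * μ * QPlus m F u2 = QPlus m F (G *ᵥ u2) + μ * QPlus m F u2 := by
      rw [hQG]
      ring
    rw [e1, polar_QPlus, QPlus_apply, QPlus_apply, QPlus_apply]
    simp only [map_add, map_mul, map_sum, Finset.mul_sum]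
    rw [← Finset.sum_add_distrib, ← Finset.sum_add_distrib]
    apply Finset.sum_congr rfl
    intro i _
    rw [hw (Sum.inl i), hw (Sum.inr i)]
    linear_combination (e (u2 (Sum.inl i)) * e (u2 (Sum.inr i))) * hc'2
  rw [hQw] at hQ
  have h2μ : e (2 * μ) = 2 * e μ := by rw [map_mul, map_ofNat]
  have hfin := hind c' hc'2 (2 * μ * QPlus m F u2 - 2 * μ)
    (QuadraticMap.polar ⇑(QPlus m F) u2 (G *ᵥ u2))
    (by rw [map_sub]; linear_combination -hQ - h2μ)
  refine ⟨u2, ?_, hfin.2⟩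
  have h3 : 2 * μ * (QPlus m F u2 - 1) = 0 := by linear_combination hfin.1
  rcases mul_eq_zero.mp h3 with h | h
  · rcases mul_eq_zero.mp h with h | h
    · exact absurd h h2
    · exact absurd h hμ0
  · exact sub_eq_zero.mp h

/-- GG-QEXT modulo GG-UNIV (given as a hypothesis `huniv` over finite fields). -/
theorem exists_unit_orth_of_univ {F : Type u} [Field F] [Fintype F] (h2 : (2 : F) ≠ 0) {m : ℕ}
    (hm : 2 ≤ m) (G : Matrix (Fin m ⊕ Fin m) (Fin m ⊕ Fin m) F) (μ : F) (hμ : ¬ IsSquare μ)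
    (hGG : G * G = μ • (1 : Matrix (Fin m ⊕ Fin m) (Fin m ⊕ Fin m) F))
    (hG : ∀ v, QPlus m F (G *ᵥ v) = μ * QPlus m F v)
    (huniv : ∀ (K : Type u) [Field K] [Fintype K], (2 : K) ≠ 0 →
      ∀ J : Matrix (Fin m ⊕ Fin m) (Fin m ⊕ Fin m) K, J * J = 1 →
      (∀ v, QPlus m K (J *ᵥ v) = QPlus m K v) → J ≠ 1 → J ≠ -1 →
      ∃ ε : K, (ε = 1 ∨ ε = -1) ∧ ∀ t : K, t ≠ 0 →
        ∃ w : Fin m ⊕ Fin m → K, J *ᵥ w = ε • w ∧ QPlus m K w = t) :
    ∃ u : Fin m ⊕ Fin m → F, QPlus m F u = 1 ∧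
      QuadraticMap.polar ⇑(QPlus m F) u (G *ᵥ u) = 0 := by
  classical
  have hirr : Irreducible (X ^ 2 - C μ : F[X]) := by
    apply X_pow_sub_C_irreducible_of_prime Nat.prime_two
    intro b hb
    exact hμ ⟨b, by rw [← hb, pow_two]⟩
  haveI : Fact (Irreducible (X ^ 2 - C μ : F[X])) := ⟨hirr⟩
  have hmonic : (X ^ 2 - C μ : F[X]).Monic := monic_X_pow_sub_C μ (by norm_num)
  haveI : Module.Finite F (AdjoinRoot (X ^ 2 - C μ : F[X])) :=
    (AdjoinRoot.powerBasis' hmonic).finite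
  haveI : Finite (AdjoinRoot (X ^ 2 - C μ : F[X])) := Module.finite_of_finite F
  haveI : Fintype (AdjoinRoot (X ^ 2 - C μ : F[X])) := Fintype.ofFinite _
  have hc : (AdjoinRoot.root (X ^ 2 - C μ : F[X])) ^ 2
      = AdjoinRoot.of (X ^ 2 - C μ : F[X]) μ := by
    have h := AdjoinRoot.eval₂_root (X ^ 2 - C μ : F[X])
    rw [eval₂_sub, eval₂_X_pow, eval₂_C] at h
    exact sub_eq_zero.mp h
  have h2K : (2 : AdjoinRoot (X ^ 2 - C μ : F[X])) ≠ 0 := by
    intro h
    apply h2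
    apply (AdjoinRoot.of (X ^ 2 - C μ : F[X])).injective
    rw [map_ofNat, map_zero]
    exact h
  exact main_abs (AdjoinRoot.of (X ^ 2 - C μ : F[X])) (AdjoinRoot.root (X ^ 2 - C μ : F[X])) μ hc
    (adj_decomp μ) hμ h2 hm G hGG hG (huniv (AdjoinRoot (X ^ 2 - C μ : F[X])) h2K)

end Cfsg.Agent.Lib.Helper30.GGQEXT
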