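import Mathlib
import Cfsg.Agent.Lib.Helper51.HypPairs
import Cfsg.Agent.Lib.Helper53.OddFB
import Cfsg.Agent.Lib.Helper54.OrthForms
import Cfsg.Agent.Lib.Helper30.GGQEXT0
import Cfsg.Agent.Lib.Helper8.GGUNIV

/-!
# S2718 piece GG-QEXT (for helper51)

A self-adjoint similarity `G` of the hyperbolic form `QPlus m F` with non-square multiplier `μ`
and `G * G = μ` has a vector `u` with `Q u = 1` orthogonal to `G u`.
-/

set_option autoImplicit false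

namespace Cfsg.Agent.Lib.Helper30.GGQEXT

open Matrix Cfsg Cfsg.Agent.Lib.Helper51

theorem exists_unit_orth {F : Type*} [Field F] [Fintype F] (h2 : (2 : F) ≠ 0) {m : ℕ}
    (hm : 2 ≤ m) (G : Matrix (Fin m ⊕ Fin m) (Fin m ⊕ Fin m) F) (μ : F) (hμ : ¬ IsSquare μ)
    (hGG : G * G = μ • (1 : Matrix (Fin m ⊕ Fin m) (Fin m ⊕ Fin m) F))
    (hG : ∀ v, QPlus m F (G *ᵥ v) = μ * QPlus m F v) :
    ∃ u : Fin m ⊕ Fin m → F, QPlus m F u = 1 ∧
      QuadraticMap.polar ⇑(QPlus m F) u (G *ᵥ u) = 0 := by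
  refine exists_unit_orth_of_univ h2 hm G μ hμ hGG hG ?_
  intro K _ _ h2K J hJJ hJQ hJ1 hJ2
  refine Cfsg.Agent.Lib.Helper8.GGUNIV.univ_eigen h2K (QPlus m K)
    Cfsg.Agent.Lib.Helper54.polarSep_plus ?_ J hJJ hJQ hJ1 hJ2
  rw [Fintype.card_sum, Fintype.card_fin]
  omega

end Cfsg.Agent.Lib.Helper30.GGQEXT
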