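import Mathlib
import Cfsg.Prelude.Def_LieTypeDatum

/-!
S2703 piece GT-EVEN (poster helper53): the dot form on `F^{2m}` is isometric to the plus form when
`m` is even, given `α² + β² = -1`.
-/

set_option autoImplicit false

namespace Cfsg.Agent.Lib.Helper30.GTEVEN

/-- the dot product is invariant under reindexing -/
theorem dot_funCongrLeft {F : Type*} [Field F] {ι κ : Type*} [Fintype ι] [Fintype κ]
    (τ : ι ≃ κ) (w : κ → F) :
    (LinearEquiv.funCongrLeft F F τ w) ⬝ᵥ (LinearEquiv.funCongrLeft F F τ w) = w ⬝ᵥ w := by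
  simp only [dotProduct, LinearEquiv.funCongrLeft_apply, LinearMap.funLeft_apply]
  exact Equiv.sum_comp τ (fun b => w b * w b)

/-- the pointwise identity for one `4`-dimensional block -/
theorem block_id {F : Type*} [Field F] (h2 : (2 : F) ≠ 0) (α β : F) (hαβ : α ^ 2 + β ^ 2 = -1)
    (u1 u2 w1 w2 : F) :
    (u1 + w1 / 4) * (u1 + w1 / 4) + (u2 + w2 / 4) * (u2 + w2 / 4) +
      (α * u1 - α * w1 / 4 - β * u2 + β * w2 / 4) * (α * u1 - α * w1 / 4 - β * u2 + β * w2 / 4) +
      (β * u1 - β * w1 / 4 + α * u2 - α * w2 / 4) * (β * u1 - β * w1 / 4 + α * u2 - α * w2 / 4) =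
      u1 * w1 + u2 * w2 := by
  have h4 : (4 : F) ≠ 0 := by
    have : (4 : F) = 2 * 2 := by norm_num
    rw [this]; exact mul_ne_zero h2 h2
  field_simp
  linear_combination ((4 * u1 - w1) ^ 2 + (4 * u2 - w2) ^ 2) * hαβ

/-- the block automorphism of `F^{4k}` -/
noncomputable def evL {F : Type*} [Field F] (k : ℕ) (α β : F) (h2 : (2 : F) ≠ 0)
    (hαβ : α ^ 2 + β ^ 2 = -1) :
    ((Fin k ⊕ Fin k) ⊕ (Fin k ⊕ Fin k) → F) ≃ₗ[F] ((Fin k ⊕ Fin k) ⊕ (Fin k ⊕ Fin k) → F) where
  toFun v := Sum.elim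
    (Sum.elim (fun a => v (.inl (.inl a)) + v (.inr (.inl a)) / 4)
      (fun a => v (.inl (.inr a)) + v (.inr (.inr a)) / 4))
    (Sum.elim (fun a => α * v (.inl (.inl a)) - α * v (.inr (.inl a)) / 4
        - β * v (.inl (.inr a)) + β * v (.inr (.inr a)) / 4)
      (fun a => β * v (.inl (.inl a)) - β * v (.inr (.inl a)) / 4
        + α * v (.inl (.inr a)) - α * v (.inr (.inr a)) / 4))
  map_add' v w := by
    ext ((a | a) | (a | a))
    · simp only [Sum.elim_inl, Pi.add_apply]; ring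
    · simp only [Sum.elim_inl, Sum.elim_inr, Pi.add_apply]; ring
    · simp only [Sum.elim_inl, Sum.elim_inr, Pi.add_apply]; ring
    · simp only [Sum.elim_inr, Pi.add_apply]; ring
  map_smul' c v := by
    ext ((a | a) | (a | a))
    · simp only [Sum.elim_inl, Pi.smul_apply, smul_eq_mul, RingHom.id_apply]; ring
    · simp only [Sum.elim_inl, Sum.elim_inr, Pi.smul_apply, smul_eq_mul, RingHom.id_apply]; ring
    · simp only [Sum.elim_inl, Sum.elim_inr, Pi.smul_apply, smul_eq_mul, RingHom.id_apply]; ring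
    · simp only [Sum.elim_inr, Pi.smul_apply, smul_eq_mul, RingHom.id_apply]; ring
  invFun x := Sum.elim
    (Sum.elim (fun a => (x (.inl (.inl a)) - α * x (.inr (.inl a)) - β * x (.inr (.inr a))) / 2)
      (fun a => (x (.inl (.inr a)) + β * x (.inr (.inl a)) - α * x (.inr (.inr a))) / 2))
    (Sum.elim (fun a => 2 * (x (.inl (.inl a)) + α * x (.inr (.inl a)) + β * x (.inr (.inr a))))
      (fun a => 2 * (x (.inl (.inr a)) - β * x (.inr (.inl a)) + α * x (.inr (.inr a)))))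
  left_inv v := by
    have h4 : (4 : F) ≠ 0 := by
      have : (4 : F) = 2 * 2 := by norm_num
      rw [this]; exact mul_ne_zero h2 h2
    ext ((a | a) | (a | a))
    · simp only [Sum.elim_inl, Sum.elim_inr]; field_simp
      linear_combination (-(4 * v (.inl (.inl a)) - v (.inr (.inl a)))) * hαβ
    · simp only [Sum.elim_inl, Sum.elim_inr]; field_simp
      linear_combination (-(4 * v (.inl (.inr a)) - v (.inr (.inr a)))) * hαβ
    · simp only [Sum.elim_inl, Sum.elim_inr]; field_simp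
      linear_combination (2 * (4 * v (.inl (.inl a)) - v (.inr (.inl a)))) * hαβ
    · simp only [Sum.elim_inl, Sum.elim_inr]; field_simp
      linear_combination (2 * (4 * v (.inl (.inr a)) - v (.inr (.inr a)))) * hαβ
  right_inv x := by
    have h4 : (4 : F) ≠ 0 := by
      have : (4 : F) = 2 * 2 := by norm_num
      rw [this]; exact mul_ne_zero h2 h2
    ext ((a | a) | (a | a))
    · simp only [Sum.elim_inl, Sum.elim_inr]; field_simp; ring
    · simp only [Sum.elim_inl, Sum.elim_inr]; field_simp; ring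
    · simp only [Sum.elim_inl, Sum.elim_inr]; field_simp
      linear_combination (-8 * (x (.inr (.inl a)))) * hαβ
    · simp only [Sum.elim_inl, Sum.elim_inr]; field_simp
      linear_combination (-8 * (x (.inr (.inr a)))) * hαβ

/-- PIECE GT-EVEN -/
theorem dot_plus_even {F : Type*} [Field F] (h2 : (2 : F) ≠ 0) (m : ℕ) (hm : Even m) (α β : F)
    (hαβ : α ^ 2 + β ^ 2 = -1) :
    ∃ e : (Fin m ⊕ Fin m → F) ≃ₗ[F] (Fin (2 * m) → F),
      ∀ v, e v ⬝ᵥ e v = Cfsg.quadFormPlus m F v := by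
  obtain ⟨k, hk⟩ := hm
  have hc2 : Fintype.card (Fin m) = Fintype.card (Fin k ⊕ Fin k) := by
    simp only [Fintype.card_fin, Fintype.card_sum]; exact hk
  have hcard : Fintype.card (Fin (2 * m)) =
      Fintype.card ((Fin k ⊕ Fin k) ⊕ (Fin k ⊕ Fin k)) := by
    simp only [Fintype.card_fin, Fintype.card_sum]; omega
  obtain ⟨τ₂, hτ₂⟩ : ∃ τ₂ : Fin m ≃ Fin k ⊕ Fin k, τ₂ = Fintype.equivOfCardEq hc2 := ⟨_, rfl⟩
  refine ⟨(LinearEquiv.funCongrLeft F F (Equiv.sumCongr τ₂ τ₂).symm).trans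
    ((evL k α β h2 hαβ).trans
      (LinearEquiv.funCongrLeft F F (Fintype.equivOfCardEq hcard))), ?_⟩
  intro v
  rw [LinearEquiv.trans_apply, LinearEquiv.trans_apply, dot_funCongrLeft]
  have hplus : Cfsg.quadFormPlus m F v =
      ∑ a : Fin k, (v (.inl (τ₂.symm (.inl a))) * v (.inr (τ₂.symm (.inl a))) +
        v (.inl (τ₂.symm (.inr a))) * v (.inr (τ₂.symm (.inr a)))) := by
    unfold Cfsg.quadFormPlus
    rw [← Equiv.sum_comp τ₂.symm (fun i => v (.inl i) * v (.inr i)), Fintype.sum_sum_type,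
      Finset.sum_add_distrib]
  rw [hplus]
  simp only [dotProduct, Fintype.sum_sum_type]
  rw [← Finset.sum_add_distrib, ← Finset.sum_add_distrib, ← Finset.sum_add_distrib]
  apply Finset.sum_congr rfl
  intro a _
  have hb := block_id h2 α β hαβ (v (.inl (τ₂.symm (.inl a)))) (v (.inl (τ₂.symm (.inr a))))
    (v (.inr (τ₂.symm (.inl a)))) (v (.inr (τ₂.symm (.inr a))))
  have e1 : (evL k α β h2 hαβ) ((LinearEquiv.funCongrLeft F F (Equiv.sumCongr τ₂ τ₂).symm) v)
      (Sum.inl (Sum.inl a)) =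
      v (.inl (τ₂.symm (.inl a))) + v (.inr (τ₂.symm (.inl a))) / 4 := rfl
  have e2 : (evL k α β h2 hαβ) ((LinearEquiv.funCongrLeft F F (Equiv.sumCongr τ₂ τ₂).symm) v)
      (Sum.inl (Sum.inr a)) =
      v (.inl (τ₂.symm (.inr a))) + v (.inr (τ₂.symm (.inr a))) / 4 := rfl
  have e3 : (evL k α β h2 hαβ) ((LinearEquiv.funCongrLeft F F (Equiv.sumCongr τ₂ τ₂).symm) v)
      (Sum.inr (Sum.inl a)) =
      α * v (.inl (τ₂.symm (.inl a))) - α * v (.inr (τ₂.symm (.inl a))) / 4
        - β * v (.inl (τ₂.symm (.inr a))) + β * v (.inr (τ₂.symm (.inr a))) / 4 := rfl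
  have e4 : (evL k α β h2 hαβ) ((LinearEquiv.funCongrLeft F F (Equiv.sumCongr τ₂ τ₂).symm) v)
      (Sum.inr (Sum.inr a)) =
      β * v (.inl (τ₂.symm (.inl a))) - β * v (.inr (τ₂.symm (.inl a))) / 4
        + α * v (.inl (τ₂.symm (.inr a))) - α * v (.inr (τ₂.symm (.inr a))) / 4 := rfl
  rw [e1, e2, e3, e4]
  linear_combination hb

end Cfsg.Agent.Lib.Helper30.GTEVEN
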