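import Mathlib
import Cfsg.Prelude.Def_LieTypeDatum

/-!
S2703 piece GT-ODD (poster helper53): from `dot ≅ plus` on `F^{2k}` to `dot ≅ minus` (with the
binary form `x² + y²`) on `F^{2k+2}`.
-/

set_option autoImplicit false

namespace Cfsg.Agent.Lib.Helper30.GTODD

/-- the dot product is invariant under reindexing -/
theorem dot_funCongrLeft {F : Type*} [Field F] {ι κ : Type*} [Fintype ι] [Fintype κ]
    (τ : ι ≃ κ) (w : κ → F) :
    (LinearEquiv.funCongrLeft F F τ w) ⬝ᵥ (LinearEquiv.funCongrLeft F F τ w) = w ⬝ᵥ w := by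
  simp only [dotProduct, LinearEquiv.funCongrLeft_apply, LinearMap.funLeft_apply]
  exact Equiv.sum_comp τ (fun b => w b * w b)

/-- PIECE GT-ODD -/
theorem dot_minus_of_plus {F : Type*} [Field F] (k : ℕ)
    (h : ∃ e : (Fin k ⊕ Fin k → F) ≃ₗ[F] (Fin (2 * k) → F),
      ∀ v, e v ⬝ᵥ e v = Cfsg.quadFormPlus k F v) :
    ∃ e : ((Fin k ⊕ Fin k) ⊕ Fin 2 → F) ≃ₗ[F] (Fin (2 * (k + 1)) → F),
      ∀ v, e v ⬝ᵥ e v = Cfsg.quadFormMinus k F 0 1 v := by
  obtain ⟨e, he⟩ := h
  have hcard : Fintype.card (Fin (2 * (k + 1))) = Fintype.card (Fin (2 * k) ⊕ Fin 2) := by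
    simp only [Fintype.card_fin, Fintype.card_sum]; ring
  refine ⟨(LinearEquiv.sumArrowLequivProdArrow (Fin k ⊕ Fin k) (Fin 2) F F).trans
    ((LinearEquiv.prodCongr e (LinearEquiv.refl F (Fin 2 → F))).trans
      ((LinearEquiv.sumArrowLequivProdArrow (Fin (2 * k)) (Fin 2) F F).symm.trans
        (LinearEquiv.funCongrLeft F F (Fintype.equivOfCardEq hcard)))), ?_⟩
  intro v
  rw [LinearEquiv.trans_apply, LinearEquiv.trans_apply, LinearEquiv.trans_apply, dot_funCongrLeft]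
  have h1 := he (fun a => v (Sum.inl a))
  simp only [dotProduct] at h1
  simp only [dotProduct, Fintype.sum_sum_type, Fin.sum_univ_two, Cfsg.quadFormMinus,
    LinearEquiv.sumArrowLequivProdArrow_symm_apply_inl,
    LinearEquiv.sumArrowLequivProdArrow_symm_apply_inr, LinearEquiv.prodCongr_apply,
    LinearEquiv.refl_apply]
  have h2 : (LinearEquiv.sumArrowLequivProdArrow (Fin k ⊕ Fin k) (Fin 2) F F v).1 =
      fun a => v (Sum.inl a) := rfl
  have h3 : (LinearEquiv.sumArrowLequivProdArrow (Fin k ⊕ Fin k) (Fin 2) F F v).2 =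
      fun b => v (Sum.inr b) := rfl
  rw [h2, h3, h1]
  simp only [Cfsg.quadFormPlus]
  ring

end Cfsg.Agent.Lib.Helper30.GTODD
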