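import Mathlib
import Cfsg.Prelude.Def_LieTypeDatum

/-!
S2703 piece GT-SQ (poster helper53): the dot form on `F^{2m}` is isometric to the plus form when
`-1` is a square.
-/

set_option autoImplicit false

namespace Cfsg.Agent.Lib.Helper30.GTSQ

/-- the dot product is invariant under reindexing -/
theorem dot_funCongrLeft {F : Type*} [Field F] {ι κ : Type*} [Fintype ι] [Fintype κ]
    (τ : ι ≃ κ) (w : κ → F) :
    (LinearEquiv.funCongrLeft F F τ w) ⬝ᵥ (LinearEquiv.funCongrLeft F F τ w) = w ⬝ᵥ w := by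
  simp only [dotProduct, LinearEquiv.funCongrLeft_apply, LinearMap.funLeft_apply]
  exact Equiv.sum_comp τ (fun b => w b * w b)

/-- the pointwise identity -/
theorem sq_id {F : Type*} [Field F] (h2 : (2 : F) ≠ 0) (i : F) (hi : i ^ 2 = -1) (u w : F) :
    ((u + w) / 2) * ((u + w) / 2) + ((u - w) / (2 * i)) * ((u - w) / (2 * i)) = u * w := by
  have hi0 : i ≠ 0 := by
    rintro rfl
    have h0 : (0 : F) = -1 := by
      rw [← hi]; ring
    have h1 : (1 : F) = 0 := by linear_combination h0
    exact one_ne_zero h1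
  field_simp
  linear_combination (u - w) ^ 2 * hi

/-- the linear automorphism `(u, w) ↦ ((u + w) / 2, (u - w) / (2 i))` -/
noncomputable def sqL {F : Type*} [Field F] (m : ℕ) (i : F) (h2 : (2 : F) ≠ 0) (hi0 : i ≠ 0) :
    (Fin m ⊕ Fin m → F) ≃ₗ[F] (Fin m ⊕ Fin m → F) where
  toFun v := Sum.elim (fun j => (v (.inl j) + v (.inr j)) / 2)
    (fun j => (v (.inl j) - v (.inr j)) / (2 * i))
  map_add' v w := by
    ext (j | j)
    · simp only [Sum.elim_inl, Pi.add_apply]; ring
    · simp only [Sum.elim_inr, Pi.add_apply]; ring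
  map_smul' c v := by
    ext (j | j)
    · simp only [Sum.elim_inl, Pi.smul_apply, smul_eq_mul, RingHom.id_apply]; ring
    · simp only [Sum.elim_inr, Pi.smul_apply, smul_eq_mul, RingHom.id_apply]; ring
  invFun w := Sum.elim (fun j => w (.inl j) + i * w (.inr j))
    (fun j => w (.inl j) - i * w (.inr j))
  left_inv v := by
    ext (j | j)
    · simp only [Sum.elim_inl, Sum.elim_inr]; field_simp; ring
    · simp only [Sum.elim_inl, Sum.elim_inr]; field_simp; ring
  right_inv w := by
    ext (j | j)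
    · simp only [Sum.elim_inl, Sum.elim_inr]; field_simp; ring
    · simp only [Sum.elim_inl, Sum.elim_inr]; field_simp; ring

/-- PIECE GT-SQ -/
theorem dot_plus_sq {F : Type*} [Field F] (h2 : (2 : F) ≠ 0) (m : ℕ) (i : F) (hi : i ^ 2 = -1) :
    ∃ e : (Fin m ⊕ Fin m → F) ≃ₗ[F] (Fin (2 * m) → F),
      ∀ v, e v ⬝ᵥ e v = Cfsg.quadFormPlus m F v := by
  have hi0 : i ≠ 0 := by
    rintro rfl
    have h0 : (0 : F) = -1 := by
      rw [← hi]; ring
    have h1 : (1 : F) = 0 := by linear_combination h0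
    exact one_ne_zero h1
  have hcard : Fintype.card (Fin (2 * m)) = Fintype.card (Fin m ⊕ Fin m) := by
    simp [two_mul]
  refine ⟨(sqL m i h2 hi0).trans (LinearEquiv.funCongrLeft F F (Fintype.equivOfCardEq hcard)), ?_⟩
  intro v
  rw [LinearEquiv.trans_apply, dot_funCongrLeft]
  simp only [dotProduct, Fintype.sum_sum_type, Cfsg.quadFormPlus]
  rw [← Finset.sum_add_distrib]
  apply Finset.sum_congr rfl
  intro j _
  exact sq_id h2 i hi (v (.inl j)) (v (.inr j))

end Cfsg.Agent.Lib.Helper30.GTSQ
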