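import Mathlib
import Cfsg.Agent.S2581
import Cfsg.Agent.Lib.Helper51.JType

/-!
# S2646 project (helper51), piece GUC-GLCENT

The centraliser in `GL_n(K)` of a matrix conjugate to the Jordan matrix of type `d` is in bijection
with the invertible matrices commuting with the nilpotent part `NN K d`.
-/

set_option autoImplicit false

namespace Cfsg.Agent.Lib.Helper30.GUCGLCENT

open Matrix

theorem jordan_eq {K : Type*} [Field K] {t : ℕ} (d : Fin t → ℕ) :
    Cfsg.jordanTypeMatrix d K = Cfsg.Agent.S2581.NN K d + 1 := by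
  have h := Cfsg.Agent.Lib.Helper51.JType.jordanType_sub_one (F := K) d
  unfold Cfsg.Agent.S2581.NN
  rw [← h]
  abel

theorem gl_cent_count {K : Type*} [Field K] [Fintype K] {n t : ℕ} (d : Fin t → ℕ)
    (e : ((k : Fin t) × Fin (d k)) ≃ Fin n) (U : GL (Fin n) K)
    (hu : IsConj (Matrix.reindex e e (Cfsg.jordanTypeMatrix d K))
      (U : Matrix (Fin n) (Fin n) K)) :
    Nat.card {g : GL (Fin n) K // (g : Matrix (Fin n) (Fin n) K) *
        (U : Matrix (Fin n) (Fin n) K) = (U : Matrix (Fin n) (Fin n) K) *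
        (g : Matrix (Fin n) (Fin n) K)} =
    Nat.card {X : Matrix ((k : Fin t) × Fin (d k)) ((k : Fin t) × Fin (d k)) K //
        X * Cfsg.Agent.S2581.NN K d = Cfsg.Agent.S2581.NN K d * X ∧ X.det ≠ 0} := by
  classical
  obtain ⟨c, hc⟩ := hu
  obtain ⟨C, Ci, h1, h2⟩ := c
  have hcA : C * (Cfsg.jordanTypeMatrix d K).submatrix e.symm e.symm
      = (U : Matrix (Fin n) (Fin n) K) * C := by
    have := hc.eq
    simpa [Matrix.reindex_apply] using this
  obtain ⟨A, hA⟩ : ∃ A : Matrix (Fin n) (Fin n) K,
      A = (Cfsg.jordanTypeMatrix d K).submatrix e.symm e.symm := ⟨_, rfl⟩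
  rw [← hA] at hcA
  have hJA : Cfsg.jordanTypeMatrix d K = A.submatrix e e := by
    rw [hA, Matrix.submatrix_submatrix]
    simp
  have hAc : A * Ci = Ci * (U : Matrix (Fin n) (Fin n) K) := by
    calc A * Ci = Ci * C * A * Ci := by rw [h2, Matrix.one_mul]
      _ = Ci * (C * A) * Ci := by rw [Matrix.mul_assoc Ci C A]
      _ = Ci * ((U : Matrix (Fin n) (Fin n) K) * C) * Ci := by rw [hcA]
      _ = Ci * (U : Matrix (Fin n) (Fin n) K) * (C * Ci) := by simp only [Matrix.mul_assoc]
      _ = Ci * (U : Matrix (Fin n) (Fin n) K) := by rw [h1, Matrix.mul_one]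
  have hdetC : C.det * Ci.det = 1 := by rw [← Matrix.det_mul, h1, Matrix.det_one]
  have hN : ∀ X : Matrix ((k : Fin t) × Fin (d k)) ((k : Fin t) × Fin (d k)) K,
      X * Cfsg.Agent.S2581.NN K d = Cfsg.Agent.S2581.NN K d * X ↔
      X * Cfsg.jordanTypeMatrix d K = Cfsg.jordanTypeMatrix d K * X := by
    intro X
    rw [jordan_eq, Matrix.mul_add, Matrix.add_mul, Matrix.mul_one, Matrix.one_mul]
    constructor
    · intro h; rw [h]
    · intro h; exact add_right_cancel h
  apply Nat.card_congr
  refine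
    { toFun := fun g => ⟨(Ci * (g.1 : Matrix (Fin n) (Fin n) K) * C).submatrix e e, ?_, ?_⟩
      invFun := fun X => ⟨Matrix.GeneralLinearGroup.mkOfDetNeZero
        (C * X.1.submatrix e.symm e.symm * Ci) ?_, ?_⟩
      left_inv := ?_
      right_inv := ?_ }
  · -- commutes with NN
    rw [hN, hJA, Matrix.submatrix_mul_equiv, Matrix.submatrix_mul_equiv]
    congr 1
    have hg := g.2
    calc Ci * (g.1 : Matrix (Fin n) (Fin n) K) * C * A
        = Ci * (g.1 : Matrix (Fin n) (Fin n) K) * (C * A) := by simp only [Matrix.mul_assoc]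
      _ = Ci * ((g.1 : Matrix (Fin n) (Fin n) K) * (U : Matrix (Fin n) (Fin n) K)) * C := by
          rw [hcA]; simp only [Matrix.mul_assoc]
      _ = Ci * (U : Matrix (Fin n) (Fin n) K) * (g.1 : Matrix (Fin n) (Fin n) K) * C := by
          rw [hg]; simp only [Matrix.mul_assoc]
      _ = A * (Ci * (g.1 : Matrix (Fin n) (Fin n) K) * C) := by
          rw [← hAc]; simp only [Matrix.mul_assoc]
  · -- det ≠ 0
    rw [Matrix.det_submatrix_equiv_self, Matrix.det_mul, Matrix.det_mul]
    have hgdet : (g.1 : Matrix (Fin n) (Fin n) K).det ≠ 0 := by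
      have := (Matrix.isUnit_iff_isUnit_det _).mp g.1.isUnit
      exact this.ne_zero
    have hCi : Ci.det ≠ 0 := by
      intro h; rw [h, mul_zero] at hdetC; exact zero_ne_one hdetC
    have hCd : C.det ≠ 0 := by
      intro h; rw [h, zero_mul] at hdetC; exact zero_ne_one hdetC
    exact mul_ne_zero (mul_ne_zero hCi hgdet) hCd
  · -- det ≠ 0 for the inverse map
    rw [Matrix.det_mul, Matrix.det_mul, Matrix.det_submatrix_equiv_self]
    have hCi : Ci.det ≠ 0 := by
      intro h; rw [h, mul_zero] at hdetC; exact zero_ne_one hdetC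
    have hCd : C.det ≠ 0 := by
      intro h; rw [h, zero_mul] at hdetC; exact zero_ne_one hdetC
    exact mul_ne_zero (mul_ne_zero hCd X.2.2) hCi
  · -- the inverse map lands in the centraliser
    show C * X.1.submatrix e.symm e.symm * Ci * (U : Matrix (Fin n) (Fin n) K)
      = (U : Matrix (Fin n) (Fin n) K) * (C * X.1.submatrix e.symm e.symm * Ci)
    have hX := (hN X.1).mp X.2.1
    have hXA : X.1.submatrix e.symm e.symm * A = A * X.1.submatrix e.symm e.symm := by
      rw [hA, Matrix.submatrix_mul_equiv, Matrix.submatrix_mul_equiv, hX]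
    calc C * X.1.submatrix e.symm e.symm * Ci * (U : Matrix (Fin n) (Fin n) K)
        = C * X.1.submatrix e.symm e.symm * (Ci * (U : Matrix (Fin n) (Fin n) K)) := by
          simp only [Matrix.mul_assoc]
      _ = C * (X.1.submatrix e.symm e.symm * A) * Ci := by
          rw [← hAc]; simp only [Matrix.mul_assoc]
      _ = C * A * X.1.submatrix e.symm e.symm * Ci := by
          rw [hXA]; simp only [Matrix.mul_assoc]
      _ = (U : Matrix (Fin n) (Fin n) K) * (C * X.1.submatrix e.symm e.symm * Ci) := by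
          rw [hcA]; simp only [Matrix.mul_assoc]
  · -- left inverse
    intro g
    apply Subtype.ext
    apply Units.ext
    show C * ((Ci * (g.1 : Matrix (Fin n) (Fin n) K) * C).submatrix e e).submatrix e.symm e.symm
      * Ci = (g.1 : Matrix (Fin n) (Fin n) K)
    rw [Matrix.submatrix_submatrix]
    have : (Ci * (g.1 : Matrix (Fin n) (Fin n) K) * C).submatrix (e ∘ e.symm) (e ∘ e.symm)
        = Ci * (g.1 : Matrix (Fin n) (Fin n) K) * C := by simp
    rw [this]
    calc C * (Ci * (g.1 : Matrix (Fin n) (Fin n) K) * C) * Ci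
        = (C * Ci) * (g.1 : Matrix (Fin n) (Fin n) K) * (C * Ci) := by
          simp only [Matrix.mul_assoc]
      _ = (g.1 : Matrix (Fin n) (Fin n) K) := by rw [h1, Matrix.one_mul, Matrix.mul_one]
  · -- right inverse
    intro X
    apply Subtype.ext
    show (Ci * (C * X.1.submatrix e.symm e.symm * Ci) * C).submatrix e e = X.1
    have : Ci * (C * X.1.submatrix e.symm e.symm * Ci) * C = X.1.submatrix e.symm e.symm := by
      calc Ci * (C * X.1.submatrix e.symm e.symm * Ci) * C
          = (Ci * C) * X.1.submatrix e.symm e.symm * (Ci * C) := by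
            simp only [Matrix.mul_assoc]
        _ = X.1.submatrix e.symm e.symm := by rw [h2, Matrix.one_mul, Matrix.mul_one]
    rw [this, Matrix.submatrix_submatrix]
    simp

end Cfsg.Agent.Lib.Helper30.GUCGLCENT
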