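import Mathlib
import Cfsg.Agent.Lib.Helper78.JQDefs

/-!
# Project JQ (S2945, helper78), piece LABA (helper30)

Two elements of a 3-group (modulo `C_X(U)`) whose commutator four-groups `W₁ ≠ W₂` on the
elementary abelian normal 2-subgroup `U` are acted on fixed-point-freely: `W₁ ⊓ W₂ = ⊥`.

Proof: if `1 ≠ a ∈ W₁ ⊓ W₂`, put `b = x₁ a x₁⁻¹`, `c = x₂ a x₂⁻¹`; then `W₁ = {1, a, b, ab}`,
`W₂ = {1, a, c, ac}` and `x₁`, `x₂` act on `⟨a, b, c⟩` by explicit matrices depending on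
`w = c⁻¹ (x₁ c x₁⁻¹) ∈ W₁` and `w' = b⁻¹ (x₂ b x₂⁻¹) ∈ W₂`.  In each of the 16 cases one of the
elements `x₁ x₂`, `x₁ x₁ x₂` of `N` has an orbit of length 2 or 7 on `⟨a, b, c⟩`, which is
impossible for an element acting on `U` with order a power of 3.
-/

set_option autoImplicit false

namespace Cfsg.Agent.Lib.Helper30.JQ

open Cfsg.Agent.Lib.Helper78.JQ Cfsg.Agent.Lib.Helper78.Jc

universe u

private theorem laba_iter {X : Type u} [Group X] (n : X) (k : ℕ) :
    ∀ v : X, (fun v => n * v * n⁻¹)^[k] v = n ^ k * v * (n ^ k)⁻¹ := by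
  induction k with
  | zero => intro v; simp
  | succ k ih =>
    intro v
    rw [Function.iterate_succ_apply, ih, pow_succ]
    group

private theorem laba_per {X : Type u} [Group X] (U : Subgroup X) (n m : X) (hm : m ∈ U)
    (hn : ∃ j : ℕ, ∀ u ∈ U, n ^ (3 ^ j) * u = u * n ^ (3 ^ j)) (k : ℕ) (hk : Nat.Coprime 3 k)
    (hper : (fun v => n * v * n⁻¹)^[k] m = m) : n * m * n⁻¹ = m := by
  obtain ⟨j, hj⟩ := hn
  have h1 : Function.IsPeriodicPt (fun v => n * v * n⁻¹) (3 ^ j) m := by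
    show (fun v => n * v * n⁻¹)^[3 ^ j] m = m
    rw [laba_iter, hj m hm, mul_inv_cancel_right]
  have h2 : Function.IsPeriodicPt (fun v => n * v * n⁻¹) k m := hper
  have h3 := h1.gcd h2
  have h4 : Nat.gcd (3 ^ j) k = 1 := Nat.Coprime.pow_left j hk
  rw [h4] at h3
  exact h3

private theorem laba_four {X : Type u} [Group X] [Finite X] (W : Subgroup X)
    (hc : Nat.card ↥W = 4) (a b : X) (ha : a ∈ W) (hb : b ∈ W) (ha1 : a ≠ 1) (hb1 : b ≠ 1)
    (hab : a ≠ b) (haa : a * a = 1) : ∀ v ∈ W, v = 1 ∨ v = a ∨ v = b ∨ v = a * b := by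
  classical
  haveI : Fintype ↥W := Fintype.ofFinite _
  intro v hv
  by_contra hcon
  simp only [not_or] at hcon
  obtain ⟨h1, h2, h3, h4⟩ := hcon
  have e1 : (1 : X) ≠ a := fun h => ha1 h.symm
  have e2 : (1 : X) ≠ b := fun h => hb1 h.symm
  have e3 : (1 : X) ≠ a * b := by
    intro h
    apply hab
    have h5 : a * b = a * a := by rw [← h, haa]
    exact (mul_left_cancel h5).symm
  have e4 : (1 : X) ≠ v := fun h => h1 h.symm
  have e5 : a ≠ a * b := by
    intro h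
    apply hb1
    have h5 : a * 1 = a * b := by rw [mul_one]; exact h
    exact (mul_left_cancel h5).symm
  have e6 : a ≠ v := fun h => h2 h.symm
  have e7 : b ≠ a * b := by
    intro h
    apply ha1
    have h5 : 1 * b = a * b := by rw [one_mul]; exact h
    exact (mul_right_cancel h5).symm
  have e8 : b ≠ v := fun h => h3 h.symm
  have e9 : a * b ≠ v := fun h => h4 h.symm
  let S : Finset ↥W :=
    {⟨1, one_mem _⟩, ⟨a, ha⟩, ⟨b, hb⟩, ⟨a * b, mul_mem ha hb⟩, ⟨v, hv⟩}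
  have hS : S.card = 5 := by
    rw [Finset.card_insert_of_notMem, Finset.card_insert_of_notMem,
      Finset.card_insert_of_notMem, Finset.card_insert_of_notMem, Finset.card_singleton]
    all_goals
      simp only [Finset.mem_insert, Finset.mem_singleton, Subtype.mk.injEq, not_or]
      first
        | exact e9
        | exact ⟨e7, e8⟩
        | exact ⟨hab, e5, e6⟩
        | exact ⟨e1, e2, e3, e4⟩
  have h6 := Finset.card_le_univ S
  rw [hS, ← Nat.card_eq_fintype_card, hc] at h6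
  omega

private theorem laba_side {X : Type u} [Group X] [Finite X] (U W : Subgroup X) (x : X)
    (hUc : ∀ a ∈ U, ∀ b ∈ U, a * b = b * a) (hU2 : ∀ a ∈ U, a * a = 1) (hW : W ≤ U)
    (hc : Nat.card ↥W = 4) (hcomm : ∀ v ∈ U, v⁻¹ * (x * v * x⁻¹) ∈ W)
    (hfp : ∀ w ∈ W, x * w * x⁻¹ = w → w = 1) (a : X) (ha : a ∈ W) (ha1 : a ≠ 1) :
    x * a * x⁻¹ ∈ W ∧ x * a * x⁻¹ ≠ 1 ∧ x * a * x⁻¹ ≠ a ∧
      x * (x * a * x⁻¹) * x⁻¹ = a * (x * a * x⁻¹) ∧
      ∀ v ∈ W, v = 1 ∨ v = a ∨ v = x * a * x⁻¹ ∨ v = a * (x * a * x⁻¹) := by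
  have hmem : ∀ v ∈ W, x * v * x⁻¹ ∈ W := by
    intro v hv
    have h1 := mul_mem hv (hcomm v (hW hv))
    rwa [mul_inv_cancel_left] at h1
  have hne1 : ∀ v : X, v ≠ 1 → x * v * x⁻¹ ≠ 1 := by
    intro v hv h
    exact hv (conj_eq_one_iff.mp h)
  obtain ⟨b, hb⟩ : ∃ b, b = x * a * x⁻¹ := ⟨_, rfl⟩
  rw [← hb]
  have hbW : b ∈ W := hb ▸ hmem a ha
  have hb1 : b ≠ 1 := hb ▸ hne1 a ha1
  have hba : b ≠ a := by
    intro h
    exact ha1 (hfp a ha (hb.symm.trans h))
  have henum := laba_four W hc a b ha hbW ha1 hb1 (Ne.symm hba) (hU2 a (hW ha))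
  refine ⟨hbW, hb1, hba, ?_, henum⟩
  have hb'W := hmem b hbW
  have hb'1 := hne1 b hb1
  have hb'b : x * b * x⁻¹ ≠ b := fun h => hb1 (hfp b hbW h)
  rcases henum _ hb'W with h | h | h | h
  · exact absurd h hb'1
  · exfalso
    have hfix : x * (a * b) * x⁻¹ = a * b := by
      have h7 : x * (a * b) * x⁻¹ = x * a * x⁻¹ * (x * b * x⁻¹) := by group
      rw [h7, ← hb, h, hUc b (hW hbW) a (hW ha)]
    have hab1 := hfp (a * b) (mul_mem ha hbW) hfix
    apply hba
    have h5 : a * b = a * a := by rw [hab1, hU2 a (hW ha)]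
    exact mul_left_cancel h5
  · exact absurd h hb'b
  · exact h

theorem laba : LabaStmt.{u} := by
  intro X _ _ U N W₁ W₂ x₁ x₂ hUn hUc hU2 hN hx₁ hx₂ hW₁ hW₂ hc₁ hc₂ hcomm₁ hcomm₂ hfp₁ hfp₂ hne
  by_contra hbot
  obtain ⟨a, ha, ha1⟩ : ∃ a ∈ W₁ ⊓ W₂, a ≠ 1 := by
    by_contra hcon
    apply hbot
    rw [Subgroup.eq_bot_iff_forall]
    intro v hv
    by_contra hv1
    exact hcon ⟨v, hv, hv1⟩
  have ha₁ : a ∈ W₁ := ha.1
  have ha₂ : a ∈ W₂ := ha.2
  have haU : a ∈ U := hW₁ ha₁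
  obtain ⟨hbW, hb1, hba_ne, hTb, hen₁⟩ :=
    laba_side U W₁ x₁ hUc hU2 hW₁ hc₁ hcomm₁ hfp₁ a ha₁ ha1
  obtain ⟨hcW, hc1, hca_ne, hTc, hen₂⟩ :=
    laba_side U W₂ x₂ hUc hU2 hW₂ hc₂ hcomm₂ hfp₂ a ha₂ ha1
  obtain ⟨b, hbdef⟩ : ∃ b, b = x₁ * a * x₁⁻¹ := ⟨_, rfl⟩
  obtain ⟨c, hcdef⟩ : ∃ c, c = x₂ * a * x₂⁻¹ := ⟨_, rfl⟩
  rw [← hbdef] at hbW hb1 hba_ne hTb hen₁
  rw [← hcdef] at hcW hc1 hca_ne hTc hen₂
  have hbU : b ∈ U := hW₁ hbW
  have hcU : c ∈ U := hW₂ hcW
  have hcW₁ : c ∉ W₁ := by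
    intro hcin
    apply hne
    have hle : W₂ ≤ W₁ := by
      intro v hv
      rcases hen₂ v hv with h | h | h | h
      · rw [h]; exact one_mem _
      · rw [h]; exact ha₁
      · rw [h]; exact hcin
      · rw [h]; exact mul_mem ha₁ hcin
    exact (Subgroup.eq_of_le_of_card_ge hle (by rw [hc₁, hc₂])).symm
  -- commutation and squares
  have hba : b * a = a * b := hUc b hbU a haU
  have hca : c * a = a * c := hUc c hcU a haU
  have hcb : c * b = b * c := hUc c hcU b hbU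
  have hba' : ∀ z : X, b * (a * z) = a * (b * z) := fun z => by
    rw [← mul_assoc, hba, mul_assoc]
  have hca' : ∀ z : X, c * (a * z) = a * (c * z) := fun z => by
    rw [← mul_assoc, hca, mul_assoc]
  have hcb' : ∀ z : X, c * (b * z) = b * (c * z) := fun z => by
    rw [← mul_assoc, hcb, mul_assoc]
  have haa : a * a = 1 := hU2 a haU
  have hbb : b * b = 1 := hU2 b hbU
  have hcc : c * c = 1 := hU2 c hcU
  have haa' : ∀ z : X, a * (a * z) = z := fun z => by rw [← mul_assoc, haa, one_mul]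
  have hbb' : ∀ z : X, b * (b * z) = z := fun z => by rw [← mul_assoc, hbb, one_mul]
  have hcc' : ∀ z : X, c * (c * z) = z := fun z => by rw [← mul_assoc, hcc, one_mul]
  -- the seven nonidentity elements
  have hnz1 : a ≠ 1 := ha1
  have hnz2 : b ≠ 1 := hb1
  have hnz3 : a * b ≠ 1 := by
    intro h
    apply hba_ne
    have h5 : a * b = a * a := by rw [h, haa]
    exact mul_left_cancel h5
  have hnz4 : c ≠ 1 := hc1
  have hnz5 : a * c ≠ 1 := by
    intro h
    apply hca_ne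
    have h5 : a * c = a * a := by rw [h, haa]
    exact mul_left_cancel h5
  have hnz6 : b * c ≠ 1 := by
    intro h
    apply hcW₁
    rw [eq_inv_of_mul_eq_one_right h]
    exact inv_mem hbW
  have hnz7 : a * (b * c) ≠ 1 := by
    intro h
    apply hcW₁
    rw [← mul_assoc] at h
    rw [eq_inv_of_mul_eq_one_right h]
    exact inv_mem (mul_mem ha₁ hbW)
  -- the two automorphisms
  obtain ⟨σ₁, hσ₁⟩ : ∃ σ : MulAut X, ∀ v, σ v = x₁ * v * x₁⁻¹ := ⟨MulAut.conj x₁, fun v => rfl⟩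
  obtain ⟨σ₂, hσ₂⟩ : ∃ σ : MulAut X, ∀ v, σ v = x₂ * v * x₂⁻¹ := ⟨MulAut.conj x₂, fun v => rfl⟩
  have h1a : σ₁ a = b := (hσ₁ a).trans hbdef.symm
  have h1b : σ₁ b = a * b := (hσ₁ b).trans hTb
  have h2a : σ₂ a = c := (hσ₂ a).trans hcdef.symm
  have h2c : σ₂ c = a * c := (hσ₂ c).trans hTc
  have h1c0 : σ₁ c = c * (c⁻¹ * (x₁ * c * x₁⁻¹)) := by rw [hσ₁, mul_inv_cancel_left]
  have h2b0 : σ₂ b = b * (b⁻¹ * (x₂ * b * x₂⁻¹)) := by rw [hσ₂, mul_inv_cancel_left]
  have hw := hen₁ _ (hcomm₁ c hcU)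
  have hw' := hen₂ _ (hcomm₂ b hbU)
  have hn12 : ∀ v, x₁ * x₂ * v * (x₁ * x₂)⁻¹ = σ₁ (σ₂ v) := by
    intro v
    simp only [hσ₁, hσ₂]
    group
  have hn112 : ∀ v, x₁ * x₁ * x₂ * v * (x₁ * x₁ * x₂)⁻¹ = σ₁ (σ₁ (σ₂ v)) := by
    intro v
    simp only [hσ₁, hσ₂]
    group
  have hN12 := hN (x₁ * x₂) (mul_mem hx₁ hx₂)
  have hN112 := hN (x₁ * x₁ * x₂) (mul_mem (mul_mem hx₁ hx₁) hx₂)
  have key12 : ∀ (k : ℕ), Nat.Coprime 3 k → ∀ m ∈ U,
      (fun v => σ₁ (σ₂ v))^[k] m = m → σ₁ (σ₂ m) = m := by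
    intro k hk m hm h
    have hfun : (fun v => x₁ * x₂ * v * (x₁ * x₂)⁻¹) = fun v => σ₁ (σ₂ v) := funext hn12
    have h8 := laba_per U (x₁ * x₂) m hm hN12 k hk (by rw [hfun]; exact h)
    rwa [hn12] at h8
  have key112 : ∀ (k : ℕ), Nat.Coprime 3 k → ∀ m ∈ U,
      (fun v => σ₁ (σ₁ (σ₂ v)))^[k] m = m → σ₁ (σ₁ (σ₂ m)) = m := by
    intro k hk m hm h
    have hfun : (fun v => x₁ * x₁ * x₂ * v * (x₁ * x₁ * x₂)⁻¹) = fun v => σ₁ (σ₁ (σ₂ v)) :=
      funext hn112
    have h8 := laba_per U (x₁ * x₁ * x₂) m hm hN112 k hk (by rw [hfun]; exact h)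
    rwa [hn112] at h8
  have key112_2 : ∀ m ∈ U, σ₁ (σ₁ (σ₂ (σ₁ (σ₁ (σ₂ (m)))))) = m → σ₁ (σ₁ (σ₂ (m))) = m :=
    fun m hm h => key112 2 (by norm_num) m hm h
  have key112_7 : ∀ m ∈ U, σ₁ (σ₁ (σ₂ (σ₁ (σ₁ (σ₂ (σ₁ (σ₁ (σ₂ (σ₁ (σ₁ (σ₂ (σ₁ (σ₁ (σ₂ (σ₁ (σ₁ (σ₂ (σ₁ (σ₁ (σ₂ (m))))))))))))))))))))) = m → σ₁ (σ₁ (σ₂ (m))) = m :=
    fun m hm h => key112 7 (by norm_num) m hm h
  have key12_2 : ∀ m ∈ U, σ₁ (σ₂ (σ₁ (σ₂ (m)))) = m → σ₁ (σ₂ (m)) = m :=
    fun m hm h => key12 2 (by norm_num) m hm h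
  have key12_7 : ∀ m ∈ U, σ₁ (σ₂ (σ₁ (σ₂ (σ₁ (σ₂ (σ₁ (σ₂ (σ₁ (σ₂ (σ₁ (σ₂ (σ₁ (σ₂ (m)))))))))))))) = m → σ₁ (σ₂ (m)) = m :=
    fun m hm h => key12 7 (by norm_num) m hm h
  rcases hw with hw | hw | hw | hw <;> rcases hw' with hw' | hw' | hw' | hw'
  · -- w = 1, w' = 1: word 112, point a * b, period 2
    rw [hw] at h1c0
    rw [hw'] at h2b0
    have hper : σ₁ (σ₁ (σ₂ (a * b))) = a * b := by
      refine key112_2 (a * b) (mul_mem haU hbU) ?_
      simp only [map_mul, map_one, mul_assoc, mul_one, one_mul, h1a, h1b, h1c0, h2a, h2c, h2b0, hba, hca, hcb, hba', hca', hcb', haa, hbb, hcc, haa', hbb', hcc']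
    have hd := congrArg (fun z => a * b * z) hper
    simp only [map_mul, map_one, mul_assoc, mul_one, one_mul, h1a, h1b, h1c0, h2a, h2c, h2b0, hba, hca, hcb, hba', hca', hcb', haa, hbb, hcc, haa', hbb', hcc'] at hd
    exact hnz6 hd
  · -- w = 1, w' = a: word 12, point a, period 7
    rw [hw] at h1c0
    rw [hw'] at h2b0
    have hper : σ₁ (σ₂ (a)) = a := by
      refine key12_7 (a) haU ?_
      simp only [map_mul, map_one, mul_assoc, mul_one, one_mul, h1a, h1b, h1c0, h2a, h2c, h2b0, hba, hca, hcb, hba', hca', hcb', haa, hbb, hcc, haa', hbb', hcc']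
    have hd := congrArg (fun z => a * z) hper
    simp only [map_mul, map_one, mul_assoc, mul_one, one_mul, h1a, h1b, h1c0, h2a, h2c, h2b0, hba, hca, hcb, hba', hca', hcb', haa, hbb, hcc, haa', hbb', hcc'] at hd
    exact hnz5 hd
  · -- w = 1, w' = c: word 112, point a, period 7
    rw [hw] at h1c0
    rw [hw'] at h2b0
    have hper : σ₁ (σ₁ (σ₂ (a))) = a := by
      refine key112_7 (a) haU ?_
      simp only [map_mul, map_one, mul_assoc, mul_one, one_mul, h1a, h1b, h1c0, h2a, h2c, h2b0, hba, hca, hcb, hba', hca', hcb', haa, hbb, hcc, haa', hbb', hcc']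
    have hd := congrArg (fun z => a * z) hper
    simp only [map_mul, map_one, mul_assoc, mul_one, one_mul, h1a, h1b, h1c0, h2a, h2c, h2b0, hba, hca, hcb, hba', hca', hcb', haa, hbb, hcc, haa', hbb', hcc'] at hd
    exact hnz5 hd
  · -- w = 1, w' = a * c: word 12, point b, period 2
    rw [hw] at h1c0
    rw [hw'] at h2b0
    have hper : σ₁ (σ₂ (b)) = b := by
      refine key12_2 (b) hbU ?_
      simp only [map_mul, map_one, mul_assoc, mul_one, one_mul, h1a, h1b, h1c0, h2a, h2c, h2b0, hba, hca, hcb, hba', hca', hcb', haa, hbb, hcc, haa', hbb', hcc']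
    have hd := congrArg (fun z => b * z) hper
    simp only [map_mul, map_one, mul_assoc, mul_one, one_mul, h1a, h1b, h1c0, h2a, h2c, h2b0, hba, hca, hcb, hba', hca', hcb', haa, hbb, hcc, haa', hbb', hcc'] at hd
    exact hnz7 hd
  · -- w = a, w' = 1: word 12, point a, period 7
    rw [hw] at h1c0
    rw [hw'] at h2b0
    have hper : σ₁ (σ₂ (a)) = a := by
      refine key12_7 (a) haU ?_
      simp only [map_mul, map_one, mul_assoc, mul_one, one_mul, h1a, h1b, h1c0, h2a, h2c, h2b0, hba, hca, hcb, hba', hca', hcb', haa, hbb, hcc, haa', hbb', hcc']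
    have hd := congrArg (fun z => a * z) hper
    simp only [map_mul, map_one, mul_assoc, mul_one, one_mul, h1a, h1b, h1c0, h2a, h2c, h2b0, hba, hca, hcb, hba', hca', hcb', haa, hbb, hcc, haa', hbb', hcc'] at hd
    exact hnz4 hd
  · -- w = a, w' = a: word 112, point a, period 2
    rw [hw] at h1c0
    rw [hw'] at h2b0
    have hper : σ₁ (σ₁ (σ₂ (a))) = a := by
      refine key112_2 (a) haU ?_
      simp only [map_mul, map_one, mul_assoc, mul_one, one_mul, h1a, h1b, h1c0, h2a, h2c, h2b0, hba, hca, hcb, hba', hca', hcb', haa, hbb, hcc, haa', hbb', hcc']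
    have hd := congrArg (fun z => a * z) hper
    simp only [map_mul, map_one, mul_assoc, mul_one, one_mul, h1a, h1b, h1c0, h2a, h2c, h2b0, hba, hca, hcb, hba', hca', hcb', haa, hbb, hcc, haa', hbb', hcc'] at hd
    exact hnz6 hd
  · -- w = a, w' = c: word 12, point c, period 2
    rw [hw] at h1c0
    rw [hw'] at h2b0
    have hper : σ₁ (σ₂ (c)) = c := by
      refine key12_2 (c) hcU ?_
      simp only [map_mul, map_one, mul_assoc, mul_one, one_mul, h1a, h1b, h1c0, h2a, h2c, h2b0, hba, hca, hcb, hba', hca', hcb', haa, hbb, hcc, haa', hbb', hcc']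
    have hd := congrArg (fun z => c * z) hper
    simp only [map_mul, map_one, mul_assoc, mul_one, one_mul, h1a, h1b, h1c0, h2a, h2c, h2b0, hba, hca, hcb, hba', hca', hcb', haa, hbb, hcc, haa', hbb', hcc'] at hd
    exact hnz3 hd
  · -- w = a, w' = a * c: word 12, point a, period 7
    rw [hw] at h1c0
    rw [hw'] at h2b0
    have hper : σ₁ (σ₂ (a)) = a := by
      refine key12_7 (a) haU ?_
      simp only [map_mul, map_one, mul_assoc, mul_one, one_mul, h1a, h1b, h1c0, h2a, h2c, h2b0, hba, hca, hcb, hba', hca', hcb', haa, hbb, hcc, haa', hbb', hcc']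
    have hd := congrArg (fun z => a * z) hper
    simp only [map_mul, map_one, mul_assoc, mul_one, one_mul, h1a, h1b, h1c0, h2a, h2c, h2b0, hba, hca, hcb, hba', hca', hcb', haa, hbb, hcc, haa', hbb', hcc'] at hd
    exact hnz4 hd
  · -- w = b, w' = 1: word 112, point a, period 7
    rw [hw] at h1c0
    rw [hw'] at h2b0
    have hper : σ₁ (σ₁ (σ₂ (a))) = a := by
      refine key112_7 (a) haU ?_
      simp only [map_mul, map_one, mul_assoc, mul_one, one_mul, h1a, h1b, h1c0, h2a, h2c, h2b0, hba, hca, hcb, hba', hca', hcb', haa, hbb, hcc, haa', hbb', hcc']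
    have hd := congrArg (fun z => a * z) hper
    simp only [map_mul, map_one, mul_assoc, mul_one, one_mul, h1a, h1b, h1c0, h2a, h2c, h2b0, hba, hca, hcb, hba', hca', hcb', haa, hbb, hcc, haa', hbb', hcc'] at hd
    exact hnz4 hd
  · -- w = b, w' = a: word 12, point a * b, period 2
    rw [hw] at h1c0
    rw [hw'] at h2b0
    have hper : σ₁ (σ₂ (a * b)) = a * b := by
      refine key12_2 (a * b) (mul_mem haU hbU) ?_
      simp only [map_mul, map_one, mul_assoc, mul_one, one_mul, h1a, h1b, h1c0, h2a, h2c, h2b0, hba, hca, hcb, hba', hca', hcb', haa, hbb, hcc, haa', hbb', hcc']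
    have hd := congrArg (fun z => a * b * z) hper
    simp only [map_mul, map_one, mul_assoc, mul_one, one_mul, h1a, h1b, h1c0, h2a, h2c, h2b0, hba, hca, hcb, hba', hca', hcb', haa, hbb, hcc, haa', hbb', hcc'] at hd
    exact hnz4 hd
  · -- w = b, w' = c: word 12, point a, period 2
    rw [hw] at h1c0
    rw [hw'] at h2b0
    have hper : σ₁ (σ₂ (a)) = a := by
      refine key12_2 (a) haU ?_
      simp only [map_mul, map_one, mul_assoc, mul_one, one_mul, h1a, h1b, h1c0, h2a, h2c, h2b0, hba, hca, hcb, hba', hca', hcb', haa, hbb, hcc, haa', hbb', hcc']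
    have hd := congrArg (fun z => a * z) hper
    simp only [map_mul, map_one, mul_assoc, mul_one, one_mul, h1a, h1b, h1c0, h2a, h2c, h2b0, hba, hca, hcb, hba', hca', hcb', haa, hbb, hcc, haa', hbb', hcc'] at hd
    exact hnz7 hd
  · -- w = b, w' = a * c: word 112, point a, period 7
    rw [hw] at h1c0
    rw [hw'] at h2b0
    have hper : σ₁ (σ₁ (σ₂ (a))) = a := by
      refine key112_7 (a) haU ?_
      simp only [map_mul, map_one, mul_assoc, mul_one, one_mul, h1a, h1b, h1c0, h2a, h2c, h2b0, hba, hca, hcb, hba', hca', hcb', haa, hbb, hcc, haa', hbb', hcc']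
    have hd := congrArg (fun z => a * z) hper
    simp only [map_mul, map_one, mul_assoc, mul_one, one_mul, h1a, h1b, h1c0, h2a, h2c, h2b0, hba, hca, hcb, hba', hca', hcb', haa, hbb, hcc, haa', hbb', hcc'] at hd
    exact hnz4 hd
  · -- w = a * b, w' = 1: word 12, point a, period 2
    rw [hw] at h1c0
    rw [hw'] at h2b0
    have hper : σ₁ (σ₂ (a)) = a := by
      refine key12_2 (a) haU ?_
      simp only [map_mul, map_one, mul_assoc, mul_one, one_mul, h1a, h1b, h1c0, h2a, h2c, h2b0, hba, hca, hcb, hba', hca', hcb', haa, hbb, hcc, haa', hbb', hcc']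
    have hd := congrArg (fun z => a * z) hper
    simp only [map_mul, map_one, mul_assoc, mul_one, one_mul, h1a, h1b, h1c0, h2a, h2c, h2b0, hba, hca, hcb, hba', hca', hcb', haa, hbb, hcc, haa', hbb', hcc'] at hd
    exact hnz6 hd
  · -- w = a * b, w' = a: word 12, point a, period 7
    rw [hw] at h1c0
    rw [hw'] at h2b0
    have hper : σ₁ (σ₂ (a)) = a := by
      refine key12_7 (a) haU ?_
      simp only [map_mul, map_one, mul_assoc, mul_one, one_mul, h1a, h1b, h1c0, h2a, h2c, h2b0, hba, hca, hcb, hba', hca', hcb', haa, hbb, hcc, haa', hbb', hcc']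
    have hd := congrArg (fun z => a * z) hper
    simp only [map_mul, map_one, mul_assoc, mul_one, one_mul, h1a, h1b, h1c0, h2a, h2c, h2b0, hba, hca, hcb, hba', hca', hcb', haa, hbb, hcc, haa', hbb', hcc'] at hd
    exact hnz6 hd
  · -- w = a * b, w' = c: word 112, point a, period 7
    rw [hw] at h1c0
    rw [hw'] at h2b0
    have hper : σ₁ (σ₁ (σ₂ (a))) = a := by
      refine key112_7 (a) haU ?_
      simp only [map_mul, map_one, mul_assoc, mul_one, one_mul, h1a, h1b, h1c0, h2a, h2c, h2b0, hba, hca, hcb, hba', hca', hcb', haa, hbb, hcc, haa', hbb', hcc']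
    have hd := congrArg (fun z => a * z) hper
    simp only [map_mul, map_one, mul_assoc, mul_one, one_mul, h1a, h1b, h1c0, h2a, h2c, h2b0, hba, hca, hcb, hba', hca', hcb', haa, hbb, hcc, haa', hbb', hcc'] at hd
    exact hnz7 hd
  · -- w = a * b, w' = a * c: word 112, point a, period 2
    rw [hw] at h1c0
    rw [hw'] at h2b0
    have hper : σ₁ (σ₁ (σ₂ (a))) = a := by
      refine key112_2 (a) haU ?_
      simp only [map_mul, map_one, mul_assoc, mul_one, one_mul, h1a, h1b, h1c0, h2a, h2c, h2b0, hba, hca, hcb, hba', hca', hcb', haa, hbb, hcc, haa', hbb', hcc']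
    have hd := congrArg (fun z => a * z) hper
    simp only [map_mul, map_one, mul_assoc, mul_one, one_mul, h1a, h1b, h1c0, h2a, h2c, h2b0, hba, hca, hcb, hba', hca', hcb', haa, hbb, hcc, haa', hbb', hcc'] at hd
    exact hnz7 hd

end Cfsg.Agent.Lib.Helper30.JQ
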