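import Mathlib
import Cfsg.Agent.Lib.Helper48.MulA

set_option autoImplicit false
open scoped commutatorElement

/-! # S2086 (helper48): the torus argument (helper30, for job pieces HC3 and HDT)

If `t` scales the additive family `X` by `c ≠ 1` and fixes the family `Y` elementwise, and the
`X a`, `Y b` commute, then all lifts of `X a` commute with all lifts of `Y b`. -/

namespace Cfsg.Agent.Lib.Helper48.Mul

open Cfsg.Agent.Lib.Helper48 Cfsg.Agent.Lib.Helper48.St Cfsg.Agent.Lib.Helper70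

theorem h30_torus_CL {Γ : Type*} [Group Γ] {G : Type*} [Group G] {K : Type*} [Field K]
    (σ : Γ →* G) (hs : Function.Surjective σ) (hc : σ.ker ≤ Subgroup.center Γ)
    (X Y : K → G) (hadd : ∀ a b, X a * X b = X (a + b))
    (hcomm : ∀ a b, Commute (X a) (Y b))
    (t : G) (c : K) (hc1 : c - 1 ≠ 0) (hX : ∀ a, t * X a * t⁻¹ = X (c * a))
    (hY : ∀ b, t * Y b * t⁻¹ = Y b) : ∀ a b, CL σ (X a) (Y b) := by
  intro a b
  obtain ⟨T, hT⟩ := hs t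
  obtain ⟨u, hu⟩ := hs (X (a / (c - 1)))
  obtain ⟨v, hv⟩ := hs (Y b)
  have hu' : σ (T * u * T⁻¹) = X (c * (a / (c - 1))) := by
    rw [map_mul, map_mul, map_inv, hT, hu, hX]
  have hv' : σ (T * v * T⁻¹) = Y b := by
    rw [map_mul, map_mul, map_inv, hT, hv, hY]
  have hcuv : Commute (σ u) (σ v) := by
    rw [hu, hv]
    exact hcomm _ _
  have h1 : ⁅T * u * T⁻¹, T * v * T⁻¹⁆ = ⁅u, v⁆ := comm_conj_of_central hc hcuv T
  have h2 : ⁅T * u * T⁻¹, v⁆ = ⁅T * u * T⁻¹, T * v * T⁻¹⁆ :=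
    lift_comm_eq hc rfl (hv.trans hv'.symm)
  have h3 : T * u * T⁻¹ = (T * u * T⁻¹ * u⁻¹) * u := by group
  have h4 : ⁅(T * u * T⁻¹ * u⁻¹) * u, v⁆ = ⁅u, v⁆ * ⁅T * u * T⁻¹ * u⁻¹, v⁆ :=
    comm_mul_left_of_central hc hcuv
  have h5 : ⁅T * u * T⁻¹ * u⁻¹, v⁆ = 1 := by
    have h6 : ⁅u, v⁆ = ⁅u, v⁆ * ⁅T * u * T⁻¹ * u⁻¹, v⁆ := by
      rw [← h4, ← h3, h2, h1]
    exact (mul_eq_left.mp h6.symm)
  have hw : σ (T * u * T⁻¹ * u⁻¹) = X a := by
    rw [map_mul, hu', map_inv, hu, mul_inv_eq_iff_eq_mul, hadd]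
    congr 1
    field_simp
    ring
  exact CL_of_exists hc ⟨T * u * T⁻¹ * u⁻¹, v, hw, hv, commutatorElement_eq_one_iff_commute.mp h5⟩

end Cfsg.Agent.Lib.Helper48.Mul
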