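import Mathlib
import Cfsg.Agent.Lib.Helper48.MulA
import Cfsg.Agent.Lib.Helper30.MulTorus

set_option autoImplicit false
open scoped commutatorElement

/-! # S2086 (helper48), piece HC3: same-column lifts commute (torus argument).  helper30, job 1338 -/

namespace Cfsg.Agent.Lib.Helper48.Mul

open Cfsg.Agent.Lib.Helper48 Cfsg.Agent.Lib.Helper48.St Cfsg.Agent.Lib.Helper70

section torus

variable {Γ : Type*} [Group Γ] {K : Type*} [Field K] {n : ℕ}

/-- piece HBC3 (2) -/
theorem hypC_torus (σ : Γ →* Matrix.SpecialLinearGroup (Fin n) K) (hs : Function.Surjective σ)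
    (hc : σ.ker ≤ Subgroup.center Γ) (s : K) (hs0 : s ≠ 0) (hs3 : s ^ 3 ≠ 1) : HypC σ slX := by
  intro i j l hij hil hjl
  have hs31 : s ^ 3 - 1 ≠ 0 := sub_ne_zero.mpr hs3
  refine h30_torus_CL σ hs hc (fun a => slX i l a) (fun b => slX j l b)
    (fun a b => slX_add hil a b) (fun a b => slX_commute hil hjl hil hjl.symm a b)
    (slDu hij (Units.mk0 s hs0) * slDu hil (Units.mk0 s hs0)) (s ^ 3) hs31 ?_ ?_
  · intro a
    have e1 : slDu hij (Units.mk0 s hs0) * slDu hil (Units.mk0 s hs0) * slX i l a *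
        (slDu hij (Units.mk0 s hs0) * slDu hil (Units.mk0 s hs0))⁻¹ =
        slDu hij (Units.mk0 s hs0) * (slDu hil (Units.mk0 s hs0) * slX i l a *
          (slDu hil (Units.mk0 s hs0))⁻¹) * (slDu hij (Units.mk0 s hs0))⁻¹ := by group
    show slDu hij (Units.mk0 s hs0) * slDu hil (Units.mk0 s hs0) * slX i l a *
        (slDu hij (Units.mk0 s hs0) * slDu hil (Units.mk0 s hs0))⁻¹ = slX i l (s ^ 3 * a)
    rw [e1, slDu_conj hil _ hil, slDu_conj hij _ hil]
    congr 1
    simp only [duFun, if_true, if_neg hil.symm, if_neg hjl.symm, Units.val_mk0, Units.val_one,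
      Units.val_inv_eq_inv_val]
    field_simp
  · intro b
    have e1 : slDu hij (Units.mk0 s hs0) * slDu hil (Units.mk0 s hs0) * slX j l b *
        (slDu hij (Units.mk0 s hs0) * slDu hil (Units.mk0 s hs0))⁻¹ =
        slDu hij (Units.mk0 s hs0) * (slDu hil (Units.mk0 s hs0) * slX j l b *
          (slDu hil (Units.mk0 s hs0))⁻¹) * (slDu hij (Units.mk0 s hs0))⁻¹ := by group
    show slDu hij (Units.mk0 s hs0) * slDu hil (Units.mk0 s hs0) * slX j l b *
        (slDu hij (Units.mk0 s hs0) * slDu hil (Units.mk0 s hs0))⁻¹ = slX j l b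
    rw [e1, slDu_conj hil _ hjl, slDu_conj hij _ hjl]
    congr 1
    simp only [duFun, if_true, if_neg hil.symm, if_neg hjl.symm, if_neg hij.symm, if_neg hjl,
      Units.val_mk0, Units.val_one, Units.val_inv_eq_inv_val]
    field_simp

end torus

end Cfsg.Agent.Lib.Helper48.Mul
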