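import Mathlib
import Cfsg.Agent.Lib.Helper48.MulA
import Cfsg.Agent.Lib.Helper30.MulTorus

set_option autoImplicit false
open scoped commutatorElement

/-! # S2086 (helper48), piece HDT: disjoint lifts commute (torus argument).  helper30, job 1339 -/

namespace Cfsg.Agent.Lib.Helper48.Mul

open Cfsg.Agent.Lib.Helper48 Cfsg.Agent.Lib.Helper48.St Cfsg.Agent.Lib.Helper70

section torus

variable {Γ : Type*} [Group Γ] {K : Type*} [Field K] {n : ℕ}

/-- piece HDT -/
theorem hypD_torus (σ : Γ →* Matrix.SpecialLinearGroup (Fin n) K) (hs : Function.Surjective σ)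
    (hc : σ.ker ≤ Subgroup.center Γ) (s : K) (hs0 : s ≠ 0) (hs2 : s ^ 2 ≠ 1) : HypD σ slX := by
  intro i j k l hij hik hil hjk hjl hkl
  have hs21 : s ^ 2 - 1 ≠ 0 := sub_ne_zero.mpr hs2
  refine h30_torus_CL σ hs hc (fun a => slX i j a) (fun b => slX k l b)
    (fun a b => slX_add hij a b) (fun a b => slX_commute hij hkl hil hjk a b)
    (slDu hij (Units.mk0 s hs0)) (s ^ 2) hs21 ?_ ?_
  · intro a
    show slDu hij (Units.mk0 s hs0) * slX i j a * (slDu hij (Units.mk0 s hs0))⁻¹ =
      slX i j (s ^ 2 * a)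
    rw [slDu_conj hij _ hij]
    congr 1
    simp only [duFun, if_true, if_neg hij.symm, Units.val_mk0, Units.val_inv_eq_inv_val]
    field_simp
  · intro b
    show slDu hij (Units.mk0 s hs0) * slX k l b * (slDu hij (Units.mk0 s hs0))⁻¹ = slX k l b
    rw [slDu_conj hij _ hkl]
    congr 1
    simp only [duFun, if_neg hik.symm, if_neg hjk.symm, if_neg hil.symm, if_neg hjl.symm,
      Units.val_one]
    field_simp

end torus

end Cfsg.Agent.Lib.Helper48.Mul
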