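import Cfsg.Agent.Lib.Helper90.Normal
import Cfsg.Agent.Lib.Helper88.GrpSat

/-!
# Foundation for S5121 (normal subsystems of a strictly p-constrained group)

`autStab E P hP` : the subgroup of the ambient group consisting of the elements `g` normalizing `P` whose
conjugation map on `P` is a map of the fusion system `E` (so `autStab E P` is the preimage of `Aut_E(P)` in
`N_G(P)`).
-/

set_option autoImplicit false

namespace Cfsg.Agent.Lib.Helper30

open Cfsg Cfsg.FusionSystem Cfsg.Agent.Lib.Helper90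

section

variable {G : Type*} [Group G] {T : Subgroup G}

theorem nsub_conj_img_eq {E : FusionSystem T} {P : Subgroup G} {g : G}
    (hg : g ∈ Subgroup.normalizer (P : Set G)) (hm : Mor E P (fun x => g * x * g⁻¹)) :
    img P (fun x => g * x * g⁻¹) = P := by
  ext y
  rw [hm.mem_img]
  constructor
  · rintro ⟨x, hx, rfl⟩
    exact conj_mem_of_mem_normalizer hg hx
  · intro hy
    refine ⟨g⁻¹ * y * g, ?_, by group⟩
    have h := conj_mem_of_mem_normalizer (Subgroup.inv_mem _ hg) hy
    rwa [inv_inv] at h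

/-- The elements `g` normalizing `P` whose conjugation on `P` is a map of `E`. -/
def autStab (E : FusionSystem T) (P : Subgroup G) (hP : P ≤ T) : Subgroup G where
  carrier := {g | g ∈ Subgroup.normalizer (P : Set G) ∧ Mor E P (fun x => g * x * g⁻¹)}
  one_mem' := ⟨Subgroup.one_mem _, (mor_id E hP).congr (fun x _ => by simp)⟩
  mul_mem' := by
    rintro a b ⟨ha, hma⟩ ⟨hb, hmb⟩
    refine ⟨Subgroup.mul_mem _ ha hb, ?_⟩
    have h := hmb.comp hma (fun x hx => conj_mem_of_mem_normalizer hb hx)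
    exact h.congr (fun x _ => by simp [mul_assoc])
  inv_mem' := by
    rintro a ⟨ha, hma⟩
    refine ⟨Subgroup.inv_mem _ ha, ?_⟩
    have h := hma.inv
    rw [nsub_conj_img_eq ha hma] at h
    refine h.congr (fun y hy => ?_)
    have hy' : a⁻¹ * y * a ∈ P := by
      have h2 := conj_mem_of_mem_normalizer (Subgroup.inv_mem _ ha) hy
      rwa [inv_inv] at h2
    have h3 := hma.invFn_apply hy'
    have h4 : a * (a⁻¹ * y * a) * a⁻¹ = y := by group
    rw [h4] at h3
    rw [h3, inv_inv]

theorem mem_autStab {E : FusionSystem T} {P : Subgroup G} {hP : P ≤ T} {g : G} :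
    g ∈ autStab E P hP ↔ g ∈ Subgroup.normalizer (P : Set G) ∧ Mor E P (fun x => g * x * g⁻¹) :=
  Iff.rfl

/-- Membership in `autStab` only depends on the conjugation action on `P`. -/
theorem autStab_congr {E : FusionSystem T} {P : Subgroup G} {hP : P ≤ T} {g g' : G}
    (hg : g ∈ autStab E P hP) (h : ∀ x ∈ P, g' * x * g'⁻¹ = g * x * g⁻¹) :
    g' ∈ autStab E P hP := by
  have h1 : g⁻¹ * g' ∈ Subgroup.centralizer (P : Set G) := by
    rw [Subgroup.mem_centralizer_iff]
    intro x hx
    have h2 := h x hx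
    calc x * (g⁻¹ * g') = g⁻¹ * (g * x * g⁻¹) * g' := by group
      _ = g⁻¹ * (g' * x * g'⁻¹) * g' := by rw [h2]
      _ = g⁻¹ * g' * x := by group
  have h3 : g' = g * (g⁻¹ * g') := by group
  refine ⟨?_, hg.2.congr (fun x hx => (h x hx).symm)⟩
  rw [h3]
  exact Subgroup.mul_mem _ hg.1 (Subgroup.centralizer_le_normalizer _ h1)

theorem centralizer_le_autStab (E : FusionSystem T) (P : Subgroup G) (hP : P ≤ T) :
    Subgroup.centralizer (P : Set G) ≤ autStab E P hP := by
  intro c hc
  refine autStab_congr (Subgroup.one_mem _) (fun x hx => ?_)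
  rw [Subgroup.mem_centralizer_iff] at hc
  have h := hc x hx
  calc c * x * c⁻¹ = (x * c) * c⁻¹ := by rw [h]
    _ = 1 * x * 1⁻¹ := by group

theorem le_autStab_top (E : FusionSystem T) : T ≤ autStab E T le_rfl := by
  intro t ht
  exact ⟨Subgroup.le_normalizer ht, mor_conj E le_rfl ht⟩

theorem inf_le_autStab (E : FusionSystem T) (P : Subgroup G) (hP : P ≤ T) :
    T ⊓ Subgroup.normalizer (P : Set G) ≤ autStab E P hP := by
  intro t ht
  exact ⟨ht.2, mor_conj E hP ht.1⟩

/-- An element of `autStab E T` induces an element of `Aut_E(T)`. -/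
theorem exists_aut_of_mem_autStab [Finite T] {E : FusionSystem T} {g : G}
    (hg : g ∈ autStab E T le_rfl) :
    ∃ α : MulAut T, α ∈ E.autGroup T ∧ ∀ x : T, ((α x : T) : G) = g * x * g⁻¹ :=
  exists_aut_of_mor hg.2 (fun _ hx => conj_mem_of_mem_normalizer hg.1 hx)

/-- An element of `G` inducing an element of `Aut_E(T)` lies in `autStab E T`. -/
theorem mem_autStab_of_aut {E : FusionSystem T} {g : G} {α : MulAut T} (hα : α ∈ E.autGroup T)
    (h : ∀ x : T, ((α x : T) : G) = g * x * g⁻¹) : g ∈ autStab E T le_rfl := by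
  have hm : Mor E T (fun x => g * x * g⁻¹) :=
    ((mem_autGroup_iff E le_rfl α).mp hα).congr (fun x hx => by
      rw [autFun_apply' α hx]
      exact h ⟨x, hx⟩)
  refine ⟨?_, hm⟩
  rw [Subgroup.mem_normalizer_iff]
  intro y
  constructor
  · intro hy
    rw [← h ⟨y, hy⟩]
    exact (α _).2
  · intro hy
    have h1 := h (α⁻¹ ⟨_, hy⟩)
    rw [MulAut.apply_inv_self] at h1
    have h2 : y = ((α⁻¹ ⟨_, hy⟩ : T) : G) := by
      have h3 : g * y * g⁻¹ = g * ((α⁻¹ ⟨_, hy⟩ : T) : G) * g⁻¹ := h1
      exact mul_left_cancel (mul_right_cancel h3)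
    rw [h2]
    exact (α⁻¹ _).2

end

end Cfsg.Agent.Lib.Helper30
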