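import Cfsg.Agent.Lib.Helper30.NSub0
import Cfsg.Agent.S5140
import Cfsg.Agent.S5142
import Cfsg.Agent.S5114

/-!
# Two normal subsystems over the same subgroup

A normal subsystem `E` of a saturated fusion system `F` over `T` is contained in every normal subsystem
`E'` of `F` over `T` with `Aut_E(T) ≤ Aut_{E'}(T)`: the `p'`-residual of `E` lies in `E'` (S5142) and
`E` is generated by it together with `Aut_E(T)` (the Frattini property of subsystems of index prime to
`p`, S5114).
-/

set_option autoImplicit false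

namespace Cfsg.Agent.Lib.Helper30

open Cfsg Cfsg.FusionSystem Cfsg.Agent.Lib.Helper90

theorem nsub_normEq {Ω : Type*} [Group Ω] {S : Subgroup Ω} [Finite S] (p : ℕ) [Fact p.Prime]
    (hS : IsPGroup p S) (F : FusionSystem S) (hF : F.IsSaturated p) {T : Subgroup Ω}
    (E E' : FusionSystem T) (hE : E.IsNormalIn F p) (hE' : E'.IsNormalIn F p)
    (hA : E.autGroup T ≤ E'.autGroup T) : E.IsSubsystemOf E' := by
  have hEs := hE.1.1
  have hTS : T ≤ S := hE.1.2.2.2.1.1
  haveI : Finite T := finite_of_le hTS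
  have hT : IsPGroup p T := hS.to_le hTS
  obtain ⟨D, hD⟩ := Cfsg.Agent.S5140.result p hT E hEs
  have hDE' : D.IsSubsystemOf E' := Cfsg.Agent.S5142.result p hS F hF E hE D hD E' hE'
  have h5114 := Cfsg.Agent.S5114.result p hT E hEs D hD.2.1.1 (fun P hP => hD.2.1.2 P hP.1)
  intro P φ hφ
  obtain ⟨α, hα, φ₀, hφ₀, h⟩ := h5114.2.1 P φ hφ
  have hα' := hA hα
  have hm0 : Mor E' P (extFun P φ₀) := mor_of_hom (hDE' P hφ₀)
  have hmα : Mor E' T (autFun T α) := (mem_autGroup_iff E' le_rfl α).mp hα'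
  have hmem : ∀ x ∈ P, extFun P φ₀ x ∈ T := fun x hx => by
    rw [extFun_apply' P φ₀ hx]
    exact (D.le_of_mem hφ₀).2 _
  have hcomp := hm0.comp hmα hmem
  refine hcomp.hom φ (fun x => ?_)
  have hx : φ₀ x ∈ T := (D.le_of_mem hφ₀).2 x
  rw [h x hx]
  show _ = autFun T α (extFun P φ₀ x)
  rw [extFun_apply P φ₀ x, autFun_apply' α hx]

end Cfsg.Agent.Lib.Helper30
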