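import Cfsg.Agent.Lib.Helper30.NSub0
import Cfsg.Agent.Lib.Helper30.NSubEq
import Cfsg.Agent.Lib.Helper58.NSubGA1
import Cfsg.Agent.Lib.Helper85.NSubGA2
import Cfsg.Agent.Lib.Helper32.NSubGB
import Cfsg.Agent.Lib.Helper23.NSubFK
import Cfsg.Agent.Lib.Helper94.NSubFS
import Cfsg.Agent.Lib.Helper89.NSubFQ
import Cfsg.Agent.Lib.Helper89.NSubFG1
import Cfsg.Agent.Lib.Helper35.NSubFG2
import Cfsg.Agent.S5118

/-!
# S5121: existence of the normal subgroup realizing a normal subsystem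

Assembly of the job-board pieces (notes 936/937): for a finite group `G` with `C_G(O_p(G)) ≤ O_p(G)`,
Sylow `p`-subgroup `S` and a normal subsystem `E` of `F_S(G)` over `T`, there is a normal subgroup `H`
of `G` with `S ∩ H = T` and `E = F_T(H)`.
-/

set_option autoImplicit false

namespace Cfsg.Agent.Lib.Helper30

open Cfsg Cfsg.FusionSystem Cfsg.Agent.Lib.Helper90
open Cfsg.Agent.Lib.Helper58 (nsub_ga1)
open Cfsg.Agent.Lib.Helper85 (nsub_ga2)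
open Cfsg.Agent.Lib.Helper32 (nsub_gb)
open Cfsg.Agent.Lib.Helper23 (nsub_fk)
open Cfsg.Agent.Lib.Helper94 (nsub_fs)
open Cfsg.Agent.Lib.Helper89 (nsub_fq nsub_fg1)
open Cfsg.Agent.Lib.Helper35 (nsub_fg2)


theorem nsub_gmain {G : Type*} [Group G] [Finite G] {p : ℕ} [Fact p.Prime] (S : Sylow p G)
    (Q T KR KT : Subgroup G) [Q.Normal] [KR.Normal]
    (hQp : IsPGroup p Q) (hCQ : Subgroup.centralizer (Q : Set G) ≤ Q)
    (hQmax : ∀ N : Subgroup G, N.Normal → IsPGroup p N → N ≤ Q)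
    (hTS : T ≤ S)
    (hsc : ∀ t ∈ T, ∀ g : G, g * t * g⁻¹ ∈ (S : Subgroup G) → g * t * g⁻¹ ∈ T)
    (hTK : T ≤ KT) (hKK : KT ≤ KR) (hKN : KT ≤ Subgroup.normalizer (T : Set G))
    (hCK : Subgroup.centralizer ((T ⊓ Q : Subgroup G) : Set G) ≤ KR)
    (hcongr : ∀ y ∈ KT, ∀ g : G, (∀ t ∈ T, g * t * g⁻¹ = y * t * y⁻¹) → g ∈ KT)
    (hKTn : ∀ x ∈ KT, ∀ n ∈ Subgroup.normalizer (T : Set G), n * x * n⁻¹ ∈ KT)
    (hsyl : ∀ s ∈ (S : Subgroup G), s ∈ KR → ∃ t ∈ T, ∀ r ∈ T ⊓ Q, s * r * s⁻¹ = t * r * t⁻¹)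
    (hext : ∀ h ∈ KR, h ∈ Subgroup.normalizer (T : Set G) →
      ∃ y ∈ KT, ∀ r ∈ T ⊓ Q, h * r * h⁻¹ = y * r * y⁻¹)
    (hfq : ∀ q ∈ Q, q ∈ KT → ∃ t ∈ T, ∀ y ∈ T, q * y * q⁻¹ = t * y * t⁻¹)
    (hgen : ∀ y ∈ KT, ∃ h ∈ T ⊔ Subgroup.closure {x : G | x ∈ KT ∧ (orderOf x).Coprime p ∧
        ∀ c ∈ (S : Subgroup G), c ∈ Subgroup.centralizer (T : Set G) →
          c⁻¹ * (x * c * x⁻¹) ∈ T ⊓ Subgroup.centralizer (T : Set G)},
      ∀ t ∈ T, y * t * y⁻¹ = h * t * h⁻¹) :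
    ∃ H : Subgroup G, H.Normal ∧ (S : Subgroup G) ⊓ H = T ∧
      (∀ y ∈ KT, ∃ h ∈ H, ∀ t ∈ T, y * t * y⁻¹ = h * t * h⁻¹) ∧
      ∀ h ∈ H, h ∈ Subgroup.normalizer (T : Set G) → h ∈ KT := by
  have hQS : Q ≤ S := IsPGroup.le_sylow_of_normal hQp S
  obtain ⟨H₂, X, hH₂n, hXn, hTH₂, hXH₂, hXQ, hH₂mem, hXmem, hXc, hsyl₂⟩ :=
    nsub_ga1 S Q T KR hQp hCQ hQmax hTS hsc (hTK.trans hKK) hCK hsyl
  obtain ⟨H, hHn, hTH, hHH₂, hSH, hHp'⟩ :=
    nsub_ga2 S T H₂ X hTS hsc hTH₂ hXH₂ (hXQ.trans hQS) hXc hsyl₂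
  have hTn : ∀ s ∈ (S : Subgroup G), ∀ t ∈ T, s * t * s⁻¹ ∈ T := fun s hs t ht =>
    hsc t ht s (Subgroup.mul_mem _ (Subgroup.mul_mem _ hs (hTS ht)) (Subgroup.inv_mem _ hs))
  have hSN : (S : Subgroup G) ≤ Subgroup.normalizer (T : Set G) := by
    intro s hs
    rw [Subgroup.mem_normalizer_iff]
    intro y
    refine ⟨hTn s hs y, fun hy => ?_⟩
    have h1 := hTn s⁻¹ (Subgroup.inv_mem _ hs) _ hy
    have h2 : s⁻¹ * (s * y * s⁻¹) * s⁻¹⁻¹ = y := by group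
    rwa [h2] at h1
  have hW : ∀ x, x ∈ KT → (orderOf x).Coprime p →
      (∀ c ∈ (S : Subgroup G), c ∈ Subgroup.centralizer (T : Set G) →
        c⁻¹ * (x * c * x⁻¹) ∈ T ⊓ Subgroup.centralizer (T : Set G)) → x ∈ H := by
    intro x hxK hxp hxC
    apply hHp' x _ hxp
    rw [hH₂mem]
    refine ⟨hKK hxK, ?_⟩
    apply nsub_gb S Q T hQp hQS hTS hTn x (hKN hxK) hxp hxC
    intro q hq
    have h1 : q * x * q⁻¹ * x⁻¹ ∈ Q := by
      have e : q * x * q⁻¹ * x⁻¹ = q * (x * q⁻¹ * x⁻¹) := by group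
      rw [e]
      exact Q.mul_mem hq (Subgroup.Normal.conj_mem inferInstance _ (Q.inv_mem hq) x)
    have h2 : q * x * q⁻¹ * x⁻¹ ∈ KT :=
      KT.mul_mem (hKTn x hxK q (hSN (hQS hq))) (KT.inv_mem hxK)
    exact hfq _ h1 h2
  have hcl : T ⊔ Subgroup.closure {x : G | x ∈ KT ∧ (orderOf x).Coprime p ∧
        ∀ c ∈ (S : Subgroup G), c ∈ Subgroup.centralizer (T : Set G) →
          c⁻¹ * (x * c * x⁻¹) ∈ T ⊓ Subgroup.centralizer (T : Set G)} ≤ H :=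
    sup_le hTH ((Subgroup.closure_le _).2 (fun x hx => hW x hx.1 hx.2.1 hx.2.2))
  refine ⟨H, hHn, le_antisymm hSH (le_inf hTS hTH), ?_, ?_⟩
  · intro y hy
    obtain ⟨h, hh, hyh⟩ := hgen y hy
    exact ⟨h, hcl hh, hyh⟩
  · intro h hh hhN
    have hhKR : h ∈ KR := ((hH₂mem h).1 (hHH₂ hh)).1
    obtain ⟨y, hy, hyr⟩ := hext h hhKR hhN
    obtain ⟨h', hh', hyh'⟩ := hgen y hy
    have hh'H := hcl hh'
    have h3 : h'⁻¹ * h ∈ X := by
      rw [hXmem]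
      refine ⟨hHH₂ (H.mul_mem (H.inv_mem hh'H) hh), fun r hr => ?_⟩
      have e1 := hyr r hr
      have e2 := hyh' r hr.1
      calc h'⁻¹ * h * r * (h'⁻¹ * h)⁻¹ = h'⁻¹ * (h * r * h⁻¹) * h' := by group
        _ = h'⁻¹ * (h' * r * h'⁻¹) * h' := by rw [e1, e2]
        _ = r := by group
    have h4 : h'⁻¹ * h ∈ T := hSH ⟨hQS (hXQ h3), H.mul_mem (H.inv_mem hh'H) hh⟩
    have h5 : h' ∈ KT := hcongr y hy h' (fun t ht => (hyh' t ht).symm)
    have e : h = h' * (h'⁻¹ * h) := by group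
    rw [e]
    exact KT.mul_mem h5 (hTK h4)

open Cfsg.Agent.Lib.Helper88 (IsGrpSys grp_mor_iff groupFusionSystem_isGrpSys groupFusionSystem_isSaturated)

theorem nsub_exists {G : Type*} [Group G] [Finite G] (p : ℕ) [Fact p.Prime] (S : Sylow p G)
    (hG : Subgroup.centralizer ((Cfsg.pCore p G : Subgroup G) : Set G) ≤ Cfsg.pCore p G)
    (T : Subgroup G) (hTS : T ≤ S) (E : Cfsg.FusionSystem T)
    (hE : E.IsNormalIn (Cfsg.groupFusionSystem (S : Subgroup G)) p) :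
    ∃ H : Subgroup G, H.Normal ∧ (S : Subgroup G) ⊓ H = T ∧ ∃ hTH : T ≤ H,
      ∀ P : Subgroup G, E.Hom P = (Cfsg.fusionSystemOfSubgroup H T hTH).Hom P := by
  have hQn : (Cfsg.pCore p G).Normal := Subgroup.sSup_normal _ (fun _ h => h.1)
  have hQp : IsPGroup p (Cfsg.pCore p G) := Sylow.sSup_of_normal _ (fun _ h => h.2) (fun _ h => h.1)
  have hQS : Cfsg.pCore p G ≤ (S : Subgroup G) := IsPGroup.le_sylow_of_normal hQp S
  have hQmax : ∀ N : Subgroup G, N.Normal → IsPGroup p N → N ≤ Cfsg.pCore p G :=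
    fun N hN hNp => le_sSup ⟨hN, hNp⟩
  have hEs := hE.1.1
  have hFs := hE.1.2.1
  have hinv := hE.1.2.2
  have hsub := hinv.1
  have hFg : IsGrpSys (groupFusionSystem (S : Subgroup G)) ⊤ := groupFusionSystem_isGrpSys _
  have hsc : ∀ t ∈ T, ∀ g : G, g * t * g⁻¹ ∈ (S : Subgroup G) → g * t * g⁻¹ ∈ T := by
    intro t ht g hg
    have hm : Mor (groupFusionSystem (S : Subgroup G)) (Subgroup.zpowers t) (fun x => g * x * g⁻¹) := by
      rw [grp_mor_iff hFg]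
      refine ⟨(Subgroup.zpowers_le).2 (hTS ht), g, Subgroup.mem_top g, fun x hx => ⟨rfl, ?_⟩⟩
      obtain ⟨k, rfl⟩ := Subgroup.mem_zpowers_iff.mp hx
      have e : g * t ^ k * g⁻¹ = (g * t * g⁻¹) ^ k := by
        rw [← MulAut.conj_apply, ← MulAut.conj_apply, map_zpow]
      rw [e]
      exact Subgroup.zpow_mem _ hg k
    exact stronglyClosed_mor_mem hinv.2.1 hm ((Subgroup.zpowers_le).2 ht) (Subgroup.mem_zpowers t)
  obtain ⟨hKRn, hKK, hKTn⟩ := nsub_fk S (Cfsg.pCore p G) hQS E hinv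
  obtain ⟨hsyl, hext⟩ := nsub_fs S (Cfsg.pCore p G) hQS E hEs hinv
  have hfq := nsub_fq S (Cfsg.pCore p G) hQp E hEs hsub
  have hfg1 := nsub_fg1 S E hE
  have hgen := nsub_fg2 S hTS E hEs {x : G | x ∈ autStab E T le_rfl ∧ (orderOf x).Coprime p ∧
        ∀ c ∈ (S : Subgroup G), c ∈ Subgroup.centralizer (T : Set G) →
          c⁻¹ * (x * c * x⁻¹) ∈ T ⊓ Subgroup.centralizer (T : Set G)} (by
    intro α hα hαp
    obtain ⟨x, hxp, hxα, hxC⟩ := hfg1 α hα hαp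
    exact ⟨x, ⟨mem_autStab_of_aut hα hxα, hxp, hxC⟩, hxα⟩)
  obtain ⟨H, hHn, hSH, hKH, hHK⟩ := nsub_gmain S (Cfsg.pCore p G) T
    (autStab E (T ⊓ Cfsg.pCore p G) inf_le_left) (autStab E T le_rfl) hQp hG hQmax hTS hsc
    (le_autStab_top E) hKK (fun g hg => hg.1) (centralizer_le_autStab E _ _)
    (fun y hy g hg => autStab_congr hy hg) hKTn hsyl hext hfq hgen
  have hTH : T ≤ H := hSH ▸ inf_le_right
  refine ⟨H, hHn, hSH, hTH, ?_⟩
  have hN' := Cfsg.Agent.S5118.normal_aux S H T hSH.symm hTH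
  have hfinT : Finite T := inferInstance
  have hEH : IsGrpSys (fusionSystemOfSubgroup H T hTH) H := fun _ _ => Iff.rfl
  have hA1 : E.autGroup T ≤ (fusionSystemOfSubgroup H T hTH).autGroup T := by
    intro α hα
    have hαF : Mor (groupFusionSystem (S : Subgroup G)) T (autFun T α) :=
      mor_of_subsystem hsub ((mem_autGroup_iff E le_rfl α).mp hα)
    obtain ⟨-, g, -, hg⟩ := (grp_mor_iff hFg).mp hαF
    have hαg : ∀ x : T, ((α x : T) : G) = g * x * g⁻¹ := fun x => by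
      rw [← autFun_apply α x]
      exact (hg x x.2).1
    obtain ⟨h, hh, hgh⟩ := hKH g (mem_autStab_of_aut hα hαg)
    rw [mem_autGroup_iff _ le_rfl, grp_mor_iff hEH]
    refine ⟨le_rfl, h, hh, fun x hx => ?_⟩
    rw [autFun_apply' α hx, hαg, ← hgh x hx, ← hαg]
    exact ⟨rfl, (α _).2⟩
  have hA2 : (fusionSystemOfSubgroup H T hTH).autGroup T ≤ E.autGroup T := by
    intro α hα
    rw [mem_autGroup_iff _ le_rfl, grp_mor_iff hEH] at hα
    obtain ⟨-, h, hh, hα⟩ := hα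
    have hαh : ∀ x : T, ((α x : T) : G) = h * x * h⁻¹ := fun x => by
      rw [← autFun_apply α x]
      exact (hα x x.2).1
    have hhN : h ∈ Subgroup.normalizer (T : Set G) :=
      Cfsg.Agent.Lib.Helper88.mem_normalizer_of_conj_le T (fun x hx => (hα x hx).2)
    have hhK := hHK h hh hhN
    rw [mem_autGroup_iff _ le_rfl]
    exact hhK.2.congr (fun x hx => by rw [autFun_apply' α hx, hαh])
  have hSp : IsPGroup p (S : Subgroup G) := S.isPGroup'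
  intro P
  exact Set.Subset.antisymm
    (nsub_normEq p hSp _ hFs E _ hE hN' hA1 P)
    (nsub_normEq p hSp _ hFs _ E hN' hE hA2 P)

end Cfsg.Agent.Lib.Helper30
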