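import Mathlib
import Cfsg.Agent.Lib.Helper36.R23Defs
import Cfsg.Agent.Lib.Helper24.TwD4
import Cfsg.Agent.Lib.Helper24.TwUD4

/-!
# Project R23 (S1788, helper36), piece TWD4 (helper30): `³D₄(q)` in characteristic 2 has an
elementary abelian subgroup of order at least 8 (the twisted root subgroup of `{p₁, p₃, p₄}`).
-/

set_option autoImplicit false

namespace Cfsg.Agent.Lib.Helper30.R23

open Cfsg Cfsg.Lie Cfsg.Agent.Lib.Helper36.R23 Cfsg.Agent.Lib.Helper24

set_option maxRecDepth 1000000 in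
theorem twd4_posr : chevD4.IsPosRoot 18 ∧ chevD4.IsPosRoot 13 ∧ chevD4.IsPosRoot 12 := by
  decide +kernel

theorem twd4 : TwD4Stmt := by
  intro K _ _ _ q hq hK
  classical
  obtain ⟨σ, hσ⟩ := exists_frob K q 3 hq hK
  obtain ⟨ψ, hψU, -, -⟩ := d4_sl2 (K := K) q σ hσ
  -- the entry of the word at the root `18`
  have hent : ∀ t : K, ent chevD4 (wGL chevD4 chevD4_mem
      [(18, t), (13, t ^ q), (12, t ^ (q ^ 2))]) 18 (iaD4 18) =
      -((chevD4.cartan (iaD4 18) 18 : ℤ) : K) * t := by
    intro t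
    refine (word_family chevD4 chevD4_mem lvD4 8 levD4 iaD4 posD4
      [(18, t), (13, t ^ q), (12, t ^ (q ^ 2))] 18 t 2 (by norm_num) ?_ twd4_posr.1
      d4_levels.2.1 ?_).2.2
    · intro p hp
      simp only [List.mem_cons, List.not_mem_nil, or_false] at hp
      have hl1 : lvD4 18 = 10 := d4_levels.2.1
      have hl2 : lvD4 13 = 10 := d4_levels.2.2.1
      have hl3 : lvD4 12 = 10 := d4_levels.2.2.2.1
      rcases hp with rfl | rfl | rfl
      · show chevD4.IsPosRoot 18 ∧ 8 + 2 ≤ lvD4 18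
        exact ⟨twd4_posr.1, by omega⟩
      · show chevD4.IsPosRoot 13 ∧ 8 + 2 ≤ lvD4 13
        exact ⟨twd4_posr.2.1, by omega⟩
      · show chevD4.IsPosRoot 12 ∧ 8 + 2 ≤ lvD4 12
        exact ⟨twd4_posr.2.2, by omega⟩
    · simp
  have hunit := posD4.ia_unit 18 twd4_posr.1
  have hinj : ∀ t t' : K, wGL chevD4 chevD4_mem [(18, t), (13, t ^ q), (12, t ^ (q ^ 2))] =
      wGL chevD4 chevD4_mem [(18, t'), (13, t' ^ q), (12, t' ^ (q ^ 2))] → t = t' := by
    intro t t' h
    have h1 := hent t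
    rw [h, hent t'] at h1
    rcases hunit with hu | hu
    · rw [hu] at h1
      simpa using h1.symm
    · rw [hu] at h1
      simpa using h1.symm
  let g : Multiplicative K →* ↥(Lie.twistedD4 K q) := MonoidHom.mk'
    (fun v => ⟨ψ (slU (Multiplicative.toAdd v)), by
      rw [hψU]
      exact (d4_short_mem q _).1⟩)
    (by
      intro a b
      apply Subtype.ext
      show ψ (slU (Multiplicative.toAdd (a * b))) =
        ψ (slU (Multiplicative.toAdd a)) * ψ (slU (Multiplicative.toAdd b))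
      rw [toAdd_mul, slU_add, map_mul])
  have hg : Function.Injective g := by
    intro a b hab
    have h1 : ψ (slU (Multiplicative.toAdd a)) = ψ (slU (Multiplicative.toAdd b)) :=
      congrArg Subtype.val hab
    rw [hψU, hψU] at h1
    have h2 := hinj _ _ h1
    exact Multiplicative.toAdd.injective h2
  have hV : ∀ v : K, v + v = 0 := fun v => CharTwo.add_self_eq_zero v
  have hc : 8 ≤ Nat.card K := by
    rw [Nat.card_eq_fintype_card, hK]
    have h2 : 2 ≤ q := hq.two_le
    calc 8 = 2 ^ 3 := by norm_num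
      _ ≤ q ^ 3 := Nat.pow_le_pow_left h2 3
  exact prank_of_hom hV g hg hc

end Cfsg.Agent.Lib.Helper30.R23
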