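import Mathlib

/-!
# S4501, piece A1: the two degrees of the principal 3-block are `2^s` and `p` (helper30)
-/

set_option autoImplicit false

namespace Cfsg.Agent.Lib.Helper30.S4501.A1

/-- A divisor of `p ^ a * 2 ^ b` is of the form `p ^ i * 2 ^ k`. -/
theorem dvd_shape (p a b n : ℕ) (hp : p.Prime) (h : n ∣ p ^ a * 2 ^ b) :
    ∃ i k : ℕ, i ≤ a ∧ k ≤ b ∧ n = p ^ i * 2 ^ k := by
  obtain ⟨n1, n2, h1, h2, rfl⟩ := (Nat.dvd_mul).mp h
  obtain ⟨i, hi, rfl⟩ := (Nat.dvd_prime_pow hp).mp h1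
  obtain ⟨k, hk, rfl⟩ := (Nat.dvd_prime_pow Nat.prime_two).mp h2
  exact ⟨i, k, hi, hk, rfl⟩

theorem arith_degrees (p a b d : ℕ) (hp : p.Prime) (hp5 : 5 ≤ p) (ha : a ≤ 2) (hd : 2 ≤ d)
    (h1 : d ∣ 3 * p ^ a * 2 ^ b) (h2 : d + 1 ∣ 3 * p ^ a * 2 ^ b) (h3 : ¬ 3 ∣ d)
    (h3' : ¬ 3 ∣ d + 1) :
    ∃ s : ℕ, 2 ≤ s ∧ s ≤ b ∧ 1 ≤ a ∧ ((d = 2 ^ s ∧ d + 1 = p) ∨ (d = p ∧ d + 1 = 2 ^ s)) := by
  have hc1 : Nat.Coprime d 3 := (Nat.Coprime.symm ((Nat.Prime.coprime_iff_not_dvd Nat.prime_three).mpr h3))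
  have hc2 : Nat.Coprime (d + 1) 3 :=
    (Nat.Coprime.symm ((Nat.Prime.coprime_iff_not_dvd Nat.prime_three).mpr h3'))
  have h1' : d ∣ p ^ a * 2 ^ b := by
    rw [mul_assoc] at h1
    exact hc1.dvd_of_dvd_mul_left h1
  have h2' : d + 1 ∣ p ^ a * 2 ^ b := by
    rw [mul_assoc] at h2
    exact hc2.dvd_of_dvd_mul_left h2
  obtain ⟨i, k, hi, hk, hdik⟩ := dvd_shape p a b d hp h1'
  obtain ⟨i', k', hi', hk', hdik'⟩ := dvd_shape p a b (d + 1) hp h2'
  have hpodd : Odd p := hp.odd_of_ne_two (by omega)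
  have hp2 : ¬ 2 ∣ p := by
    intro h
    exact (Nat.not_even_iff_odd.mpr hpodd) (even_iff_two_dvd.mpr h)
  -- not both divisible by p, not both even
  have hnp : ¬ (1 ≤ i ∧ 1 ≤ i') := by
    rintro ⟨hi1, hi1'⟩
    have hpd : p ∣ d := by
      rw [hdik]; exact Dvd.dvd.mul_right (dvd_pow_self p (by omega)) _
    have hpd' : p ∣ d + 1 := by
      rw [hdik']; exact Dvd.dvd.mul_right (dvd_pow_self p (by omega)) _
    have : p ∣ 1 := (Nat.dvd_add_right hpd).mp hpd'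
    have := Nat.le_of_dvd (by norm_num) this
    omega
  have hn2 : ¬ (1 ≤ k ∧ 1 ≤ k') := by
    rintro ⟨hk1, hk1'⟩
    have hpd : 2 ∣ d := by
      rw [hdik]; exact Dvd.dvd.mul_left (dvd_pow_self 2 (by omega)) _
    have hpd' : 2 ∣ d + 1 := by
      rw [hdik']; exact Dvd.dvd.mul_left (dvd_pow_self 2 (by omega)) _
    omega
  have hpp : ∀ n : ℕ, 1 ≤ n → 5 ≤ p ^ n := fun n hn =>
    le_trans hp5 (Nat.le_self_pow (by omega) p)
  rcases Nat.eq_zero_or_pos i with hi0 | hipos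
  · -- d = 2 ^ k
    subst hi0
    rw [pow_zero, one_mul] at hdik
    have hk1 : 1 ≤ k := by
      rcases Nat.eq_zero_or_pos k with h | h
      · rw [h, pow_zero] at hdik; omega
      · exact h
    have hk'0 : k' = 0 := by
      by_contra h
      exact hn2 ⟨hk1, by omega⟩
    subst hk'0
    rw [pow_zero, mul_one] at hdik'
    have hi'1 : 1 ≤ i' := by
      rcases Nat.eq_zero_or_pos i' with h | h
      · rw [h, pow_zero] at hdik'; omega
      · exact h
    have hi'cases : i' = 1 ∨ i' = 2 := by omega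
    rcases hi'cases with rfl | rfl
    · rw [pow_one] at hdik'
      refine ⟨k, ?_, hk, by omega, Or.inl ⟨hdik, hdik'⟩⟩
      by_contra hk2
      have : k = 1 := by omega
      rw [this] at hdik
      omega
    · exfalso
      -- 2 ^ k + 1 = p ^ 2
      have hfac : (p - 1) * (p + 1) = 2 ^ k := by
        have : p ^ 2 = 2 ^ k + 1 := by omega
        have hp1 : 1 ≤ p := by omega
        zify [hp1]
        have h' : ((p : ℤ)) ^ 2 = 2 ^ k + 1 := by exact_mod_cast this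
        linear_combination h'
      have hd1 : p - 1 ∣ 2 ^ k := Dvd.intro _ hfac
      have hd2 : p + 1 ∣ 2 ^ k := Dvd.intro_left _ hfac
      obtain ⟨u, -, hu⟩ := (Nat.dvd_prime_pow Nat.prime_two).mp hd1
      obtain ⟨v, -, hv⟩ := (Nat.dvd_prime_pow Nat.prime_two).mp hd2
      have hu2 : 2 ≤ u := by
        by_contra h
        have : u = 0 ∨ u = 1 := by omega
        rcases this with rfl | rfl <;> omega
      have hv2 : 2 ≤ v := by
        by_contra h
        have : v = 0 ∨ v = 1 := by omega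
        rcases this with rfl | rfl <;> omega
      have h4u : 4 ∣ p - 1 := by
        rw [hu]; exact (by norm_num : (4 : ℕ) = 2 ^ 2) ▸ pow_dvd_pow 2 hu2
      have h4v : 4 ∣ p + 1 := by
        rw [hv]; exact (by norm_num : (4 : ℕ) = 2 ^ 2) ▸ pow_dvd_pow 2 hv2
      omega
  · -- p ∣ d
    have hi'0 : i' = 0 := by
      by_contra h
      exact hnp ⟨hipos, by omega⟩
    subst hi'0
    rw [pow_zero, one_mul] at hdik'
    have hk'2 : 2 ≤ k' := by
      by_contra h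
      have : k' = 0 ∨ k' = 1 := by omega
      rcases this with rfl | rfl <;> omega
    have hk0 : k = 0 := by
      by_contra h
      exact hn2 ⟨by omega, by omega⟩
    subst hk0
    rw [pow_zero, mul_one] at hdik
    have hicases : i = 1 ∨ i = 2 := by omega
    rcases hicases with rfl | rfl
    · rw [pow_one] at hdik
      exact ⟨k', hk'2, hk', by omega, Or.inr ⟨hdik, hdik'⟩⟩
    · exfalso
      have h4 : 4 ∣ 2 ^ k' := (by norm_num : (4 : ℕ) = 2 ^ 2) ▸ pow_dvd_pow 2 hk'2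
      rw [← hdik', hdik] at h4
      obtain ⟨m, hm⟩ := hpodd
      have : p ^ 2 + 1 = 4 * (m ^ 2 + m) + 2 := by rw [hm]; ring
      omega

end Cfsg.Agent.Lib.Helper30.S4501.A1
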