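import Mathlib
import Cfsg.Prelude.Def_Blocks
import Cfsg.Agent.S0145
import Cfsg.Agent.Lib.Helper4.CharSimple
import Cfsg.Agent.Lib.Helper82.CharCore

/-!
# S4501, piece C7: three terms of the second orthogonality relation (helper30)
-/

set_option autoImplicit false
set_option linter.style.haveILetI false
open Cfsg
open scoped ComplexConjugate

namespace Cfsg.Agent.Lib.Helper30.S4501.C7

/-- C7 -/
theorem three_terms {G : Type*} [Group G] [Finite G] (χ₁ χ₂ : Cfsg.IrrCharacter G)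
    (h1 : (χ₁ : G → ℂ) ≠ (fun _ => 1)) (h2 : (χ₂ : G → ℂ) ≠ (fun _ => 1)) (h12 : χ₁ ≠ χ₂)
    (g : G) : 1 + ‖(χ₁ : G → ℂ) g‖ ^ 2 + ‖(χ₂ : G → ℂ) g‖ ^ 2 ≤
      (Nat.card (Subgroup.centralizer ({g} : Set G)) : ℝ) := by
  classical
  letI := Fintype.ofFinite G
  haveI := Cfsg.Agent.Lib.Helper4.irr_finite (G := G)
  letI : Fintype (IrrCharacter G) := Fintype.ofFinite _
  have hsumAll : ∑ χ : IrrCharacter G, ‖(χ : G → ℂ) g‖ ^ 2 =
      (Nat.card (Subgroup.centralizer ({g} : Set G)) : ℝ) := by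
    have h := (Cfsg.Agent.S0145.result g g).1 (IsConj.refl g)
    rw [finsum_eq_sum_of_fintype] at h
    have h' : ∀ χ : IrrCharacter G, (χ : G → ℂ) g * conj ((χ : G → ℂ) g) =
        ((‖(χ : G → ℂ) g‖ ^ 2 : ℝ) : ℂ) := by
      intro χ
      rw [Complex.mul_conj, Complex.normSq_eq_norm_sq]
    simp only [h'] at h
    exact_mod_cast h
  have ht : (Cfsg.Agent.Lib.Helper4.trivIrr : IrrCharacter G) ≠ χ₁ :=
    fun e => h1 (by rw [← e]; rfl)
  have ht' : (Cfsg.Agent.Lib.Helper4.trivIrr : IrrCharacter G) ≠ χ₂ :=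
    fun e => h2 (by rw [← e]; rfl)
  have hsub : ∑ χ ∈ ({Cfsg.Agent.Lib.Helper4.trivIrr, χ₁, χ₂} : Finset (IrrCharacter G)),
      ‖(χ : G → ℂ) g‖ ^ 2 ≤ ∑ χ : IrrCharacter G, ‖(χ : G → ℂ) g‖ ^ 2 := by
    apply Finset.sum_le_sum_of_subset_of_nonneg (Finset.subset_univ _)
    intro χ _ _
    positivity
  rw [Finset.sum_insert (by simp [ht, ht']), Finset.sum_insert (by simp [h12]),
    Finset.sum_singleton, hsumAll] at hsub
  have htriv : ‖((Cfsg.Agent.Lib.Helper4.trivIrr : IrrCharacter G) : G → ℂ) g‖ ^ 2 = 1 := by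
    have : ((Cfsg.Agent.Lib.Helper4.trivIrr : IrrCharacter G) : G → ℂ) g = 1 := rfl
    rw [this]; norm_num
  rw [htriv] at hsub
  linarith

end Cfsg.Agent.Lib.Helper30.S4501.C7
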