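import Mathlib
import Cfsg.Prelude.Def_Blocks
import Cfsg.Agent.Lib.Helper79.Klein2
import Cfsg.Agent.Lib.Helper29.S4501P0
import Cfsg.Agent.Lib.Helper29.S4501K1
import Cfsg.Agent.Lib.Helper77.S4501K2
import Cfsg.Agent.Lib.Helper86.S4501K3
import Cfsg.Agent.Lib.Helper31.S4501K4a
import Cfsg.Agent.Lib.Helper31.S4501K4
import Cfsg.Agent.Lib.Helper85.S4501K5

/-!
# S4501, part 1: a nonabelian simple group of order `4 p^a q^b` has order 60 (helper30)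
-/

set_option autoImplicit false
open Cfsg
open scoped ComplexConjugate

namespace Cfsg.Agent.Lib.Helper30.S4501

/-- Part 1 (assembly). -/
theorem part_one {G : Type*} [Group G] [Finite G] [IsSimpleGroup G]
    (hna : ∃ x y : G, x * y ≠ y * x) (p q a b : ℕ) (hp : p.Prime) (hq : q.Prime)
    (hG : Nat.card G = 4 * p ^ a * q ^ b) : Nat.card G = 60 := by
  classical
  -- p, q odd
  have hp2 : p ≠ 2 := by
    rintro rfl
    exact P0.two_primes hna 2 q (a + 2) b Nat.prime_two hq (by rw [hG]; ring)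
  have hq2 : q ≠ 2 := by
    rintro rfl
    exact P0.two_primes hna 2 p (b + 2) a Nat.prime_two hp (by rw [hG]; ring)
  have hpo : Odd p := hp.odd_of_ne_two hp2
  have hqo : Odd q := hq.odd_of_ne_two hq2
  set g₀ := p ^ a * q ^ b with hg₀def
  have hg₀ : Odd g₀ := (hpo.pow).mul (hqo.pow)
  have hG' : Nat.card G = 4 * g₀ := by rw [hG, hg₀def]; ring
  obtain ⟨M, hM, P, J, ζ₂, ζ₃, ζ₄, ε, hJ, hJ2, hε, hnc, hB, hdist, hval, hA4, hB41, hB43, hC4,
    hrel, hAd, hBd, hCd, hA1, hB1, hC1⟩ := K1.klein_setup hna g₀ hg₀ hG'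
  have hApos : 0 < Cfsg.charDegree (ζ₂ : G → ℂ) :=
    Nat.pos_of_dvd_of_pos hAd (Nat.pos_of_ne_zero (by rintro h; rw [h] at hg₀; exact absurd hg₀ (by decide)))
  have hBpos : 0 < Cfsg.charDegree (ζ₃ : G → ℂ) :=
    Nat.pos_of_dvd_of_pos hBd (Nat.pos_of_ne_zero (by rintro h; rw [h] at hg₀; exact absurd hg₀ (by decide)))
  have hCpos : 0 < Cfsg.charDegree (ζ₄ : G → ℂ) :=
    Nat.pos_of_dvd_of_pos hCd (Nat.pos_of_ne_zero (by rintro h; rw [h] at hg₀; exact absurd hg₀ (by decide)))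
  rcases hε with rfl | rfl
  · exfalso
    refine K2.eps_pos_false M hM g₀ hg₀ hG' hnc P J hJ hJ2 ζ₂ ζ₃ ζ₄ hB hdist ?_ p q a b hp hq rfl
      (by omega) (by omega) ?_ hC4
    · simpa using hval
    · have : ((1 : ℤ) + (Cfsg.charDegree (ζ₂ : G → ℂ) : ℤ) + (Cfsg.charDegree (ζ₃ : G → ℂ) : ℤ) =
        (Cfsg.charDegree (ζ₄ : G → ℂ) : ℤ)) := by simpa using hrel
      omega
  · have hval' : (ζ₂ : G → ℂ) J = 1 ∧ (ζ₃ : G → ℂ) J = -1 ∧ (ζ₄ : G → ℂ) J = -1 := by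
      simpa using hval
    have hB4 := hB43 rfl
    have hrel' : 1 + Cfsg.charDegree (ζ₂ : G → ℂ) =
        Cfsg.charDegree (ζ₃ : G → ℂ) + Cfsg.charDegree (ζ₄ : G → ℂ) := by
      have : ((1 : ℤ) + (Cfsg.charDegree (ζ₂ : G → ℂ) : ℤ) + (-1) * (Cfsg.charDegree (ζ₃ : G → ℂ) : ℤ) =
        (Cfsg.charDegree (ζ₄ : G → ℂ) : ℤ)) := hrel
      omega
    have h3 := K3.eps_neg_degree_three M hM g₀ hg₀ hG' hnc P J hJ hJ2 ζ₂ ζ₃ ζ₄ hB hdist hval'
      p q a b hp hq rfl hA4 hB4 hC4 hAd hBd hCd hA1 hrel'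
    have hP : Nat.card P = 4 := Cfsg.Agent.Lib.Helper79.card_sylow_two_of_card g₀ hg₀ hG' P
    have hcJ : Nat.card (Subgroup.centralizer ({J} : Set G)) = 4 := by
      rcases h3 with h3 | h3
      · exact K4.centralizer_card_four M hM P hP J hJ hJ2 ζ₃ (by rw [hB]; right; right; left; rfl)
          hval'.2.1 (fun y hc ho h1 h2 => K4a.eigen_three hna ζ₃ h3 J y hJ2 hc ho hval'.2.1 h1 h2)
      · exact K4.centralizer_card_four M hM P hP J hJ hJ2 ζ₄ (by rw [hB]; right; right; right; rfl)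
          hval'.2.2 (fun y hc ho h1 h2 => K4a.eigen_three hna ζ₄ h3 J y hJ2 hc ho hval'.2.2 h1 h2)
    exact K5.order_sixty_of_centralizer M hM g₀ hg₀ hG' hnc P J hJ hJ2 ζ₂ ζ₃ ζ₄ hB hdist hval'
      (by omega) (by omega) hrel' h3 hcJ

end Cfsg.Agent.Lib.Helper30.S4501
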