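import Mathlib
import Cfsg.Agent.Lib.Helper52.SP8EBDefs

/-! SP8-EB (sub-project of S5823, sp8; architect helper52), piece PUREG: transported pure tensors
of determinant-one matrices lie in `G = tensorWreath ⊓ isometries`. -/

set_option autoImplicit false

namespace Cfsg.Agent.Lib.Helper52.SP8EB

open Matrix Cfsg.Geo Cfsg.Agent.Lib.Helper71.Asch

variable {n : ℕ} {F : Type*} [Field F] [Fintype F]

omit [Fintype F] in
/-- the double sum of a bilinear form as a dot product -/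
theorem PUREG_form {κ : Type*} [Fintype κ] (M : Matrix κ κ F) (u v : κ → F) :
    ∑ a, ∑ b, u a * M a b * v b = u ⬝ᵥ (M *ᵥ v) := by
  simp only [dotProduct, Matrix.mulVec, Finset.mul_sum, mul_assoc]

omit [Fintype F] in
/-- the double sum for a tensor power Gram matrix -/
theorem PUREG_formpt (G₁ : Matrix (Fin 2) (Fin 2) F) (u v : (Fin 3 → Fin 2) → F) :
    ∑ a, ∑ b, u a * (∏ i, G₁ (a i) (b i)) * v b =
      u ⬝ᵥ (pt (fun _ : Fin 3 => G₁) *ᵥ v) :=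
  PUREG_form (pt (fun _ : Fin 3 => G₁)) u v

omit [Fintype F] in
/-- moving a matrix across the form -/
theorem PUREG_adj {κ : Type*} [Fintype κ] [DecidableEq κ] (A G : Matrix κ κ F) (x y : κ → F) :
    (A *ᵥ x) ⬝ᵥ (G *ᵥ (A *ᵥ y)) = x ⬝ᵥ ((Aᵀ * G * A) *ᵥ y) := by
  rw [← Matrix.mulVec_mulVec, ← Matrix.mulVec_mulVec, Matrix.dotProduct_mulVec x Aᵀ,
    Matrix.vecMul_transpose]

omit [Fintype F] in
/-- a `2 × 2` matrix of determinant one preserves every alternating Gram matrix -/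
theorem PUREG_two (G X : Matrix (Fin 2) (Fin 2) F) (h00 : G 0 0 = 0) (h11 : G 1 1 = 0)
    (h10 : G 1 0 = -G 0 1) (hX : X.det = 1) : Xᵀ * G * X = G := by
  rw [Matrix.det_fin_two] at hX
  have e : ∀ i j : Fin 2, (Xᵀ * G * X) i j =
      (X 0 i * G 0 0 + X 1 i * G 1 0) * X 0 j + (X 0 i * G 0 1 + X 1 i * G 1 1) * X 1 j := by
    intro i j
    simp only [Matrix.mul_apply, Fin.sum_univ_two, Matrix.transpose_apply]
  have e00 : (Xᵀ * G * X) 0 0 = G 0 0 := by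
    rw [e, h00, h11, h10]; ring
  have e01 : (Xᵀ * G * X) 0 1 = G 0 1 := by
    rw [e, h00, h11, h10]; linear_combination (G 0 1) * hX
  have e10 : (Xᵀ * G * X) 1 0 = G 1 0 := by
    rw [e, h00, h11, h10]; linear_combination -(G 0 1) * hX
  have e11 : (Xᵀ * G * X) 1 1 = G 1 1 := by
    rw [e, h00, h11, h10]; ring
  ext i j
  fin_cases i <;> fin_cases j
  · exact e00
  · exact e01
  · exact e10
  · exact e11

/-- PUREG. -/
theorem PUREG (f : (Fin n → F) → (Fin n → F) → F) (e : Fin n ≃ (Fin 3 → Fin 2)) (P : GL (Fin n) F)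
    (f₁ : (Fin 2 → F) → (Fin 2 → F) → F) (hf₁ : IsSymplecticForm f₁)
    (htp : IsTensorPowerFormStructure id f f₁ e P) : HPureG f e P := by
  intro cs hcs g hg
  refine Subgroup.mem_inf.2 ⟨?_, ?_⟩
  · -- the tensor wreath group
    rw [mem_tensorWreathSubgroup_iff]
    have hu : ∀ i, IsUnit (cs i).det := fun i => by rw [hcs i]; exact isUnit_one
    have h1 : pt cs * pt (fun i => (cs i)⁻¹) = 1 := by
      rw [pt_mul]
      have h : (fun i => cs i * (cs i)⁻¹) = fun _ => (1 : Matrix (Fin 2) (Fin 2) F) := by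
        funext i
        exact Matrix.mul_nonsing_inv _ (hu i)
      rw [h, pt_one]
    have h2 : pt (fun i => (cs i)⁻¹) * pt cs = 1 := by
      rw [pt_mul]
      have h : (fun i => (cs i)⁻¹ * cs i) = fun _ => (1 : Matrix (Fin 2) (Fin 2) F) := by
        funext i
        exact Matrix.nonsing_inv_mul _ (hu i)
      rw [h, pt_one]
    refine ⟨⟨pt cs, pt (fun i => (cs i)⁻¹), h1, h2⟩, ?_, hg⟩
    apply Subgroup.subset_closure
    left
    exact ⟨fun i => ⟨cs i, (cs i)⁻¹, Matrix.mul_nonsing_inv _ (hu i),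
      Matrix.nonsing_inv_mul _ (hu i)⟩, fun x y => rfl⟩
  · -- isometry
    show ∀ u v, f (g.1 *ᵥ u) (g.1 *ᵥ v) = f u v
    intro u v
    obtain ⟨c, hc, hform⟩ := htp
    have hPinv : (P⁻¹ : GL (Fin n) F).1 * P.1 = 1 := by
      rw [← Units.val_mul, inv_mul_cancel, Units.val_one]
    have hPinv' : P.1 * (P⁻¹ : GL (Fin n) F).1 = 1 := by
      rw [← Units.val_mul, mul_inv_cancel, Units.val_one]
    have hrep : ∀ u : Fin n → F,
        P.1 *ᵥ ((((P⁻¹ : GL (Fin n) F).1 *ᵥ u) ∘ e.symm) ∘ e) = u := by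
      intro u
      have h : (((P⁻¹ : GL (Fin n) F).1 *ᵥ u) ∘ e.symm) ∘ e = (P⁻¹ : GL (Fin n) F).1 *ᵥ u := by
        funext j
        simp
      rw [h, Matrix.mulVec_mulVec, hPinv', Matrix.one_mulVec]
    have hact : ∀ x : (Fin 3 → Fin 2) → F,
        g.1 *ᵥ (P.1 *ᵥ (x ∘ e)) = P.1 *ᵥ ((pt cs *ᵥ x) ∘ e) := by
      intro x
      have hR : (Matrix.reindex e.symm e.symm (pt cs)) *ᵥ (x ∘ e) = (pt cs *ᵥ x) ∘ e := by
        rw [Matrix.reindex_apply]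
        simp only [Equiv.symm_symm]
        rw [Matrix.submatrix_mulVec_equiv]
        have h : (x ∘ e) ∘ e.symm = x := by
          funext a
          simp
        rw [h]
      rw [hg]
      unfold tw
      rw [Matrix.mulVec_mulVec, Matrix.mul_assoc, hPinv, Matrix.mul_one, ← Matrix.mulVec_mulVec,
        hR]
    have h00 : gramMatrix f₁ 0 0 = 0 := hf₁.alternating _
    have h11 : gramMatrix f₁ 1 1 = 0 := hf₁.alternating _
    have h10 : gramMatrix f₁ 1 0 = -gramMatrix f₁ 0 1 := hf₁.skew _ _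
    have hGinv : (pt cs)ᵀ * pt (fun _ : Fin 3 => gramMatrix f₁) * pt cs =
        pt (fun _ : Fin 3 => gramMatrix f₁) := by
      rw [pt_transpose, pt_mul, pt_mul]
      congr 1
      funext i
      exact PUREG_two _ _ h00 h11 h10 (hcs i)
    have hu := hrep u
    have hv := hrep v
    calc f (g.1 *ᵥ u) (g.1 *ᵥ v)
        = f (g.1 *ᵥ (P.1 *ᵥ ((((P⁻¹ : GL (Fin n) F).1 *ᵥ u) ∘ e.symm) ∘ e)))
            (g.1 *ᵥ (P.1 *ᵥ ((((P⁻¹ : GL (Fin n) F).1 *ᵥ v) ∘ e.symm) ∘ e))) := by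
          rw [hu, hv]
      _ = f (P.1 *ᵥ ((pt cs *ᵥ (((P⁻¹ : GL (Fin n) F).1 *ᵥ u) ∘ e.symm)) ∘ e))
            (P.1 *ᵥ ((pt cs *ᵥ (((P⁻¹ : GL (Fin n) F).1 *ᵥ v) ∘ e.symm)) ∘ e)) := by
          rw [hact, hact]
      _ = c * ∑ a, ∑ b, (pt cs *ᵥ (((P⁻¹ : GL (Fin n) F).1 *ᵥ u) ∘ e.symm)) a *
            (∏ i, gramMatrix f₁ (a i) (b i)) *
            (pt cs *ᵥ (((P⁻¹ : GL (Fin n) F).1 *ᵥ v) ∘ e.symm)) b := hform _ _
      _ = c * ((((P⁻¹ : GL (Fin n) F).1 *ᵥ u) ∘ e.symm) ⬝ᵥ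
            (pt (fun _ : Fin 3 => gramMatrix f₁) *ᵥ (((P⁻¹ : GL (Fin n) F).1 *ᵥ v) ∘ e.symm))) := by
          rw [PUREG_formpt, PUREG_adj, hGinv]
      _ = c * ∑ a, ∑ b, (((P⁻¹ : GL (Fin n) F).1 *ᵥ u) ∘ e.symm) a *
            (∏ i, gramMatrix f₁ (a i) (b i)) * (((P⁻¹ : GL (Fin n) F).1 *ᵥ v) ∘ e.symm) b := by
          rw [PUREG_formpt]
      _ = f (P.1 *ᵥ ((((P⁻¹ : GL (Fin n) F).1 *ᵥ u) ∘ e.symm) ∘ e))
            (P.1 *ᵥ ((((P⁻¹ : GL (Fin n) F).1 *ᵥ v) ∘ e.symm) ∘ e)) := (hform _ _).symm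
      _ = f u v := by rw [hu, hv]

end Cfsg.Agent.Lib.Helper52.SP8EB
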