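import Mathlib
import Cfsg.Prelude.Def_GeometricClasses
import Cfsg.Agent.Lib.Helper47.InvSub

/-!
# S5965 piece BADN2 (for helper96)

`n = 2`, `x = diag(ω, ω⁻¹)` conjugate in `SL₂(F)` into the subfield group: then
`r ∣ q₀ - 1` or `r ∣ q₀ + 1`.
-/

set_option autoImplicit false

namespace Cfsg.Agent.Lib.Helper30.Sf

/-- In a finite field of which `F₀` is a subfield of order `q₀`, `a ↦ a ^ q₀` is additive. -/
theorem badn2_add_pow {F : Type*} [Field F] [Fintype F] (F₀ : Subfield F) {q₀ : ℕ}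
    (hF₀ : Nat.card ↥F₀ = q₀) (a b : F) : (a + b) ^ q₀ = a ^ q₀ + b ^ q₀ := by
  classical
  obtain ⟨p, hp⟩ := CharP.exists F
  have : Fact p.Prime := ⟨CharP.char_is_prime F p⟩
  have : CharP ↥F₀ p := by
    exact (RingHom.charP_iff (F₀.subtype) (Subtype.val_injective) p).mpr hp
  haveI : Fintype ↥F₀ := Fintype.ofFinite _
  obtain ⟨n, hprime, hcard⟩ := FiniteField.card ↥F₀ p
  have hq : q₀ = p ^ (n : ℕ) := by
    rw [← hF₀, Nat.card_eq_fintype_card, hcard]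
  rw [hq]
  exact add_pow_char_pow a b p n

/-- Elements of `F₀` are fixed by `a ↦ a ^ q₀`. -/
theorem badn2_pow_card {F : Type*} [Field F] [Fintype F] (F₀ : Subfield F) {q₀ : ℕ}
    (hF₀ : Nat.card ↥F₀ = q₀) (a : ↥F₀) : (a : F) ^ q₀ = a := by
  classical
  haveI : Fintype ↥F₀ := Fintype.ofFinite _
  have h := FiniteField.pow_card a
  rw [← Nat.card_eq_fintype_card, hF₀] at h
  have := congrArg (F₀.subtype) h
  simpa using this

theorem bad_n2 {F : Type*} [Field F] [Fintype F] (F₀ : Subfield F) {q₀ : ℕ}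
    (hF₀ : Nat.card ↥F₀ = q₀) (r : ℕ) [Fact r.Prime] (hr2 : r ≠ 2) (ω : F) (hω : ω ^ r = 1)
    (hω1 : ω ≠ 1) (x : Matrix.SpecialLinearGroup (Fin 2) F)
    (hx : (x : Matrix (Fin 2) (Fin 2) F) = Matrix.diagonal ![ω, ω⁻¹])
    (hconj : ∃ P : Matrix.SpecialLinearGroup (Fin 2) F, P⁻¹ * x * P ∈
      (Cfsg.Geo.subfieldSubgroup F₀ 1).comap
        (Matrix.SpecialLinearGroup.toGL : Matrix.SpecialLinearGroup (Fin 2) F →* GL (Fin 2) F)) :
    r ∣ q₀ - 1 ∨ r ∣ q₀ + 1 := by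
  classical
  have hrp : r.Prime := Fact.out
  obtain ⟨P, hP⟩ := hconj
  rw [Subgroup.mem_comap] at hP
  obtain ⟨c, Y₀, hc0, hY⟩ :=
    Cfsg.Agent.Lib.Helper47.exists_of_mem_subfieldSubgroup_one F₀ _ hP
  rw [Matrix.SpecialLinearGroup.coe_GL_coe_matrix] at hY
  have hω0 : ω ≠ 0 := by
    rintro rfl
    rw [zero_pow hrp.ne_zero] at hω
    exact zero_ne_one hω
  have hq₀pos : 0 < q₀ := by
    rw [← hF₀]
    exact Nat.card_pos
  -- trace
  have htr : ω + ω⁻¹ = c * ((Y₀.trace : ↥F₀) : F) := by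
    have h1 : Matrix.trace ((P⁻¹ * x * P : Matrix.SpecialLinearGroup (Fin 2) F) :
        Matrix (Fin 2) (Fin 2) F) = ω + ω⁻¹ := by
      rw [Matrix.SpecialLinearGroup.coe_mul, Matrix.SpecialLinearGroup.coe_mul,
        Matrix.trace_mul_comm, ← Matrix.mul_assoc, ← Matrix.SpecialLinearGroup.coe_mul,
        mul_inv_cancel, Matrix.SpecialLinearGroup.coe_one, Matrix.one_mul, hx]
      simp [Matrix.trace, Fin.sum_univ_two]
    rw [hY, Matrix.trace_smul] at h1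
    rw [← h1, smul_eq_mul]
    congr 1
  -- determinant
  have hdet : (1 : F) = c ^ 2 * ((Y₀.det : ↥F₀) : F) := by
    have h1 : Matrix.det ((P⁻¹ * x * P : Matrix.SpecialLinearGroup (Fin 2) F) :
        Matrix (Fin 2) (Fin 2) F) = 1 := (P⁻¹ * x * P).det_coe
    rw [hY, Matrix.det_smul] at h1
    rw [← h1]
    simp only [Fintype.card_fin]
    congr 1
  set T : ↥F₀ := Y₀.trace with hT
  set D : ↥F₀ := Y₀.det with hD
  have hD0 : D ≠ 0 := by
    intro h
    rw [h] at hdet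
    simp at hdet
  -- (ω + ω⁻¹)² ∈ F₀
  have hmem : ω ^ 2 + (ω⁻¹) ^ 2 = ((T ^ 2 * D⁻¹ - 1 - 1 : ↥F₀) : F) := by
    have hDF : (D : F) ≠ 0 := by
      intro h
      apply hD0
      exact_mod_cast h
    push_cast
    field_simp
    have e1 : (ω + ω⁻¹) ^ 2 * (D : F) = (T : F) ^ 2 := by
      rw [htr]
      have : (c * (T : F)) ^ 2 * (D : F) = (c ^ 2 * (D : F)) * (T : F) ^ 2 := by ring
      rw [this, ← hdet, one_mul]
    have e2 : (ω + ω⁻¹) ^ 2 = ω ^ 2 + (ω⁻¹) ^ 2 + 2 := by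
      field_simp
      ring
    rw [e2] at e1
    field_simp at e1
    linear_combination e1
  -- apply Frobenius
  have hfix : (ω ^ 2 + (ω⁻¹) ^ 2) ^ q₀ = ω ^ 2 + (ω⁻¹) ^ 2 := by
    rw [hmem]
    exact badn2_pow_card F₀ hF₀ _
  rw [badn2_add_pow F₀ hF₀] at hfix
  set s : F := ω ^ (2 * q₀) with hs
  have hs0 : s ≠ 0 := pow_ne_zero _ hω0
  have h1 : (ω ^ 2) ^ q₀ = s := by rw [hs, pow_mul]
  have h2 : ((ω⁻¹) ^ 2) ^ q₀ = s⁻¹ := by rw [hs, pow_mul, inv_pow, inv_pow]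
  rw [h1, h2] at hfix
  have hprod : (s - ω ^ 2) * (s * ω ^ 2 - 1) = 0 := by
    have : s + s⁻¹ = ω ^ 2 + (ω⁻¹) ^ 2 := hfix
    field_simp at this
    linear_combination this
  have hord : orderOf ω = r := by
    have hdvd : orderOf ω ∣ r := orderOf_dvd_of_pow_eq_one hω
    rcases (Nat.dvd_prime hrp).mp hdvd with h | h
    · exact absurd (orderOf_eq_one_iff.mp h) hω1
    · exact h
  have hcop : Nat.Coprime r 2 := by
    rw [Nat.coprime_primes hrp Nat.prime_two]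
    exact hr2
  rcases mul_eq_zero.mp hprod with h | h
  · left
    -- ω^(2 q₀) = ω^2
    have h3 : ω ^ (2 * (q₀ - 1)) = 1 := by
      have : ω ^ (2 * (q₀ - 1)) * ω ^ 2 = ω ^ 2 := by
        rw [← pow_add]
        have : 2 * (q₀ - 1) + 2 = 2 * q₀ := by omega
        rw [this]
        exact sub_eq_zero.mp h
      have hne : ω ^ 2 ≠ 0 := pow_ne_zero _ hω0
      exact mul_right_cancel₀ hne (by rw [this, one_mul])
    have h4 : r ∣ 2 * (q₀ - 1) := by
      rw [← hord]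
      exact orderOf_dvd_of_pow_eq_one h3
    exact hcop.dvd_of_dvd_mul_left h4
  · right
    have h3 : ω ^ (2 * (q₀ + 1)) = 1 := by
      have : ω ^ (2 * (q₀ + 1)) = s * ω ^ 2 := by
        rw [hs, ← pow_add]
        congr 1
      rw [this]
      exact sub_eq_zero.mp h
    have h4 : r ∣ 2 * (q₀ + 1) := by
      rw [← hord]
      exact orderOf_dvd_of_pow_eq_one h3
    exact hcop.dvd_of_dvd_mul_left h4

end Cfsg.Agent.Lib.Helper30.Sf
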