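import Mathlib
import Cfsg.Agent.Lib.Helper91.SuU

/-!
# S5172 piece EP3: the opposite long root element `uzz i₀ b` normalizes `P`
(even unitary case; adapted from the symplectic piece `Helper64.SpP3`)
-/

set_option autoImplicit false

namespace Cfsg.Agent.Lib.Helper30.SuEP3

open Matrix Cfsg.Agent.Lib.Helper91.SpU Cfsg.Agent.Lib.Helper91.SuU

theorem single_mul_entry (m : ℕ) (K : Type*) [Field K] (i₀ : Fin m) (a : K)
    (M : Matrix (Fin m) (Fin m) K) (r s : Fin m) :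
    (Matrix.single i₀ i₀ a * M) r s = if r = i₀ then a * M i₀ s else 0 := by
  by_cases hr : r = i₀
  · rw [if_pos hr, hr]
    exact Matrix.single_mul_apply_same a i₀ i₀ s M
  · rw [if_neg hr]
    exact Matrix.single_mul_apply_of_ne a i₀ i₀ r s hr M

theorem mul_single_entry (m : ℕ) (K : Type*) [Field K] (i₀ : Fin m) (c : K)
    (M : Matrix (Fin m) (Fin m) K) (r s : Fin m) :
    (M * Matrix.single i₀ i₀ c) r s = if s = i₀ then M r i₀ * c else 0 := by
  by_cases hs : s = i₀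
  · rw [if_pos hs, hs]
    exact Matrix.mul_single_apply_same c i₀ i₀ r M
  · rw [if_neg hs]
    exact Matrix.mul_single_apply_of_ne c i₀ i₀ r s hs M

/-- block shape of an element with `InU` -/
theorem mat_of_inU (l : ℕ) (K : Type*) [Field K] (σ : K →+* K) (g : GU l K σ)
    (hg : InU l K σ g) :
    mat l K σ g = fromBlocks (mat l K σ g).toBlocks₁₁ (mat l K σ g).toBlocks₁₂ 0
      (mat l K σ g).toBlocks₂₂ := by
  have h := Matrix.fromBlocks_toBlocks (mat l K σ g)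
  rw [hg.1] at h
  exact h.symm

/-- `Aᵀ * σ(D) = 1` for a block upper triangular unitary matrix -/
theorem block_unitary (l : ℕ) (K : Type*) [Field K] (σ : K →+* K)
    (A B D : Matrix (Fin l) (Fin l) K)
    (h : (fromBlocks A B 0 D)ᵀ * JJ l K * (fromBlocks A B 0 D).map σ = JJ l K) :
    Aᵀ * D.map σ = 1 := by
  rw [Matrix.fromBlocks_transpose, Matrix.fromBlocks_map, JJ, Matrix.fromBlocks_multiply,
    Matrix.fromBlocks_multiply] at h
  have h2 := congrArg Matrix.toBlocks₁₂ h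
  simpa using h2

/-- `Aᵀ * σ(D) = 1` for an element with `InU` -/
theorem transpose_mul_of_inU (l : ℕ) (K : Type*) [Field K] (σ : K →+* K) (g : GU l K σ)
    (hg : InU l K σ g) :
    (mat l K σ g).toBlocks₁₁ᵀ * (mat l K σ g).toBlocks₂₂.map σ = 1 := by
  have h := mat_mem l K σ g
  have he := mat_of_inU l K σ g hg
  obtain ⟨A, hAdef⟩ : ∃ A, A = (mat l K σ g).toBlocks₁₁ := ⟨_, rfl⟩
  obtain ⟨B, hBdef⟩ : ∃ B, B = (mat l K σ g).toBlocks₁₂ := ⟨_, rfl⟩
  obtain ⟨D, hDdef⟩ : ∃ D, D = (mat l K σ g).toBlocks₂₂ := ⟨_, rfl⟩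
  rw [← hAdef, ← hBdef, ← hDdef] at he
  rw [← hAdef, ← hDdef]
  rw [he] at h
  exact block_unitary l K σ A B D h

/-- the last row of an upper unitriangular matrix -/
theorem row_last (m : ℕ) (K : Type*) [Field K] (i₀ : Fin m) (hi₀ : (i₀ : ℕ) + 1 = m)
    (A : Matrix (Fin m) (Fin m) K) (hA : IsUT m K A) (k : Fin m) :
    A i₀ k = if k = i₀ then 1 else 0 := by
  by_cases hk : k = i₀
  · rw [if_pos hk, hk]
    exact hA.2 i₀
  · rw [if_neg hk]
    apply hA.1
    have hk' := k.2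
    have hne : (k : ℕ) ≠ (i₀ : ℕ) := fun h => hk (Fin.ext h)
    rw [Fin.lt_def]
    omega

/-- the last column of the `D`-block of an element with `InU` -/
theorem col_last (l : ℕ) (K : Type*) [Field K] (σ : K →+* K) (hσ : ∀ x, σ (σ x) = x)
    (i₀ : Fin l) (hi₀ : (i₀ : ℕ) + 1 = l) (g : GU l K σ) (hg : InU l K σ g) (k : Fin l) :
    (mat l K σ g).toBlocks₂₂ k i₀ = if k = i₀ then 1 else 0 := by
  have h1 : (mat l K σ g).toBlocks₂₂.map σ * (mat l K σ g).toBlocks₁₁ᵀ = 1 :=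
    _root_.mul_eq_one_comm.1 (transpose_mul_of_inU l K σ g hg)
  have h2 := congrFun (congrFun h1 k) i₀
  rw [Matrix.mul_apply] at h2
  have h3 : ∀ j : Fin l, ((mat l K σ g).toBlocks₂₂.map σ) k j * (mat l K σ g).toBlocks₁₁ᵀ j i₀
      = if j = i₀ then σ ((mat l K σ g).toBlocks₂₂ k i₀) else 0 := by
    intro j
    rw [Matrix.transpose_apply, row_last l K i₀ hi₀ _ hg.2 j, Matrix.map_apply]
    by_cases hj : j = i₀
    · rw [if_pos hj, if_pos hj, mul_one, hj]
    · rw [if_neg hj, if_neg hj, mul_zero]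
  rw [Finset.sum_congr rfl (fun j _ => h3 j), Finset.sum_ite_eq' Finset.univ i₀,
    if_pos (Finset.mem_univ _)] at h2
  have h4 : (mat l K σ g).toBlocks₂₂ k i₀ = σ ((1 : Matrix (Fin l) (Fin l) K) k i₀) := by
    rw [← h2, hσ]
  rw [h4, Matrix.one_apply]
  split_ifs
  · exact map_one σ
  · exact map_zero σ

/-- PIECE EP3 -/
theorem uzz_normalizes (l : ℕ) (K : Type*) [Field K] (σ : K →+* K) (hσ : ∀ x, σ (σ x) = x)
    (U : Subgroup (GU l K σ)) (hU : ∀ g, g ∈ U ↔ InU l K σ g)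
    (i₀ : Fin l) (hi₀ : (i₀ : ℕ) + 1 = l) (P : Subgroup (GU l K σ))
    (hP : ∀ g, g ∈ P ↔ g ∈ U ∧ (mat l K σ g).toBlocks₁₂ i₀ i₀ = 0) (b : K) (hb : σ b = -b)
    (x : GU l K σ) (hx : x ∈ P) :
    uzz l K σ i₀ b hb * x * (uzz l K σ i₀ b hb)⁻¹ ∈ P := by
  have hxU : InU l K σ x := (hU x).1 ((hP x).1 hx).1
  have hx0 : (mat l K σ x).toBlocks₁₂ i₀ i₀ = 0 := ((hP x).1 hx).2
  have hrow := row_last l K i₀ hi₀ _ hxU.2
  have hcol := col_last l K σ hσ i₀ hi₀ x hxU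
  have hUT := hxU.2
  have hxe := mat_of_inU l K σ x hxU
  obtain ⟨A, hAdef⟩ : ∃ A, A = (mat l K σ x).toBlocks₁₁ := ⟨_, rfl⟩
  obtain ⟨B, hBdef⟩ : ∃ B, B = (mat l K σ x).toBlocks₁₂ := ⟨_, rfl⟩
  obtain ⟨D, hDdef⟩ : ∃ D, D = (mat l K σ x).toBlocks₂₂ := ⟨_, rfl⟩
  rw [← hAdef, ← hBdef, ← hDdef] at hxe
  rw [← hAdef] at hrow hUT
  rw [← hDdef] at hcol
  rw [← hBdef] at hx0
  have hcoe : mat l K σ (uzz l K σ i₀ b hb * x * (uzz l K σ i₀ b hb)⁻¹)
      = fromBlocks (A + B * Matrix.single i₀ i₀ (-b)) B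
          (Matrix.single i₀ i₀ b * A + (Matrix.single i₀ i₀ b * B + D) * Matrix.single i₀ i₀ (-b))
          (Matrix.single i₀ i₀ b * B + D) := by
    rw [uzz_inv, mat_mul, mat_mul, uzz_mat, uzz_mat, hxe, Matrix.fromBlocks_multiply,
      Matrix.fromBlocks_multiply]
    simp only [Matrix.one_mul, Matrix.zero_mul, Matrix.mul_one, Matrix.mul_zero, add_zero,
      zero_add]
  have hlast : ∀ r : Fin l, r ≤ i₀ := by
    intro r
    have := r.2
    rw [Fin.le_def]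
    omega
  rw [hP]
  refine ⟨(hU _).2 ⟨?_, ?_, ?_⟩, ?_⟩
  · rw [hcoe, Matrix.toBlocks_fromBlocks₂₁]
    ext r s
    rw [Matrix.add_apply, Matrix.zero_apply, mul_single_entry, Matrix.add_apply,
      single_mul_entry, single_mul_entry, hrow s, hcol r, hx0]
    split_ifs <;> ring
  · intro r s hsr
    rw [hcoe, Matrix.toBlocks_fromBlocks₁₁, Matrix.add_apply, mul_single_entry]
    have hs : s ≠ i₀ := by
      intro h
      rw [h] at hsr
      exact absurd (hlast r) (not_le.2 hsr)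
    rw [if_neg hs, add_zero]
    exact hUT.1 r s hsr
  · intro r
    rw [hcoe, Matrix.toBlocks_fromBlocks₁₁, Matrix.add_apply, hUT.2 r, mul_single_entry]
    by_cases hr : r = i₀
    · rw [if_pos hr, hr, hx0, zero_mul, add_zero]
    · rw [if_neg hr, add_zero]
  · rw [hcoe, Matrix.toBlocks_fromBlocks₁₂]
    exact hx0

end Cfsg.Agent.Lib.Helper30.SuEP3
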