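import Mathlib
import Cfsg.Agent.Lib.Helper91.SuU

/-!
# S5172 piece ETL: the `SL₂` torus identity for the long root at `i₀`, twisted by a
trace-zero element `ε` (even unitary case; adapted from the symplectic piece `Helper34.SpTL`)
-/

set_option autoImplicit false
set_option linter.unusedSimpArgs false

namespace Cfsg.Agent.Lib.Helper30.SuETL

open Matrix Cfsg.Agent.Lib.Helper91.SpU Cfsg.Agent.Lib.Helper91.SuU

/-- PIECE ETL -/
theorem torus_long (l : ℕ) (K : Type*) [Field K] (σ : K →+* K) (hσ : ∀ x, σ (σ x) = x)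
    (ε : K) (hε0 : ε ≠ 0) (hε : σ ε = -ε) (i₀ : Fin l) (s : K) (hs0 : s ≠ 0) (hs : σ s = s)
    (x : GU l K σ)
    (hx : mat l K σ x = fromBlocks (Matrix.diagonal (fun k => if k = i₀ then s else 1)) 0 0
      (Matrix.diagonal (fun k => if k = i₀ then s⁻¹ else 1))) :
    ∃ (b₁ b₂ b₃ b₄ b₅ b₆ : K) (h₁ : σ b₁ = -b₁) (h₂ : σ b₂ = -b₂) (h₃ : σ b₃ = -b₃)
      (h₄ : σ b₄ = -b₄) (h₅ : σ b₅ = -b₅) (h₆ : σ b₆ = -b₆),
      x = uyy l K σ i₀ b₁ h₁ * uzz l K σ i₀ b₂ h₂ * uyy l K σ i₀ b₃ h₃ * uyy l K σ i₀ b₄ h₄ *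
        uzz l K σ i₀ b₅ h₅ * uyy l K σ i₀ b₆ h₆ := by
  have h₁ : σ (ε * s) = -(ε * s) := by rw [map_mul, hε, hs, neg_mul]
  have h₂ : σ (-(ε * s)⁻¹) = -(-(ε * s)⁻¹) := by rw [map_neg, map_inv₀, h₁, inv_neg]
  have h₄ : σ (-ε) = -(-ε) := by rw [map_neg, hε]
  have h₅ : σ (ε⁻¹) = -ε⁻¹ := by rw [map_inv₀, hε, inv_neg]
  refine ⟨ε * s, -(ε * s)⁻¹, ε * s, -ε, ε⁻¹, -ε, h₁, h₂, h₁, h₄, h₅, h₄, ?_⟩
  apply mat_ext
  rw [hx]
  simp only [mat_mul, uyy_mat, uzz_mat]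
  simp only [Matrix.fromBlocks_multiply, Matrix.mul_one, Matrix.one_mul, Matrix.mul_zero,
    Matrix.zero_mul, add_zero, zero_add, Matrix.mul_add, Matrix.add_mul,
    Matrix.single_mul_single_same]
  rw [Matrix.fromBlocks_inj]
  refine ⟨?_, ?_, ?_, ?_⟩ <;>
  · ext i j
    rcases eq_or_ne i i₀ with rfl | hi <;> rcases eq_or_ne j i with rfl | hj
    · simp [Matrix.single_apply, Matrix.diagonal_apply, Matrix.one_apply]
      field_simp
      ring
    · simp [Matrix.single_apply, Matrix.diagonal_apply, Matrix.one_apply, hj, hj.symm]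
    · simp [Matrix.single_apply, Matrix.diagonal_apply, Matrix.one_apply, hi, hi.symm]
    · simp [Matrix.single_apply, Matrix.diagonal_apply, Matrix.one_apply, hi, hi.symm, hj,
        hj.symm]

end Cfsg.Agent.Lib.Helper30.SuETL
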