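import Cfsg.Agent.Lib.Helper98.T73Defs
import Cfsg.Prelude.Def_GeometricClasses

/-!
# Project T73 (helper98, S5987), piece CPX2M

`x ∈ Ω⁻_{2k+2}(F)` with `x² = -1`, `-1` a nonsquare, `2 ≠ 0`: there are `x`-invariant totally
singular subspaces of every even dimension `m ≤ k`.

The extension argument `W ↦ W + ⟨v, x v⟩` (`v` singular in `W^⊥ \ W`) is proved for an arbitrary
nondegenerate quadratic space (`cpx2m_helper30_all`).
-/

set_option autoImplicit false

namespace Cfsg.Agent.Lib.Helper98.T73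

open Cfsg.Agent.Lib.Helper47 Module Polynomial

universe u

section generic

variable {F : Type u} [Field F] [Fintype F] {V : Type u} [AddCommGroup V] [Module F V]
  [FiniteDimensional F V] {Q : V → F} {B : V → V → F}

omit [Fintype F] [FiniteDimensional F V] in
/-- adding a singular vector orthogonal to a totally singular subspace -/
theorem cpx2m_helper30_ts_ext (hQ : IsQuad Q B) (W : Submodule F V) (hW : ∀ w ∈ W, Q w = 0)
    (z : V) (hz : Q z = 0) (hWz : ∀ w ∈ W, B w z = 0) :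
    ∀ x ∈ W ⊔ Submodule.span F {z}, Q x = 0 := by
  intro x hx
  obtain ⟨w, hw, y, hy, rfl⟩ := Submodule.mem_sup.1 hx
  obtain ⟨c, rfl⟩ := Submodule.mem_span_singleton.1 hy
  rw [hQ.polar, hW w hw, hQ.smul, hz, hQ.form.smul_right, hWz w hw]
  simp

/-- the extension step -/
theorem cpx2m_helper30_step (h2 : (2 : F) ≠ 0) (hns : ¬ IsSquare (-1 : F)) (hQ : IsQuad Q B)
    (hnd : Nondeg B) (g : V →ₗ[F] V) (hg : ∀ v, Q (g v) = Q v) (hg2 : ∀ v, g (g v) = -v)
    (W : Submodule F V) (hW : ∀ w ∈ W, Q w = 0) (hWg : W.map g ≤ W)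
    (hdim : 2 * finrank F W + 3 ≤ finrank F V) :
    ∃ W' : Submodule F V, finrank F W' = finrank F W + 2 ∧ (∀ w ∈ W', Q w = 0) ∧
      W'.map g ≤ W' := by
  classical
  have hB := hQ.form
  have hsymm : ∀ x y, B y x = B x y := by
    intro x y
    have h := hB.symm x y
    simpa using h
  let Bf : LinearMap.BilinForm F V := LinearMap.mk₂ F B hB.add_left
    (fun c x y => by rw [hB.smul_left, smul_eq_mul])
    hB.add_right
    (fun c x y => by rw [hB.smul_right, smul_eq_mul]; rfl)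
  have hBf : ∀ x y, Bf x y = B x y := fun x y => rfl
  have hrefl : Bf.IsRefl := fun x y h => hB.refl h
  have hortop : Bf.orthogonal ⊤ = ⊥ := by
    rw [eq_bot_iff]
    intro x hx
    rw [Submodule.mem_bot]
    apply hnd x
    intro y
    have h1 : Bf y x = 0 := hx y Submodule.mem_top
    rw [hBf] at h1
    exact (hsymm y x).trans h1
  have hsum : finrank F W + finrank F (Bf.orthogonal W) = finrank F V := by
    have h := LinearMap.BilinForm.finrank_add_finrank_orthogonal hrefl W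
    rw [hortop, inf_bot_eq, finrank_bot, add_zero] at h
    exact h
  obtain ⟨U', hc⟩ := Submodule.exists_isCompl W
  have hU' : finrank F W + finrank F U' = finrank F V := Submodule.finrank_add_eq_of_isCompl hc
  have hU3 : 3 ≤ finrank F (U' ⊓ Bf.orthogonal W : Submodule F V) := by
    have h1 := Submodule.finrank_sup_add_finrank_inf_eq U' (Bf.orthogonal W)
    have h2' : finrank F (U' ⊔ Bf.orthogonal W : Submodule F V) ≤ finrank F V :=
      Submodule.finrank_le _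
    omega
  obtain ⟨u, hu0, hQu⟩ :=
    Cfsg.Agent.Lib.Helper63.exists_singular (hQ.res (U' ⊓ Bf.orthogonal W)) hU3
  have hQv : Q (u : V) = 0 := hQu
  have hvU' : (u : V) ∈ U' := u.2.1
  have hvorth : (u : V) ∈ Bf.orthogonal W := u.2.2
  have hv0 : (u : V) ≠ 0 := fun h => hu0 (Subtype.ext h)
  have hvW : (u : V) ∉ W := by
    intro h
    have h1 : (u : V) ∈ W ⊓ U' := ⟨h, hvU'⟩
    rw [hc.inf_eq_bot] at h1
    exact hv0 ((Submodule.mem_bot F).1 h1)
  have hBv : ∀ w ∈ W, B w (u : V) = 0 := fun w hw => hvorth w hw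
  have hiso : ∀ x y, B (g x) (g y) = B x y := fun x y => hQ.isometry hQ g hg x y
  have hBgv : ∀ w ∈ W, B w (g (u : V)) = 0 := by
    intro w hw
    have hgw : g w ∈ W := hWg ⟨w, hw, rfl⟩
    have h1 : B (g (-(g w))) (g (u : V)) = B (-(g w)) (u : V) := hiso _ _
    rw [map_neg, hg2, neg_neg] at h1
    rw [h1]
    exact hBv _ (W.neg_mem hgw)
  have hBvgv : B (u : V) (g (u : V)) = 0 := by
    have h1 := hiso (u : V) (g (u : V))
    rw [hg2, hB.neg_right] at h1
    have h4 := hsymm (u : V) (g (u : V))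
    have h3 : (2 : F) * B (u : V) (g (u : V)) = 0 := by
      linear_combination (-1 : F) * h1 - h4
    exact (mul_eq_zero.1 h3).resolve_left h2
  have hTS1 := cpx2m_helper30_ts_ext hQ W hW (u : V) hQv hBv
  have hBgv1 : ∀ w ∈ W ⊔ Submodule.span F {(u : V)}, B w (g (u : V)) = 0 := by
    intro x hx
    obtain ⟨w, hw, y, hy, rfl⟩ := Submodule.mem_sup.1 hx
    obtain ⟨c, rfl⟩ := Submodule.mem_span_singleton.1 hy
    rw [hB.add_left, hB.smul_left, hBgv w hw, hBvgv]
    simp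
  have hTS2 := cpx2m_helper30_ts_ext hQ _ hTS1 (g (u : V)) (by rw [hg]; exact hQv) hBgv1
  have hgv : g (u : V) ∉ W ⊔ Submodule.span F {(u : V)} := by
    intro hx
    obtain ⟨w, hw, y, hy, hsum'⟩ := Submodule.mem_sup.1 hx
    obtain ⟨c, rfl⟩ := Submodule.mem_span_singleton.1 hy
    have h1 : g (w + c • (u : V)) = -(u : V) := by rw [hsum', hg2]
    rw [map_add, map_smul, ← hsum'] at h1
    have hc1 : (1 + c ^ 2) ≠ 0 := by
      intro h
      apply hns
      exact ⟨c, by linear_combination (-1 : F) * h⟩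
    have hmem : (1 + c ^ 2) • (u : V) ∈ W := by
      have e : (1 + c ^ 2) • (u : V) = -(g w + c • w) := by
        linear_combination (norm := module) h1
      rw [e]
      exact W.neg_mem (W.add_mem (hWg ⟨w, hw, rfl⟩) (W.smul_mem c hw))
    exact hvW ((Submodule.smul_mem_iff _ hc1).1 hmem)
  have hd1 : finrank F (W ⊔ Submodule.span F {(u : V)} : Submodule F V) = finrank F W + 1 :=
    Submodule.finrank_sup_span_singleton hvW
  have hd2 : finrank F (W ⊔ Submodule.span F {(u : V)} ⊔ Submodule.span F {g (u : V)} :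
      Submodule F V) = finrank F W + 2 := by
    rw [Submodule.finrank_sup_span_singleton hgv, hd1]
  refine ⟨W ⊔ Submodule.span F {(u : V)} ⊔ Submodule.span F {g (u : V)}, hd2, hTS2, ?_⟩
  rw [Submodule.map_le_iff_le_comap]
  refine sup_le (sup_le ?_ ?_) ?_
  · intro w hw
    exact Submodule.mem_sup_left (Submodule.mem_sup_left (hWg ⟨w, hw, rfl⟩))
  · rw [Submodule.span_singleton_le_iff_mem, Submodule.mem_comap]
    exact Submodule.mem_sup_right (Submodule.mem_span_singleton_self _)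
  · rw [Submodule.span_singleton_le_iff_mem, Submodule.mem_comap, hg2]
    exact Submodule.neg_mem _ (Submodule.mem_sup_left (Submodule.mem_sup_right
      (Submodule.mem_span_singleton_self _)))

/-- invariant totally singular subspaces of every even dimension `2j` with `4j ≤ dim V + 1` -/
theorem cpx2m_helper30_all (h2 : (2 : F) ≠ 0) (hns : ¬ IsSquare (-1 : F)) (hQ : IsQuad Q B)
    (hnd : Nondeg B) (g : V →ₗ[F] V) (hg : ∀ v, Q (g v) = Q v) (hg2 : ∀ v, g (g v) = -v)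
    (j : ℕ) (hj : 2 * (2 * j) ≤ finrank F V + 1) :
    ∃ W : Submodule F V, finrank F W = 2 * j ∧ (∀ w ∈ W, Q w = 0) ∧ W.map g ≤ W := by
  induction j with
  | zero =>
    refine ⟨⊥, by simp, fun w hw => ?_, by simp⟩
    rw [(Submodule.mem_bot F).1 hw]
    exact hQ.map_zero
  | succ j ih =>
    obtain ⟨W, hWd, hW, hWg⟩ := ih (by omega)
    obtain ⟨W', hd, hTS, hinv⟩ :=
      cpx2m_helper30_step h2 hns hQ hnd g hg hg2 W hW hWg (by omega)
    exact ⟨W', by omega, hTS, hinv⟩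

end generic

variable {F : Type u} [Field F] [Fintype F]

/-- CPX2M -/
theorem cpx_fix_even_minus (h2 : (2 : F) ≠ 0) (hns : ¬ IsSquare (-1 : F)) (k m : ℕ) (a b : F)
    (hab : ∀ x y : F, x ^ 2 + a * x * y + b * y ^ 2 = 0 → x = 0 ∧ y = 0) (hme : Even m)
    (hm : m ≤ k) (x : GL ((Fin k ⊕ Fin k) ⊕ Fin 2) F)
    (hx : x ∈ Cfsg.Geo.omegaGL (Cfsg.quadFormMinus k F a b))
    (hx2 : (x : Matrix ((Fin k ⊕ Fin k) ⊕ Fin 2) ((Fin k ⊕ Fin k) ⊕ Fin 2) F)
        * (x : Matrix ((Fin k ⊕ Fin k) ⊕ Fin 2) ((Fin k ⊕ Fin k) ⊕ Fin 2) F)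
      = (-1 : F) • (1 : Matrix ((Fin k ⊕ Fin k) ⊕ Fin 2) ((Fin k ⊕ Fin k) ⊕ Fin 2) F)) :
    ∃ W : Submodule F ((Fin k ⊕ Fin k) ⊕ Fin 2 → F), finrank F W = m ∧
      (∀ w ∈ W, Cfsg.quadFormMinus k F a b w = 0) ∧
      W.map (Matrix.toLin' (x : Matrix ((Fin k ⊕ Fin k) ⊕ Fin 2) ((Fin k ⊕ Fin k) ⊕ Fin 2) F))
        ≤ W := by
  have hiso : ∀ v, Cfsg.quadFormMinus k F a b
      ((x : Matrix ((Fin k ⊕ Fin k) ⊕ Fin 2) ((Fin k ⊕ Fin k) ⊕ Fin 2) F).mulVec v) =
      Cfsg.quadFormMinus k F a b v := by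
    obtain ⟨g, -, hgx⟩ := hx
    intro v
    rw [← hgx]
    exact g.2 v v
  have hAA : ∀ v : (Fin k ⊕ Fin k) ⊕ Fin 2 → F,
      (x : Matrix ((Fin k ⊕ Fin k) ⊕ Fin 2) ((Fin k ⊕ Fin k) ⊕ Fin 2) F).mulVec
        ((x : Matrix ((Fin k ⊕ Fin k) ⊕ Fin 2) ((Fin k ⊕ Fin k) ⊕ Fin 2) F).mulVec v) = -v := by
    intro v
    rw [Matrix.mulVec_mulVec, hx2, Matrix.smul_mulVec, Matrix.one_mulVec, neg_one_smul]
  obtain ⟨j, hj⟩ := hme
  have hfin : finrank F ((Fin k ⊕ Fin k) ⊕ Fin 2 → F) = 2 * k + 2 := by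
    rw [Module.finrank_fintype_fun_eq_card, Fintype.card_sum, Fintype.card_sum, Fintype.card_fin,
      Fintype.card_fin]
    ring
  obtain ⟨W, hWd, hW, hWg⟩ := cpx2m_helper30_all h2 hns
    (Cfsg.Agent.Lib.Helper66.QuadSTD.quadFormMinus_isQuad k a b)
    (Cfsg.Agent.Lib.Helper66.QuadSTD.minusB_nondeg k a b hab)
    (Matrix.toLin' (x : Matrix ((Fin k ⊕ Fin k) ⊕ Fin 2) ((Fin k ⊕ Fin k) ⊕ Fin 2) F))
    (fun v => by rw [Matrix.toLin'_apply]; exact hiso v)
    (fun v => by rw [Matrix.toLin'_apply, Matrix.toLin'_apply]; exact hAA v) j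
    (by rw [hfin]; omega)
  exact ⟨W, by rw [hWd, hj]; ring, hW, hWg⟩

end Cfsg.Agent.Lib.Helper98.T73
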