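import Mathlib
import Cfsg.Prelude.Def_GeometricClasses
import Cfsg.Prelude.Def_LieClassical
import Cfsg.Agent.Lib.Helper71.Asch0
import Cfsg.Agent.Lib.Helper71.Asch5
import Cfsg.Agent.Lib.Helper71.Asch8

/-! Project SPG (helper71), sub-project TIF, piece `T2c`: the `i`-slices of a matrix invariant
under `iota i A` are invariant under `A`. -/

set_option autoImplicit false

namespace Cfsg.Agent.Lib.Helper30.TIFT2c

open Matrix Cfsg.Geo Cfsg.Agent.Lib.Helper71.Asch

variable {n : ℕ} {F : Type*} [Field F] [Fintype F]

omit [Fintype F] in
/-- summing over the functions that agree with `a` off `i` -/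
theorem T2c_slice_sum {m k : ℕ} (i : Fin k) (a : Fin k → Fin m) (f : (Fin k → Fin m) → F) :
    ∑ c : Fin k → Fin m, (if ∀ j, j ≠ i → c j = a j then f c else 0) =
      ∑ u' : Fin m, f (Function.update a i u') := by
  classical
  rw [← Finset.sum_filter]
  have himg : Finset.univ.filter (fun c : Fin k → Fin m => ∀ j, j ≠ i → c j = a j) =
      Finset.univ.image (Function.update a i) := by
    ext c
    simp only [Finset.mem_filter, Finset.mem_univ, true_and, Finset.mem_image]
    constructor
    · intro hc
      refine ⟨c i, ?_⟩
      funext j
      by_cases hj : j = i
      · subst hj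
        simp
      · rw [Function.update_of_ne hj]
        exact (hc j hj).symm
    · rintro ⟨u', rfl⟩ j hj
      exact Function.update_of_ne hj _ _
  rw [himg, Finset.sum_image]
  intro x _ y _ hxy
  exact Function.update_injective a i hxy

/-- T2c: the `i`-slices of a matrix invariant under `iota i A` are invariant under `A`. -/
theorem T2c {m k : ℕ} (i : Fin k) (A : Matrix (Fin m) (Fin m) F)
    (G : Matrix (Fin k → Fin m) (Fin k → Fin m) F) (a b : Fin k → Fin m)
    (h : (iota i A)ᵀ * G * iota i A = G) :
    Aᵀ * (Matrix.of fun u v => G (Function.update a i u) (Function.update b i v)) * A =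
      Matrix.of fun u v => G (Function.update a i u) (Function.update b i v) := by
  classical
  ext u v
  have h1 := congrFun (congrFun h (Function.update a i u)) (Function.update b i v)
  rw [Matrix.of_apply, ← h1]
  rw [Matrix.mul_apply, Matrix.mul_apply]
  have hx : ∀ d : Fin k → Fin m,
      ((iota i A)ᵀ * G) (Function.update a i u) d =
        ∑ u' : Fin m, A u' u * G (Function.update a i u') d := by
    intro d
    rw [Matrix.mul_apply]
    have h2 := T2c_slice_sum i (Function.update a i u)
      (fun c => A (c i) u * G c d)
    calc ∑ c, (iota i A)ᵀ (Function.update a i u) c * G c d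
        = ∑ c : Fin k → Fin m, (if ∀ j, j ≠ i → c j = Function.update a i u j
            then A (c i) u * G c d else 0) := by
          apply Finset.sum_congr rfl
          intro c _
          rw [Matrix.transpose_apply, iota_apply, ite_mul, zero_mul, Function.update_self]
      _ = ∑ u' : Fin m, A (Function.update (Function.update a i u) i u' i) u *
            G (Function.update (Function.update a i u) i u') d := h2
      _ = ∑ u' : Fin m, A u' u * G (Function.update a i u') d := by
          apply Finset.sum_congr rfl
          intro u' _
          rw [Function.update_idem, Function.update_self]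
  have hy : ∀ g : (Fin k → Fin m) → F,
      ∑ d, g d * iota i A d (Function.update b i v) =
        ∑ v' : Fin m, g (Function.update b i v') * A v' v := by
    intro g
    have h2 := T2c_slice_sum i (Function.update b i v) (fun d => g d * A (d i) v)
    calc ∑ d, g d * iota i A d (Function.update b i v)
        = ∑ d : Fin k → Fin m, (if ∀ j, j ≠ i → d j = Function.update b i v j
            then g d * A (d i) v else 0) := by
          apply Finset.sum_congr rfl
          intro d _
          rw [iota_apply, mul_ite, mul_zero, Function.update_self]
      _ = ∑ v' : Fin m, g (Function.update (Function.update b i v) i v') *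
            A (Function.update (Function.update b i v) i v' i) v := h2
      _ = ∑ v' : Fin m, g (Function.update b i v') * A v' v := by
          apply Finset.sum_congr rfl
          intro v' _
          rw [Function.update_idem, Function.update_self]
  rw [hy]
  apply Finset.sum_congr rfl
  intro v' _
  rw [hx, Matrix.mul_apply]
  congr 1

end Cfsg.Agent.Lib.Helper30.TIFT2c
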