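import Mathlib
import Cfsg.Agent.S0058
import Cfsg.Agent.Lib.Helper59.Replace

/-!
# S1402 piece U95-J4 (`gen3`)

`E` elementary abelian of order `p ^ 3` acting coprimely on `X`: then `X` is generated by the
`C_X(D)`, `D ≤ E` of order `p ^ 2`.  From the landed S0058.
-/

set_option autoImplicit false
open Cfsg
open scoped commutatorElement

namespace Cfsg.Agent.Lib.Helper30.U95

universe u
variable {G : Type u} [Group G] [Finite G]

omit [Finite G] in
/-- In a group, if `x ≠ 1` is a power of `y` and `y ^ p = 1`, then `y` is a power of `x`. -/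
theorem j4_mem_zpowers_symm {p : ℕ} [Fact p.Prime] {x y : G} (hy : y ^ p = 1)
    (hx : x ∈ Subgroup.zpowers y) (hx1 : x ≠ 1) : y ∈ Subgroup.zpowers x := by
  obtain ⟨k, rfl⟩ := Subgroup.mem_zpowers_iff.mp hx
  have hp : p.Prime := Fact.out
  have hndvd : ¬ (p : ℤ) ∣ k := by
    rintro ⟨m, rfl⟩
    apply hx1
    rw [zpow_mul, zpow_natCast, hy, one_zpow]
  have hcop : IsCoprime (p : ℤ) k :=
    (Nat.prime_iff_prime_int.mp hp).coprime_iff_not_dvd.mpr hndvd
  obtain ⟨a, b, hab⟩ := hcop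
  refine Subgroup.mem_zpowers_iff.mpr ⟨b, ?_⟩
  have h1 : y ^ (a * (p : ℤ) + b * k) = (y ^ k) ^ b := by
    rw [zpow_add, mul_comm a, zpow_mul, zpow_natCast, hy, one_zpow, one_mul, mul_comm b, zpow_mul]
  rw [← h1, hab, zpow_one]

omit [Finite G] in
theorem j4_comm_le_normalizer {a b : G} (hc : a * b = b * a) :
    Subgroup.zpowers a ≤ Subgroup.normalizer (Subgroup.zpowers b : Set G) := by
  refine le_trans ?_ (Subgroup.centralizer_le_normalizer _)
  rw [Subgroup.zpowers_le, Subgroup.mem_centralizer_iff]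
  intro x hx
  obtain ⟨k, rfl⟩ := Subgroup.mem_zpowers_iff.mp hx
  exact (Commute.zpow_left (show Commute b a from hc.symm) k).eq

omit [Finite G] in
theorem j4_mem_sup {a b x : G} (hc : a * b = b * a)
    (hx : x ∈ Subgroup.zpowers a ⊔ Subgroup.zpowers b) : ∃ i j : ℤ, x = a ^ i * b ^ j := by
  have h : x ∈ ((Subgroup.zpowers a ⊔ Subgroup.zpowers b : Subgroup G) : Set G) := hx
  rw [Subgroup.coe_mul_of_left_le_normalizer_right _ _ (j4_comm_le_normalizer hc)] at h
  obtain ⟨u, hu, o, ho, rfl⟩ := Set.mem_mul.mp h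
  obtain ⟨i, rfl⟩ := Subgroup.mem_zpowers_iff.mp hu
  obtain ⟨j, rfl⟩ := Subgroup.mem_zpowers_iff.mp ho
  exact ⟨i, j, rfl⟩

theorem j4_not_cyclic {p : ℕ} [Fact p.Prime] {A : Subgroup G} (hexp : ∀ a ∈ A, a ^ p = 1)
    (hcard : p < Nat.card A) : ¬ IsCyclic ↥A := by
  intro hc
  obtain ⟨t, ht⟩ := hc.exists_generator
  have h1 : orderOf t = Nat.card A := orderOf_eq_card_of_forall_mem_zpowers ht
  have h2 : orderOf t ∣ p :=
    orderOf_dvd_of_pow_eq_one (Subtype.ext (by simpa using hexp t t.2))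
  have := Nat.le_of_dvd (Fact.out : p.Prime).pos h2
  omega

theorem j4_card_zpowers {p : ℕ} [Fact p.Prime] {x : G} (hx : x ^ p = 1) (hx1 : x ≠ 1) :
    Nat.card (Subgroup.zpowers x) = p := by
  rw [Nat.card_zpowers]; exact orderOf_eq_prime hx hx1

/-- **U95-J4**. -/
theorem gen3 {p : ℕ} [Fact p.Prime] {E X : Subgroup G}
    (hEc : ∀ a ∈ E, ∀ b ∈ E, a * b = b * a) (hEe : ∀ a ∈ E, a ^ p = 1)
    (hEcard : Nat.card E = p ^ 3) (hEX : E ≤ Subgroup.normalizer (X : Set G))
    (hcop : (Nat.card X).Coprime p) :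
    X ≤ ⨆ D ∈ {D : Subgroup G | D ≤ E ∧ Nat.card D = p ^ 2},
      X ⊓ Subgroup.centralizer (D : Set G) := by
  have hp : p.Prime := Fact.out
  have hp1 : 1 < p := hp.one_lt
  have hpp : p * p < p ^ 3 := by
    have : p ^ 3 = p * p * p := by ring
    rw [this]; nlinarith
  haveI : IsMulCommutative ↥E := ⟨⟨fun a b => Subtype.ext (hEc a a.2 b b.2)⟩⟩
  have hEnc : ¬ IsCyclic ↥E := j4_not_cyclic hEe (by rw [hEcard]; nlinarith)
  have hcopE : (Nat.card E).Coprime (Nat.card X) := by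
    rw [hEcard]; exact Nat.Coprime.pow_left 3 hcop.symm
  have h1 := Cfsg.Agent.S0058.result E X hEnc hEX hcopE
  refine h1.symm.le.trans ?_
  refine iSup₂_le ?_
  rintro e ⟨heE, he1⟩
  have hoe : Nat.card (Subgroup.zpowers e) = p := j4_card_zpowers (hEe e heE) he1
  obtain ⟨g, hgE, hg⟩ : ∃ g ∈ E, g ∉ Subgroup.zpowers e := by
    by_contra hcon
    push Not at hcon
    have hle : E ≤ Subgroup.zpowers e := hcon
    have h3 := Subgroup.card_le_of_le hle
    rw [hEcard, hoe] at h3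
    nlinarith
  have hg1 : g ≠ 1 := fun h => hg (h ▸ Subgroup.one_mem _)
  have hog : Nat.card (Subgroup.zpowers g) = p := j4_card_zpowers (hEe g hgE) hg1
  have hAcard : Nat.card (Subgroup.zpowers e ⊔ Subgroup.zpowers g : Subgroup G) ∣ p * p := by
    have h3 := Cfsg.Agent.Lib.Helper59.card_sup_mul_card_inf (Subgroup.zpowers e)
      (Subgroup.zpowers g) (j4_comm_le_normalizer (hEc g hgE e heE))
    rw [hoe, hog] at h3
    exact Dvd.intro _ h3
  obtain ⟨h, hhE, hh⟩ : ∃ h ∈ E, h ∉ Subgroup.zpowers e ⊔ Subgroup.zpowers g := by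
    by_contra hcon
    push Not at hcon
    have hle : E ≤ Subgroup.zpowers e ⊔ Subgroup.zpowers g := hcon
    have h3 := Subgroup.card_le_of_le hle
    have h4 := Nat.le_of_dvd (by positivity) hAcard
    rw [hEcard] at h3
    omega
  have hE'E : Subgroup.zpowers g ⊔ Subgroup.zpowers h ≤ E :=
    sup_le (Subgroup.zpowers_le.mpr hgE) (Subgroup.zpowers_le.mpr hhE)
  have heE' : e ∉ Subgroup.zpowers g ⊔ Subgroup.zpowers h := by
    intro he
    obtain ⟨i, j, hij⟩ := j4_mem_sup (hEc g hgE h hhE) he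
    by_cases hj : h ^ j = 1
    · rw [hj, mul_one] at hij
      exact hg (j4_mem_zpowers_symm (hEe g hgE) (Subgroup.mem_zpowers_iff.mpr ⟨i, hij.symm⟩) he1)
    · have h5 : h ^ j ∈ Subgroup.zpowers e ⊔ Subgroup.zpowers g := by
        have h6 : h ^ j = (g ^ i)⁻¹ * e := by rw [hij]; group
        rw [h6]
        exact Subgroup.mul_mem _
          (Subgroup.inv_mem _ ((le_sup_right : Subgroup.zpowers g ≤ _)
            (Subgroup.zpow_mem_zpowers g i)))
          ((le_sup_left : Subgroup.zpowers e ≤ _) (Subgroup.mem_zpowers e))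
      have h6 : h ∈ Subgroup.zpowers (h ^ j) :=
        j4_mem_zpowers_symm (hEe h hhE) (Subgroup.mem_zpowers_iff.mpr ⟨j, rfl⟩) hj
      exact hh ((Subgroup.zpowers_le.mpr h5) h6)
  have hE'nc : ¬ IsCyclic ↥(Subgroup.zpowers g ⊔ Subgroup.zpowers h) := by
    apply j4_not_cyclic (p := p) (fun a ha => hEe a (hE'E ha))
    by_contra hle
    push Not at hle
    have h3 : Subgroup.zpowers g = Subgroup.zpowers g ⊔ Subgroup.zpowers h :=
      Subgroup.eq_of_le_of_card_ge le_sup_left (by rw [hog]; exact hle)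
    have h4 : h ∈ Subgroup.zpowers g := by
      rw [h3]; exact (le_sup_right : Subgroup.zpowers h ≤ _) (Subgroup.mem_zpowers h)
    exact hh ((le_sup_right : Subgroup.zpowers g ≤ _) h4)
  have hEXe : E ≤ Subgroup.normalizer ((X ⊓ Subgroup.centralizer {e} : Subgroup G) : Set G) := by
    intro a ha
    apply Cfsg.Agent.Lib.Helper59.conj_mem_imp_mem_normalizer
    intro x hx
    have hx' := Subgroup.mem_inf.mp hx
    refine Subgroup.mem_inf.mpr ⟨(Subgroup.mem_normalizer_iff.mp (hEX ha) x).mp hx'.1, ?_⟩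
    rw [Subgroup.mem_centralizer_iff]
    intro e' he'
    rw [Set.mem_singleton_iff] at he'
    subst he'
    have hxe : e' * x = x * e' := (Subgroup.mem_centralizer_iff.mp hx'.2) e' rfl
    have hae : a * e' = e' * a := hEc a ha e' heE
    have hae' : e' * a⁻¹ = a⁻¹ * e' := (Commute.inv_right (show Commute e' a from hae.symm)).eq
    calc e' * (a * x * a⁻¹) = (e' * a) * x * a⁻¹ := by group
      _ = a * (e' * x) * a⁻¹ := by rw [← hae]; group
      _ = a * x * (e' * a⁻¹) := by rw [hxe]; group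
      _ = a * x * a⁻¹ * e' := by rw [hae']; group
  have hcop' : (Nat.card (Subgroup.zpowers g ⊔ Subgroup.zpowers h : Subgroup G)).Coprime
      (Nat.card (X ⊓ Subgroup.centralizer {e} : Subgroup G)) := by
    have h3 : Nat.card (Subgroup.zpowers g ⊔ Subgroup.zpowers h : Subgroup G) ∣ p ^ 3 :=
      hEcard ▸ Subgroup.card_dvd_of_le hE'E
    have h4 : Nat.card (X ⊓ Subgroup.centralizer {e} : Subgroup G) ∣ Nat.card X :=
      Subgroup.card_dvd_of_le inf_le_left
    exact Nat.Coprime.coprime_dvd_left h3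
      (Nat.Coprime.coprime_dvd_right h4 (Nat.Coprime.pow_left 3 hcop.symm))
  haveI : IsMulCommutative ↥(Subgroup.zpowers g ⊔ Subgroup.zpowers h) :=
    ⟨⟨fun a b => Subtype.ext (hEc a (hE'E a.2) b (hE'E b.2))⟩⟩
  have h2 := Cfsg.Agent.S0058.result (Subgroup.zpowers g ⊔ Subgroup.zpowers h)
    (X ⊓ Subgroup.centralizer {e}) hE'nc (hE'E.trans hEXe) hcop'
  refine h2.symm.le.trans ?_
  refine iSup₂_le ?_
  rintro f ⟨hfE', hf1⟩
  have hfE : f ∈ E := hE'E hfE'
  have hfe : f ∉ Subgroup.zpowers e := fun hfz =>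
    heE' ((Subgroup.zpowers_le.mpr hfE') (j4_mem_zpowers_symm (hEe e heE) hfz hf1))
  have hof : Nat.card (Subgroup.zpowers f) = p := j4_card_zpowers (hEe f hfE) hf1
  have hinf : Subgroup.zpowers e ⊓ Subgroup.zpowers f = ⊥ := by
    rw [eq_bot_iff]
    rintro x ⟨hxe, hxf⟩
    by_contra hx1
    exact hfe ((Subgroup.zpowers_le.mpr hxe) (j4_mem_zpowers_symm (hEe f hfE) hxf hx1))
  have hDE : Subgroup.zpowers e ⊔ Subgroup.zpowers f ≤ E :=
    sup_le (Subgroup.zpowers_le.mpr heE) (Subgroup.zpowers_le.mpr hfE)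
  have hDcard : Nat.card (Subgroup.zpowers e ⊔ Subgroup.zpowers f : Subgroup G) = p ^ 2 := by
    have h3 := Cfsg.Agent.Lib.Helper59.card_sup_mul_card_inf (Subgroup.zpowers e)
      (Subgroup.zpowers f) (j4_comm_le_normalizer (hEc f hfE e heE))
    rw [hinf, Subgroup.card_bot, mul_one, hoe, hof] at h3
    rw [h3, sq]
  refine le_trans ?_ (le_iSup₂ (f := fun (D : Subgroup G)
    (_ : D ∈ {D : Subgroup G | D ≤ E ∧ Nat.card D = p ^ 2}) =>
      X ⊓ Subgroup.centralizer (D : Set G)) (Subgroup.zpowers e ⊔ Subgroup.zpowers f)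
    ⟨hDE, hDcard⟩)
  intro x hx
  obtain ⟨hx0, hxf⟩ := Subgroup.mem_inf.mp hx
  obtain ⟨hxX, hxe⟩ := Subgroup.mem_inf.mp hx0
  refine Subgroup.mem_inf.mpr ⟨hxX, ?_⟩
  have hDle : Subgroup.zpowers e ⊔ Subgroup.zpowers f ≤ Subgroup.centralizer {x} := by
    refine sup_le (Subgroup.zpowers_le.mpr ?_) (Subgroup.zpowers_le.mpr ?_)
    · rw [Subgroup.mem_centralizer_iff]
      intro y hy
      rw [Set.mem_singleton_iff] at hy
      subst hy
      exact ((Subgroup.mem_centralizer_iff.mp hxe) e rfl).symm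
    · rw [Subgroup.mem_centralizer_iff]
      intro y hy
      rw [Set.mem_singleton_iff] at hy
      subst hy
      exact ((Subgroup.mem_centralizer_iff.mp hxf) f rfl).symm
  rw [Subgroup.mem_centralizer_iff]
  intro d hd
  exact ((Subgroup.mem_centralizer_iff.mp (hDle hd)) x rfl).symm

end Cfsg.Agent.Lib.Helper30.U95
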