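import Mathlib
import Cfsg.Agent.Lib.Helper30.U95J4
import Cfsg.Agent.Lib.Helper30.AxB
import Cfsg.Agent.Lib.Helper66.PAct

/-!
# S1402 piece U95-J5 (`omega_lemma`)

`T` an `s`-group (`s` odd) with `Z₁ = Ω₁(Z(T))` cyclic and a normal elementary abelian subgroup
`W₀` of order `s ^ 2`; `E` elementary abelian of order `p ^ 3` (`p ≠ s`) acting on `T` and
centralizing `Z₁`.  Then some `D ≤ E` of order `p ^ 2` centralizes a normal elementary abelian
subgroup `W` of `T` of order `s ^ 2`.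
-/

set_option autoImplicit false
open Cfsg
open scoped commutatorElement

namespace Cfsg.Agent.Lib.Helper30.U95

universe u
variable {G : Type u} [Group G]

/-- Power formula when the commutator `c` of `v` and `u` commutes with both. -/
theorem j5_pow_mul {u v c : G} (hvu : v * u = c * (u * v)) (hcu : Commute c u)
    (hcv : Commute c v) (n : ℕ) : (u * v) ^ n = u ^ n * v ^ n * c ^ (n.choose 2) := by
  have hswap : ∀ n : ℕ, (u * v) ^ (n + 1) = u * (v * u) ^ n * v := by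
    intro n
    induction n with
    | zero => simp
    | succ n ih => rw [pow_succ, ih, pow_succ (v * u)]; simp only [mul_assoc]
  induction n with
  | zero => simp
  | succ n ih =>
    rw [hswap, hvu, (hcu.mul_right hcv).mul_pow, ih]
    have e1 : (n + 1).choose 2 = n + n.choose 2 := by
      rw [Nat.choose_succ_succ' n 1, Nat.choose_one_right]
    have hu' : u ^ (n + 1) = u * u ^ n := pow_succ' u n
    have hv' : v ^ (n + 1) = v ^ n * v := pow_succ v n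
    have hc' : c ^ (n + n.choose 2) = c ^ n * c ^ (n.choose 2) := pow_add c _ _
    rw [e1, hu', hv', hc']
    have hC1u : Commute (c ^ n) (u ^ n) := (hcu.pow_left n).pow_right n
    have hC1v : Commute (c ^ n) (v ^ n) := (hcv.pow_left n).pow_right n
    have hC1v' : Commute (c ^ n) v := hcv.pow_left n
    have hC2v : Commute (c ^ (n.choose 2)) v := hcv.pow_left _
    calc u * (c ^ n * (u ^ n * v ^ n * c ^ (n.choose 2))) * v
        = u * ((c ^ n * u ^ n) * v ^ n * c ^ (n.choose 2)) * v := by simp only [mul_assoc]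
      _ = u * ((u ^ n * c ^ n) * v ^ n * c ^ (n.choose 2)) * v := by rw [hC1u.eq]
      _ = u * (u ^ n * (c ^ n * v ^ n) * c ^ (n.choose 2)) * v := by simp only [mul_assoc]
      _ = u * (u ^ n * (v ^ n * c ^ n) * c ^ (n.choose 2)) * v := by rw [hC1v.eq]
      _ = u * u ^ n * v ^ n * ((c ^ n * c ^ (n.choose 2)) * v) := by simp only [mul_assoc]
      _ = u * u ^ n * v ^ n * (v * (c ^ n * c ^ (n.choose 2))) := by
          rw [(hC1v'.mul_left hC2v).eq]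
      _ = u * u ^ n * (v ^ n * v) * (c ^ n * c ^ (n.choose 2)) := by simp only [mul_assoc]

/-- The subgroup `Ω = {u ∈ T | u ^ s = 1, [u, T] ⊆ Z₁}` (`Z₁` central in `T` of exponent `s`,
`s` an odd prime). -/
def j5Omega (s : ℕ) (T Z₁ : Subgroup G) (hs : s.Prime) (hs2 : s ≠ 2)
    (hcent : ∀ z ∈ Z₁, ∀ t ∈ T, t * z = z * t) (hexp : ∀ z ∈ Z₁, z ^ s = 1) : Subgroup G where
  carrier := {u | u ∈ T ∧ u ^ s = 1 ∧ ∀ g ∈ T, u * g * u⁻¹ * g⁻¹ ∈ Z₁}
  one_mem' := ⟨T.one_mem, one_pow s, fun g _ => by simp⟩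
  mul_mem' := by
    rintro u v ⟨huT, hus, huZ⟩ ⟨hvT, hvs, hvZ⟩
    refine ⟨T.mul_mem huT hvT, ?_, ?_⟩
    · have hc := hvZ u huT
      have hvu : v * u = (v * u * v⁻¹ * u⁻¹) * (u * v) := by group
      have hcu : Commute (v * u * v⁻¹ * u⁻¹) u := (hcent _ hc u huT).symm
      have hcv : Commute (v * u * v⁻¹ * u⁻¹) v := (hcent _ hc v hvT).symm
      rw [j5_pow_mul hvu hcu hcv s, hus, hvs, one_mul, one_mul]
      obtain ⟨k, hk⟩ := hs.dvd_choose_self (k := 2) (by norm_num)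
        (lt_of_le_of_ne hs.two_le (Ne.symm hs2))
      rw [hk, pow_mul, hexp _ hc, one_pow]
    · intro g hg
      have h1 : u * v * g * (u * v)⁻¹ * g⁻¹
          = (u * (v * g * v⁻¹ * g⁻¹) * u⁻¹) * (u * g * u⁻¹ * g⁻¹) := by group
      rw [h1]
      have hz := hvZ g hg
      have h2 : u * (v * g * v⁻¹ * g⁻¹) * u⁻¹ = v * g * v⁻¹ * g⁻¹ := by
        rw [hcent _ hz u huT, mul_inv_cancel_right]
      rw [h2]
      exact Z₁.mul_mem hz (huZ g hg)
  inv_mem' := by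
    rintro u ⟨huT, hus, huZ⟩
    refine ⟨T.inv_mem huT, by rw [inv_pow, hus, inv_one], ?_⟩
    intro g hg
    have hz := Z₁.inv_mem (huZ g hg)
    have h1 : u⁻¹ * g * u⁻¹⁻¹ * g⁻¹ = u⁻¹ * ((u * g * u⁻¹ * g⁻¹)⁻¹ * u) := by group
    rw [h1, ← hcent _ hz u huT, inv_mul_cancel_left]
    exact hz

/-- If `x` commutes with `u` and with `Z`, it commutes with `⟨u⟩ ⊔ Z`. -/
theorem j5_comm_sup {u x : G} {Z : Subgroup G} (hu : x * u = u * x)
    (hZ : ∀ z ∈ Z, x * z = z * x) : ∀ b ∈ Subgroup.zpowers u ⊔ Z, x * b = b * x := by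
  have h1 : Subgroup.zpowers u ⊔ Z ≤ Subgroup.centralizer {x} := by
    refine sup_le (Subgroup.zpowers_le.mpr ?_) ?_
    · rw [Subgroup.mem_centralizer_iff]
      intro y hy
      rw [Set.mem_singleton_iff] at hy
      subst hy
      exact hu
    · intro z hz
      rw [Subgroup.mem_centralizer_iff]
      intro y hy
      rw [Set.mem_singleton_iff] at hy
      subst hy
      exact hZ z hz
  intro b hb
  exact Subgroup.mem_centralizer_iff.mp (h1 hb) x rfl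

variable [Finite G]

/-- **U95-J5**. -/
theorem omega_lemma {s p : ℕ} [Fact s.Prime] [Fact p.Prime] (hs2 : s ≠ 2) (hps : p ≠ s)
    {T Z₁ W₀ E : Subgroup G} (hT : IsPGroup s T)
    (hZ₁ : ∀ z : G, z ∈ Z₁ ↔ z ∈ T ∧ z ∈ Subgroup.centralizer (T : Set G) ∧ z ^ s = 1)
    (hZ₁c : IsCyclic ↥Z₁)
    (hW₀T : W₀ ≤ T) (hW₀n : T ≤ Subgroup.normalizer (W₀ : Set G))
    (hW₀c : ∀ a ∈ W₀, ∀ b ∈ W₀, a * b = b * a) (hW₀e : ∀ a ∈ W₀, a ^ s = 1)
    (hW₀card : Nat.card W₀ = s ^ 2)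
    (hET : E ≤ Subgroup.normalizer (T : Set G))
    (hEc : ∀ a ∈ E, ∀ b ∈ E, a * b = b * a) (hEe : ∀ a ∈ E, a ^ p = 1)
    (hEcard : Nat.card E = p ^ 3) (hEZ : E ≤ Subgroup.centralizer (Z₁ : Set G)) :
    ∃ D W : Subgroup G, D ≤ E ∧ Nat.card D = p ^ 2 ∧ W ≤ T ∧
      T ≤ Subgroup.normalizer (W : Set G) ∧ (∀ a ∈ W, ∀ b ∈ W, a * b = b * a) ∧
      (∀ a ∈ W, a ^ s = 1) ∧ Nat.card W = s ^ 2 ∧ D ≤ Subgroup.centralizer (W : Set G) := by
  have hs : s.Prime := Fact.out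
  have hp : p.Prime := Fact.out
  have hs1 : 1 < s := hs.one_lt
  have hZ₁T : Z₁ ≤ T := fun z hz => ((hZ₁ z).mp hz).1
  have hcent : ∀ z ∈ Z₁, ∀ t ∈ T, t * z = z * t := fun z hz t ht =>
    Subgroup.mem_centralizer_iff.mp ((hZ₁ z).mp hz).2.1 t ht
  have hexp : ∀ z ∈ Z₁, z ^ s = 1 := fun z hz => ((hZ₁ z).mp hz).2.2
  have hW₀s : IsPGroup s W₀ := hT.to_le hW₀T
  have hW₀ne : W₀ ≠ ⊥ := by
    intro h
    rw [h, Subgroup.card_bot] at hW₀card
    nlinarith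
  -- (0) `|Z₁| = s`
  have hZ₁card : Nat.card Z₁ = s := by
    have h1 : Nat.card Z₁ ≤ s := by
      by_contra hlt
      push Not at hlt
      exact j4_not_cyclic hexp hlt hZ₁c
    have h2 : s ∣ Nat.card (W₀ ⊓ Subgroup.centralizer (T : Set G) : Subgroup G) :=
      Cfsg.Agent.Lib.Helper66.dvd_card_inf_centralizer hT
        (by rw [hW₀card]; exact dvd_pow_self s two_ne_zero) hW₀n
    have h3 : W₀ ⊓ Subgroup.centralizer (T : Set G) ≤ Z₁ := by
      intro z hz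
      obtain ⟨hz1, hz2⟩ := Subgroup.mem_inf.mp hz
      exact (hZ₁ z).mpr ⟨hW₀T hz1, hz2, hW₀e z hz1⟩
    have h4 := Nat.le_of_dvd Nat.card_pos (h2.trans (Subgroup.card_dvd_of_le h3))
    omega
  -- (2) `[W₀, T] ≤ Z₁`
  have hN : ⁅W₀, T⁆ ≤ Z₁ := by
    have hlt := Cfsg.Agent.Lib.Helper30.commutator_lt_of_pgroup s hW₀s hT hW₀n hW₀ne
    have hNn : T ≤ Subgroup.normalizer ((⁅W₀, T⁆ : Subgroup G) : Set G) := fun t ht =>
      Cfsg.Agent.Lib.Helper30.mem_normalizer_commutator (hW₀n ht) (Subgroup.le_normalizer ht)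
    have hdvd : Nat.card (⁅W₀, T⁆ : Subgroup G) ∣ s ^ 2 :=
      hW₀card ▸ Subgroup.card_dvd_of_le hlt.le
    obtain ⟨k, hk, hkc⟩ := (Nat.dvd_prime_pow hs).mp hdvd
    have hk2 : k ≠ 2 := by
      rintro rfl
      exact hlt.ne (Subgroup.eq_of_le_of_card_ge hlt.le (by rw [hkc, hW₀card]))
    have hk' : k = 0 ∨ k = 1 := by omega
    rcases hk' with rfl | rfl
    · rw [pow_zero] at hkc
      rw [Subgroup.card_eq_one.mp hkc]
      exact bot_le
    · rw [pow_one] at hkc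
      have hNc := Cfsg.Agent.Lib.Helper66.le_centralizer_of_card_prime hT hkc hNn
      intro z hz
      exact (hZ₁ z).mpr ⟨hW₀T (hlt.le hz), hNc hz, hW₀e z (hlt.le hz)⟩
  -- (1) the subgroup `Ω`
  obtain ⟨Ω, hΩ⟩ : ∃ Ω : Subgroup G, ∀ u, u ∈ Ω ↔
      (u ∈ T ∧ u ^ s = 1 ∧ ∀ g ∈ T, u * g * u⁻¹ * g⁻¹ ∈ Z₁) :=
    ⟨j5Omega s T Z₁ hs hs2 hcent hexp, fun u => Iff.rfl⟩
  have hΩT : Ω ≤ T := fun u hu => ((hΩ u).mp hu).1
  have hΩe : ∀ u ∈ Ω, u ^ s = 1 := fun u hu => ((hΩ u).mp hu).2.1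
  have hW₀Ω : W₀ ≤ Ω := by
    intro w hw
    refine (hΩ w).mpr ⟨hW₀T hw, hW₀e w hw, fun g hg => hN ?_⟩
    have h1 : w * g * w⁻¹ * g⁻¹ = ⁅w, g⁆ := (commutatorElement_def w g).symm
    rw [h1]
    exact Subgroup.commutator_mem_commutator hw hg
  have hZ₁Ω : Z₁ ≤ Ω := by
    intro z hz
    refine (hΩ z).mpr ⟨hZ₁T hz, hexp z hz, fun g hg => ?_⟩
    rw [← hcent z hz g hg]
    have h1 : g * z * z⁻¹ * g⁻¹ = 1 := by group
    rw [h1]
    exact Z₁.one_mem
  have hEΩ : E ≤ Subgroup.normalizer (Ω : Set G) := by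
    intro a ha
    apply Cfsg.Agent.Lib.Helper59.conj_mem_imp_mem_normalizer
    intro u hu
    obtain ⟨huT, hus, huZ⟩ := (hΩ u).mp hu
    have haT := hET ha
    have hainvT := hET (E.inv_mem ha)
    refine (hΩ _).mpr ⟨(Subgroup.mem_normalizer_iff.mp haT u).mp huT, ?_, ?_⟩
    · rw [conj_pow, hus]; group
    · intro g hg
      have hg' : a⁻¹ * g * a ∈ T := by
        have h0 := (Subgroup.mem_normalizer_iff.mp hainvT g).mp hg
        simpa using h0
      have hz := huZ _ hg'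
      have h1 : a * u * a⁻¹ * g * (a * u * a⁻¹)⁻¹ * g⁻¹
          = a * (u * (a⁻¹ * g * a) * u⁻¹ * (a⁻¹ * g * a)⁻¹) * a⁻¹ := by group
      rw [h1]
      have hza := Subgroup.mem_centralizer_iff.mp (hEZ ha) _ hz
      rw [← hza, mul_inv_cancel_right]
      exact hz
  have hΩs : IsPGroup s Ω := hT.to_le hΩT
  have hcopΩ : (Nat.card Ω).Coprime p := by
    obtain ⟨n, hn⟩ := hΩs.exists_card_eq
    rw [hn]
    exact Nat.Coprime.pow_left n ((Nat.coprime_primes hs hp).mpr (Ne.symm hps))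
  -- (3) J4
  have hgen := gen3 hEc hEe hEcard hEΩ hcopΩ
  obtain ⟨D, hDE, hDcard, u, huΩ, huD, huZ⟩ : ∃ D : Subgroup G, D ≤ E ∧ Nat.card D = p ^ 2 ∧
      ∃ u, u ∈ Ω ∧ u ∈ Subgroup.centralizer (D : Set G) ∧ u ∉ Z₁ := by
    by_contra hcon
    push Not at hcon
    have hle : Ω ≤ Z₁ := by
      refine hgen.trans (iSup₂_le ?_)
      rintro D ⟨hDE, hDc⟩ u hu
      obtain ⟨h1, h2⟩ := Subgroup.mem_inf.mp hu
      exact hcon D hDE hDc u h1 h2
    have h5 := Subgroup.card_le_of_le (hW₀Ω.trans hle)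
    rw [hW₀card, hZ₁card] at h5
    nlinarith
  -- (4) `W = ⟨u⟩ Z₁`
  obtain ⟨huT, hus, huZ₁⟩ := (hΩ u).mp huΩ
  have hu1 : u ≠ 1 := fun h => huZ (h ▸ Z₁.one_mem)
  have hWΩ : Subgroup.zpowers u ⊔ Z₁ ≤ Ω := sup_le (Subgroup.zpowers_le.mpr huΩ) hZ₁Ω
  have huz : ∀ z ∈ Z₁, z * u = u * z := fun z hz => (hcent z hz u huT).symm
  have hcomm : ∀ a ∈ Subgroup.zpowers u ⊔ Z₁, ∀ b ∈ Subgroup.zpowers u ⊔ Z₁, a * b = b * a := by
    intro a ha b hb
    have hau : a * u = u * a := by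
      have h1 := j5_comm_sup (x := u) (u := u) (Z := Z₁) rfl (fun z hz => (huz z hz).symm) a ha
      exact h1.symm
    have haz : ∀ z ∈ Z₁, a * z = z * a := fun z hz => hcent z hz a (hΩT (hWΩ ha))
    exact j5_comm_sup hau haz b hb
  have hinf : Subgroup.zpowers u ⊓ Z₁ = ⊥ := by
    rw [eq_bot_iff]
    intro x hx
    obtain ⟨hx1, hx2⟩ := Subgroup.mem_inf.mp hx
    by_contra hxne
    exact huZ ((Subgroup.zpowers_le.mpr hx2) (j4_mem_zpowers_symm hus hx1 hxne))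
  have hWcard : Nat.card (Subgroup.zpowers u ⊔ Z₁ : Subgroup G) = s ^ 2 := by
    have hnorm : Z₁ ≤ Subgroup.normalizer (Subgroup.zpowers u : Set G) := fun z hz =>
      j4_comm_le_normalizer (huz z hz) (Subgroup.mem_zpowers z)
    have h3 := Cfsg.Agent.Lib.Helper59.card_sup_mul_card_inf (Subgroup.zpowers u) Z₁ hnorm
    rw [hinf, Subgroup.card_bot, mul_one, j4_card_zpowers hus hu1, hZ₁card] at h3
    rw [h3, sq]
  have hTW : T ≤ Subgroup.normalizer ((Subgroup.zpowers u ⊔ Z₁ : Subgroup G) : Set G) := by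
    intro t ht
    apply Cfsg.Agent.Lib.Helper59.conj_mem_imp_mem_normalizer
    have hle : Subgroup.zpowers u ⊔ Z₁
        ≤ (Subgroup.zpowers u ⊔ Z₁).comap (MulAut.conj t).toMonoidHom := by
      refine sup_le (Subgroup.zpowers_le.mpr ?_) ?_
      · rw [Subgroup.mem_comap]
        show t * u * t⁻¹ ∈ _
        have h1 : t * u * t⁻¹ = (u * t * u⁻¹ * t⁻¹)⁻¹ * u := by group
        rw [h1]
        exact Subgroup.mul_mem _
          ((le_sup_right : Z₁ ≤ _) (Z₁.inv_mem (huZ₁ t ht)))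
          ((le_sup_left : Subgroup.zpowers u ≤ _) (Subgroup.mem_zpowers u))
      · intro z hz
        rw [Subgroup.mem_comap]
        show t * z * t⁻¹ ∈ _
        rw [hcent z hz t ht, mul_inv_cancel_right]
        exact (le_sup_right : Z₁ ≤ _) hz
    intro a ha
    exact hle ha
  refine ⟨D, Subgroup.zpowers u ⊔ Z₁, hDE, hDcard, hWΩ.trans hΩT, hTW, hcomm,
    fun a ha => hΩe a (hWΩ ha), hWcard, ?_⟩
  intro d hd
  rw [Subgroup.mem_centralizer_iff]
  intro b hb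
  have hdu : d * u = u * d := Subgroup.mem_centralizer_iff.mp huD d hd
  have hdz : ∀ z ∈ Z₁, d * z = z * d := fun z hz =>
    (Subgroup.mem_centralizer_iff.mp (hEZ (hDE hd)) z hz).symm
  exact (j5_comm_sup hdu hdz b hb).symm

end Cfsg.Agent.Lib.Helper30.U95
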