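import Mathlib
import Cfsg.Prelude.Def_Local
import Cfsg.Prelude.Def_Balance
import Cfsg.Agent.S1324
import Cfsg.Agent.S0058
import Cfsg.Agent.Lib.Helper30.InvSylow
import Cfsg.Agent.Lib.Helper30.Transitivity
import Cfsg.Agent.Lib.Helper1.Coprime

set_option autoImplicit false

namespace Cfsg.Agent.Lib.Helper30

open Cfsg Subgroup

section WSSFT
variable {G : Type*} [Group G] [Finite G]

/-- A nontrivial solvable subgroup `W` normalized by `A` has a proper subgroup `M`, normal in `W`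
and normalized by `A`, of prime power index. -/
theorem exists_normal_prime_pow_index {A W : Subgroup G} (hAW : A ≤ normalizer (W : Set G))
    (hWs : Group.IsSolvable W) (hW1 : W ≠ ⊥) :
    ∃ M : Subgroup G, M ≤ W ∧ M ≠ W ∧ W ≤ normalizer (M : Set G) ∧ A ≤ normalizer (M : Set G) ∧
      ∃ s : ℕ, s.Prime ∧ ∃ j : ℕ, M.relIndex W = s ^ j := by
  classical
  haveI : Nontrivial W := (Subgroup.nontrivial_iff_ne_bot W).mpr hW1
  have hlt : commutator W < ⊤ := Group.IsSolvable.commutator_lt_top_of_nontrivial W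
  -- the abelianization is nontrivial
  have hQ1 : Nat.card (Abelianization W) ≠ 1 := by
    intro h1
    have hsub : Subsingleton (Abelianization W) := (Nat.card_eq_one_iff_unique.mp h1).1
    apply hlt.ne
    rw [eq_top_iff]
    intro x _
    rw [← Abelianization.ker_of, MonoidHom.mem_ker]
    exact Subsingleton.elim _ _
  obtain ⟨s, hs, hsd⟩ := Nat.exists_prime_and_dvd hQ1
  haveI : Fact s.Prime := ⟨hs⟩
  obtain ⟨e, n', hn', hcard⟩ := Nat.exists_eq_pow_mul_and_not_dvd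
    (Nat.card_pos (α := Abelianization W)).ne' s hs.one_lt.ne'
  let f : W →* Abelianization W := (powMonoidHom n').comp Abelianization.of
  have hf : ∀ w : W, f w = (Abelianization.of w) ^ n' := fun w => rfl
  -- characterisation of the kernel
  have hker : ∀ w : W, f w = 1 ↔ ((w : G) ^ n') ∈ ⁅W, W⁆ := by
    intro w
    rw [hf, ← map_pow, ← MonoidHom.mem_ker, Abelianization.ker_of, ← Subgroup.map_subtype_commutator]
    constructor
    · intro h
      exact ⟨w ^ n', h, by simp⟩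
    · rintro ⟨y, hy, hyw⟩
      have : y = w ^ n' := Subtype.ext (by simpa using hyw)
      rwa [← this]
  refine ⟨f.ker.map W.subtype, Subgroup.map_subtype_le _, ?_, ?_, ?_, s, hs, ?_⟩
  · -- proper
    obtain ⟨q, hq⟩ := exists_prime_orderOf_dvd_card' (G := Abelianization W) s hsd
    obtain ⟨w, rfl⟩ := QuotientGroup.mk_surjective q
    have hw : f w ≠ 1 := by
      intro h
      rw [hf] at h
      have h2 := orderOf_dvd_of_pow_eq_one h
      have h3 : orderOf (Abelianization.of w) = s := hq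
      rw [h3] at h2
      exact hn' h2
    intro hM
    have hwM : (w : G) ∈ f.ker.map W.subtype := by rw [hM]; exact w.2
    obtain ⟨m, hm, hmw⟩ := hwM
    have : m = w := Subtype.ext (by simpa using hmw)
    rw [this] at hm
    exact hw hm
  · -- normal in W
    apply le_normalizer_of_conj_mem
    intro w hw m hm
    obtain ⟨m', hm', rfl⟩ := hm
    refine ⟨⟨w, hw⟩ * m' * ⟨w, hw⟩⁻¹, ?_, by simp⟩
    exact (inferInstance : f.ker.Normal).conj_mem m' hm' ⟨w, hw⟩
  · -- normalized by A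
    apply le_normalizer_of_conj_mem
    intro a ha m hm
    obtain ⟨m', hm', rfl⟩ := hm
    have haW := hAW ha
    have h1 : a * (m' : G) * a⁻¹ ∈ W := (Subgroup.mem_normalizer_iff.mp haW _).mp m'.2
    have h2 : ((m' : G) ^ n') ∈ ⁅W, W⁆ := (hker m').mp hm'
    have haC : a ∈ normalizer ((⁅W, W⁆ : Subgroup G) : Set G) := by
      rw [Cfsg.Agent.Lib.Helper1.mem_normalizer_iff_conj_smul,
        Cfsg.Agent.Lib.Helper1.conj_smul_commutator,
        (Cfsg.Agent.Lib.Helper1.mem_normalizer_iff_conj_smul a W).mp haW]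
    have h3 : (a * (m' : G) * a⁻¹) ^ n' ∈ ⁅W, W⁆ := by
      rw [conj_pow]
      exact (Subgroup.mem_normalizer_iff.mp haC _).mp h2
    refine ⟨⟨a * (m' : G) * a⁻¹, h1⟩, ?_, rfl⟩
    exact MonoidHom.mem_ker.mpr ((hker _).mpr h3)
  · -- index
    have h1 : (f.ker.map W.subtype).relIndex W = f.ker.index := by
      rw [Subgroup.relIndex, Subgroup.subgroupOf,
        Subgroup.comap_map_eq_self_of_injective (Subgroup.subtype_injective W)]
    rw [h1, Subgroup.index_ker]
    have hp : IsPGroup s f.range := by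
      rintro ⟨y, w, rfl⟩
      refine ⟨e, Subtype.ext ?_⟩
      simp only [Subgroup.coe_pow, Subgroup.coe_one]
      rw [hf, ← pow_mul, mul_comm, ← hcard]
      exact pow_card_eq_one'
    exact IsPGroup.iff_card.mp hp

/-- a subgroup of index at most `p` in `A` (of order at least `p^2`) is nontrivial -/
theorem hyp_ne_bot {p : ℕ} [Fact p.Prime] {A B : Subgroup G} (hA2 : p ^ 2 ≤ Nat.card A)
    (hB : B ≤ A) (hBi : B.relIndex A ≤ p) : ∃ z ∈ B, z ≠ 1 := by
  have hp := (Fact.out : p.Prime)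
  have h2 := relIndex_mul_card_inf A B
  rw [inf_eq_right.mpr hB] at h2
  have h3 : B ≠ ⊥ := by
    intro h
    have hc : Nat.card B = 1 := by rw [h]; exact Subgroup.card_bot
    rw [hc, mul_one] at h2
    have h4 : p ^ 2 ≤ p := by rw [← h2] at hA2; exact hA2.trans hBi
    nlinarith [hp.two_le]
  obtain ⟨z, hz⟩ := Subgroup.ne_bot_iff_exists_ne_one.mp h3
  exact ⟨z.1, z.2, fun h => hz (Subtype.ext h)⟩

/-- two subgroups of index at most `p` in `A` (of order at least `p^3`) meet nontrivially -/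
theorem hyp_inter {p : ℕ} [Fact p.Prime] {A B B' : Subgroup G} (hA3 : p ^ 3 ≤ Nat.card A)
    (hB : B ≤ A) (hBi : B.relIndex A ≤ p) (hB'i : B'.relIndex A ≤ p) :
    ∃ z ∈ B ⊓ B', z ≠ 1 := by
  have hp := (Fact.out : p.Prime)
  have h1 : (B ⊓ B').relIndex A ≤ p * p :=
    le_trans Subgroup.relIndex_inf_le (Nat.mul_le_mul hBi hB'i)
  have h2 := relIndex_mul_card_inf A (B ⊓ B')
  rw [inf_eq_right.mpr (inf_le_left.trans hB)] at h2
  have h3 : B ⊓ B' ≠ ⊥ := by
    intro h
    have hc : Nat.card (B ⊓ B' : Subgroup G) = 1 := by rw [h]; exact Subgroup.card_bot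
    rw [hc, mul_one] at h2
    have h4 : p ^ 3 ≤ p * p := by rw [← h2] at hA3; exact hA3.trans h1
    nlinarith [hp.two_le, pow_pos hp.pos 2]
  obtain ⟨z, hz⟩ := Subgroup.ne_bot_iff_exists_ne_one.mp h3
  exact ⟨z.1, z.2, fun h => hz (Subtype.ext h)⟩

/-- coprime generation: an `A`-invariant `p'`-subgroup all of whose `C_X(a)` lie in `Z` lies in `Z`. -/
theorem le_of_inf_centralizer_le {p : ℕ} [Fact p.Prime] {A X Z : Subgroup G}
    (hA : IsElementaryAbelian p A) (hA2 : p ^ 2 ≤ Nat.card A) (hX : ¬ p ∣ Nat.card X)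
    (hAX : A ≤ normalizer (X : Set G))
    (h : ∀ a ∈ A, a ≠ 1 → X ⊓ centralizer {a} ≤ Z) : X ≤ Z := by
  refine (Cfsg.Agent.S1324.result p A X hA hA2 hX hAX).le.trans (iSup_le ?_)
  rintro ⟨B, hBA, hBi⟩
  obtain ⟨b, hb, hb1⟩ := hyp_ne_bot hA2 hBA hBi
  refine le_trans (inf_le_inf_left _ (Subgroup.centralizer_le ?_)) (h b (hBA hb) hb1)
  simpa using hb

omit [Finite G] in
theorem signalizerClosure_normalized {p : ℕ} {A : Subgroup G} {ψ : G → Subgroup G}
    (hψ : IsSignalizerFunctor p A ψ) : A ≤ normalizer (signalizerClosure A ψ : Set G) := by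
  apply le_normalizer_of_conj_mem
  intro b hb u hu
  have h1 : (signalizerClosure A ψ).map (MulAut.conj b).toMonoidHom ≤ signalizerClosure A ψ := by
    unfold signalizerClosure
    rw [Subgroup.map_iSup]
    apply iSup_le
    intro a
    refine le_trans ?_ (le_iSup (fun a : {a : G // a ∈ A ∧ a ≠ 1} => ψ (a : G)) a)
    rintro _ ⟨x, hx, rfl⟩
    exact hψ.2.2.1 a a.2.1 a.2.2 b hb x hx
  exact h1 ⟨u, hu, rfl⟩

omit [Finite G] in
theorem le_signalizerClosure {A : Subgroup G} (ψ : G → Subgroup G) {b : G} (hb : b ∈ A)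
    (hb1 : b ≠ 1) : ψ b ≤ signalizerClosure A ψ :=
  le_iSup (fun a : {a : G // a ∈ A ∧ a ≠ 1} => ψ (a : G)) ⟨b, hb, hb1⟩

omit [Finite G] in
theorem subfunctor {p : ℕ} {A : Subgroup G} {ψ : G → Subgroup G}
    (hψ : IsSolvableSignalizerFunctor p A ψ) {M : Subgroup G}
    (hAM : A ≤ normalizer (M : Set G)) :
    IsSolvableSignalizerFunctor p A (fun a => ψ a ⊓ M) := by
  refine ⟨⟨?_, ?_, ?_, ?_⟩, ?_⟩
  · intro a ha ha1
    exact inf_le_left.trans (hψ.1.1 a ha ha1)
  · intro a ha ha1 h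
    exact hψ.1.2.1 a ha ha1 (dvd_trans h (Subgroup.card_dvd_of_le inf_le_left))
  · intro a ha ha1 b hb x hx
    exact ⟨hψ.1.2.2.1 a ha ha1 b hb x hx.1, (mem_normalizer_iff.mp (hAM hb) x).mp hx.2⟩
  · intro a ha ha1 b hb hb1 x hx
    exact ⟨hψ.1.2.2.2 a ha ha1 b hb hb1 ⟨hx.1.1, hx.2⟩, hx.1.2⟩
  · intro a ha ha1
    exact Cfsg.Agent.Lib.Helper1.isSolvable_of_le' inf_le_left (hψ.2 a ha ha1)

/-- normality lemma: the closure of `ψ` normalizes the closure of `a ↦ ψ a ⊓ M`. -/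
theorem closure_normalizes {p : ℕ} [Fact p.Prime] {A : Subgroup G}
    (hA : IsElementaryAbelian p A) (hA3 : p ^ 3 ≤ Nat.card A) {ψ : G → Subgroup G}
    (hψ : IsSignalizerFunctor p A ψ) {M : Subgroup G}
    (hM : signalizerClosure A ψ ≤ normalizer (M : Set G)) (hAM : A ≤ normalizer (M : Set G)) :
    signalizerClosure A ψ ≤ normalizer (signalizerClosure A (fun a => ψ a ⊓ M) : Set G) := by
  have hp := (Fact.out : p.Prime)
  have hA2 : p ^ 2 ≤ Nat.card A := le_trans (Nat.pow_le_pow_right hp.pos (by norm_num)) hA3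
  apply iSup_le
  rintro ⟨y, hy, hy1⟩
  have hAy : A ≤ normalizer (ψ y : Set G) := le_normalizer_of_conj_mem (hψ.2.2.1 y hy hy1)
  refine (Cfsg.Agent.S1324.result p A (ψ y) hA hA2 (hψ.2.1 y hy hy1) hAy).le.trans (iSup_le ?_)
  rintro ⟨B', hB'A, hB'i⟩
  apply le_normalizer_of_conj_mem
  intro g hg u hu
  -- the subgroup of `u` with `g u g⁻¹` in the closure
  have hsub : signalizerClosure A (fun a => ψ a ⊓ M) ≤
      (signalizerClosure A (fun a => ψ a ⊓ M)).comap (MulAut.conj g).toMonoidHom := by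
    apply iSup_le
    rintro ⟨x, hx, hx1⟩
    have hAx : A ≤ normalizer ((ψ x ⊓ M : Subgroup G) : Set G) := by
      apply le_normalizer_of_conj_mem
      intro b hb v hv
      exact ⟨hψ.2.2.1 x hx hx1 b hb v hv.1, (mem_normalizer_iff.mp (hAM hb) v).mp hv.2⟩
    have hpx : ¬ p ∣ Nat.card (ψ x ⊓ M : Subgroup G) := fun h =>
      hψ.2.1 x hx hx1 (dvd_trans h (Subgroup.card_dvd_of_le inf_le_left))
    refine (Cfsg.Agent.S1324.result p A (ψ x ⊓ M) hA hA2 hpx hAx).le.trans (iSup_le ?_)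
    rintro ⟨B, hBA, hBi⟩ v hv
    obtain ⟨z, hz, hz1⟩ := hyp_inter hA3 hBA hBi hB'i
    have hzA : z ∈ A := hBA hz.1
    have hgz : g ∈ ψ z := by
      refine hψ.2.2.2 y hy hy1 z hzA hz1 ⟨hg.1, ?_⟩
      exact Subgroup.centralizer_le (by simpa using hz.2) hg.2
    have hvz : v ∈ ψ z := by
      refine hψ.2.2.2 x hx hx1 z hzA hz1 ⟨hv.1.1, ?_⟩
      exact Subgroup.centralizer_le (by simpa using hz.1) hv.2
    have hgM : g ∈ normalizer (M : Set G) := hM (le_signalizerClosure ψ hy hy1 hg.1)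
    have h1 : g * v * g⁻¹ ∈ ψ z ⊓ M :=
      ⟨(ψ z).mul_mem ((ψ z).mul_mem hgz hvz) ((ψ z).inv_mem hgz),
        (mem_normalizer_iff.mp hgM v).mp hv.1.2⟩
    exact le_signalizerClosure (fun a => ψ a ⊓ M) hzA hz1 h1
  exact hsub hu

/-- a maximal `s`-subgroup of the family whose centralizers are Sylow in the `ψ a`. -/
theorem exists_maxSig_isSyl {p : ℕ} [Fact p.Prime] {A : Subgroup G}
    (hA : IsElementaryAbelian p A) (hA3 : p ^ 3 ≤ Nat.card A) {ψ : G → Subgroup G}
    (hψ : IsSolvableSignalizerFunctor p A ψ) (s : ℕ) [Fact s.Prime] (hsp : s ≠ p) :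
    ∃ S, IsMaxSig p A ψ s S ∧ ∀ a ∈ A, a ≠ 1 → IsSyl s (S ⊓ centralizer {a}) (ψ a) := by
  obtain ⟨S, hS, -⟩ := exists_isMaxSig_ge (bot_mem_signalizerFamily (p := p) (A := A) (θ := ψ))
    (IsPGroup.of_bot : IsPGroup s (⊥ : Subgroup G))
  refine ⟨S, hS, ?_⟩
  intro a ha ha1
  have hAψ : A ≤ normalizer (ψ a : Set G) := le_normalizer_of_conj_mem (hψ.1.2.2.1 a ha ha1)
  obtain ⟨P, hP, hAP⟩ := exists_isSyl hAψ (coprime_of_elemAb hA (hψ.1.2.1 a ha ha1))
    (isSolvable_of_elemAb hA) s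
  have hPfam : P ∈ signalizerFamily p A ψ :=
    signalizerFamily_of_le (theta_mem_signalizerFamily hψ ha ha1) hP.1 hAP
  obtain ⟨R, hR, hPR⟩ := exists_isMaxSig_ge hPfam hP.isPGroup
  obtain ⟨c, hc, hcS⟩ := transitivity hA hA3 hψ hsp hS hR
  have hca : c ∈ ψ a := signalizerInf_le ha ha1 hc
  have hle : P.map (MulAut.conj c⁻¹).toMonoidHom ≤ S ⊓ centralizer {a} := by
    rintro _ ⟨x, hx, rfl⟩
    have hxR : x ∈ S.map (MulAut.conj c).toMonoidHom := by rw [hcS]; exact hPR hx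
    obtain ⟨y, hy, hyx⟩ := hxR
    have hyx' : c * y * c⁻¹ = x := by simpa [MulAut.conj_apply] using hyx
    have e1 : (MulAut.conj c⁻¹).toMonoidHom x = y := by
      simp only [MulEquiv.coe_toMonoidHom, MulAut.conj_apply, inv_inv]
      rw [← hyx']; group
    refine ⟨by rw [e1]; exact hy, ?_⟩
    have h1 : c⁻¹ * x * c ∈ ψ a :=
      (ψ a).mul_mem ((ψ a).mul_mem ((ψ a).inv_mem hca) (hP.1 hx)) hca
    have h2 := hψ.1.1 a ha ha1 h1
    simpa [MulAut.conj_apply] using h2
  apply isSyl_of_card_le (hS.2.1.to_le inf_le_left) (hS.1.2.2.2 a ha ha1)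
  have hinj : Function.Injective ((MulAut.conj c⁻¹).toMonoidHom : G →* G) :=
    (MulAut.conj c⁻¹).injective
  rw [← hP.2, ← Subgroup.card_map_of_injective hinj (K := P)]
  exact Subgroup.card_le_of_le hle

/-- a Sylow `s`-subgroup covers a subgroup of `s`-power index. -/
theorem cover_of_isSyl_of_relIndex {s : ℕ} [Fact s.Prime] {U M T : Subgroup G} {i : ℕ}
    (hi : M.relIndex U = s ^ i) (hT : IsSyl s T U) :
    ∀ u ∈ U, ∃ m ∈ U ⊓ M, ∃ t ∈ T, u = m * t := by
  have hs := (Fact.out : s.Prime)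
  apply cover_of_card_le inf_le_left hT.1
  have h2 := relIndex_mul_card_inf U M
  rw [hi] at h2
  have hc0 : Nat.card (U ⊓ M : Subgroup G) ≠ 0 := Nat.card_pos.ne'
  have hv : (Nat.card U).factorization s = i + (Nat.card (U ⊓ M : Subgroup G)).factorization s := by
    rw [← h2, factorization_mul_apply (pow_pos hs.pos i).ne' hc0, Nat.factorization_pow]
    simp [hs.factorization_self]
  have h3 : Nat.card ((U ⊓ M) ⊓ T : Subgroup G) ≤
      s ^ (Nat.card (U ⊓ M : Subgroup G)).factorization s :=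
    Nat.le_of_dvd (pow_pos hs.pos _)
      (card_dvd_of_isPGroup_le (hT.isPGroup.to_le inf_le_right) inf_le_left)
  rw [hT.2, hv, pow_add]
  calc Nat.card U * Nat.card ((U ⊓ M) ⊓ T : Subgroup G)
      ≤ Nat.card U * s ^ (Nat.card (U ⊓ M : Subgroup G)).factorization s :=
        Nat.mul_le_mul_left _ h3
    _ = Nat.card (U ⊓ M : Subgroup G) *
        (s ^ i * s ^ (Nat.card (U ⊓ M : Subgroup G)).factorization s) := by rw [← h2]; ring

/-- centralizers factor in a product `N H` with `N` normalized by `H`. -/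
theorem cent_sup_factor {N H : Subgroup G} (hHN : H ≤ normalizer (N : Set G)) {e : G}
    (heN : e ∈ normalizer (N : Set G)) (heH : e ∈ normalizer (H : Set G))
    (hcop : (orderOf e).Coprime (Nat.card (N ⊓ H : Subgroup G))) {g : G} (hg : g ∈ N ⊔ H)
    (hge : g * e = e * g) :
    ∃ n ∈ N, ∃ h ∈ H, n * e = e * n ∧ h * e = e * h ∧ g = n * h := by
  obtain ⟨n₀, hn₀, h₀, hh₀, rfl⟩ := Cfsg.Agent.S0057.sup_mem hHN hg
  have heD : e ∈ normalizer ((N ⊓ H : Subgroup G) : Set G) := by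
    rw [mem_normalizer_iff] at heN heH ⊢
    intro x
    simp only [mem_inf]
    rw [heN x, heH x]
  have hk : h₀ * e * h₀⁻¹ * e⁻¹ ∈ N ⊓ H := by
    refine ⟨?_, ?_⟩
    · have h1 : h₀ * e = n₀⁻¹ * e * n₀ * h₀ := by
        calc h₀ * e = n₀⁻¹ * (n₀ * h₀ * e) := by group
          _ = n₀⁻¹ * (e * (n₀ * h₀)) := by rw [hge]
          _ = n₀⁻¹ * e * n₀ * h₀ := by group
      have e1 : h₀ * e * h₀⁻¹ * e⁻¹ = n₀⁻¹ * (e * n₀ * e⁻¹) := by
        rw [h1]; group
      rw [e1]
      exact N.mul_mem (N.inv_mem hn₀) ((mem_normalizer_iff.mp heN n₀).mp hn₀)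
    · have e2 : h₀ * e * h₀⁻¹ * e⁻¹ = h₀ * (e * h₀⁻¹ * e⁻¹) := by group
      rw [e2]
      exact H.mul_mem hh₀ ((mem_normalizer_iff.mp heH _).mp (H.inv_mem hh₀))
  obtain ⟨d, hd, hdc⟩ := Cfsg.Agent.S0058.lift_fix_elt heD hcop h₀ hk
  refine ⟨n₀ * d, N.mul_mem hn₀ hd.1, d⁻¹ * h₀, H.mul_mem (H.inv_mem hd.2) hh₀, ?_, hdc,
    by group⟩
  have e3 : n₀ * d = (n₀ * h₀) * (d⁻¹ * h₀)⁻¹ := by group
  rw [e3]
  have c1 : Commute (n₀ * h₀) e := hge
  have c2 : Commute (d⁻¹ * h₀) e := hdc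
  exact (c1.mul_left c2.inv_left).eq

/-- Signalizer functor theorem for functors whose closure is a solvable `p'`-group: induction form. -/
theorem wssft_aux {p : ℕ} [Fact p.Prime] {A : Subgroup G}
    (hA : IsElementaryAbelian p A) (hA3 : p ^ 3 ≤ Nat.card A) :
    ∀ (N : ℕ) (ψ : G → Subgroup G), IsSolvableSignalizerFunctor p A ψ →
      Group.IsSolvable (signalizerClosure A ψ) → ¬ p ∣ Nat.card (signalizerClosure A ψ) →
      Nat.card (signalizerClosure A ψ) ≤ N →
      ∀ a ∈ A, a ≠ 1 → signalizerClosure A ψ ⊓ centralizer {a} ≤ ψ a := by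
  have hp := (Fact.out : p.Prime)
  have hA2 : p ^ 2 ≤ Nat.card A := le_trans (Nat.pow_le_pow_right hp.pos (by norm_num)) hA3
  intro N
  induction N with
  | zero =>
    intro ψ _ _ _ hN
    have := Nat.card_pos (α := signalizerClosure A ψ)
    omega
  | succ N ih =>
    intro ψ hψ hsolv hp' hN a ha ha1
    by_cases hY1 : signalizerClosure A ψ = ⊥
    · rw [hY1, bot_inf_eq]; exact bot_le
    have hAY : A ≤ normalizer (signalizerClosure A ψ : Set G) := signalizerClosure_normalized hψ.1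
    obtain ⟨M, hMY, hMne, hYM, hAM, s, hs, j, hj⟩ :=
      exists_normal_prime_pow_index hAY hsolv hY1
    haveI : Fact s.Prime := ⟨hs⟩
    have hrel := relIndex_mul_card_inf (signalizerClosure A ψ) M
    rw [inf_eq_right.mpr hMY, hj] at hrel
    have hsp : s ≠ p := by
      intro h
      have hj0 : j ≠ 0 := by
        intro h0
        rw [h0, pow_zero, one_mul] at hrel
        exact hMne (Subgroup.eq_of_le_of_card_ge hMY hrel.ge)
      exact hp' (h ▸ dvd_trans (dvd_pow_self s hj0) (Dvd.intro _ hrel))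
    have hψM : IsSolvableSignalizerFunctor p A (fun a => ψ a ⊓ M) := subfunctor hψ hAM
    have hYM_le_M : signalizerClosure A (fun a => ψ a ⊓ M) ≤ M := iSup_le fun a => inf_le_right
    have hYM_le_Y : signalizerClosure A (fun a => ψ a ⊓ M) ≤ signalizerClosure A ψ :=
      hYM_le_M.trans hMY
    have hcardlt : Nat.card (signalizerClosure A (fun a => ψ a ⊓ M)) ≤ N := by
      have h1 : Nat.card M < Nat.card (signalizerClosure A ψ) :=
        lt_of_le_of_ne (Subgroup.card_le_of_le hMY)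
          (fun h => hMne (Subgroup.eq_of_le_of_card_ge hMY h.ge))
      have h2 := Subgroup.card_le_of_le hYM_le_M
      omega
    have ihM := ih (fun a => ψ a ⊓ M) hψM
      (Cfsg.Agent.Lib.Helper1.isSolvable_of_le' hYM_le_Y hsolv)
      (fun h => hp' (dvd_trans h (Subgroup.card_dvd_of_le hYM_le_Y))) hcardlt
    have hnorm : signalizerClosure A ψ ≤
        normalizer (signalizerClosure A (fun a => ψ a ⊓ M) : Set G) :=
      closure_normalizes hA hA3 hψ.1 hYM hAM
    obtain ⟨S, hS, hSsyl⟩ := exists_maxSig_isSyl hA hA3 hψ s hsp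
    have hAS : A ≤ normalizer (S : Set G) := le_normalizer_of_conj_mem hS.1.2.2.1
    have hSY : S ≤ signalizerClosure A ψ :=
      le_of_inf_centralizer_le hA hA2 hS.1.2.1 hAS
        (fun b hb hb1 => (hS.1.2.2.2 b hb hb1).trans (le_signalizerClosure ψ hb hb1))
    have hcov : ∀ b ∈ A, b ≠ 1 → ψ b ≤ signalizerClosure A (fun a => ψ a ⊓ M) ⊔ S := by
      intro b hb hb1 g hg
      have hψbY : ψ b ≤ signalizerClosure A ψ := le_signalizerClosure ψ hb hb1
      have hdvd : M.relIndex (ψ b) ∣ s ^ j := by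
        rw [← hj, ← Subgroup.relIndex_subgroupOf hψbY]
        haveI : (M.subgroupOf (signalizerClosure A ψ)).Normal :=
          Subgroup.normal_subgroupOf_of_le_normalizer hYM
        exact Subgroup.relIndex_dvd_index_of_normal _ _
      obtain ⟨i, -, hi⟩ := (Nat.dvd_prime_pow hs).mp hdvd
      obtain ⟨m, hm, t, ht, rfl⟩ := cover_of_isSyl_of_relIndex hi (hSsyl b hb hb1) g hg
      exact mul_mem (mem_sup_left (le_signalizerClosure (fun a => ψ a ⊓ M) hb hb1 hm))
        (mem_sup_right ht.1)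
    have hYK : signalizerClosure A ψ ≤ signalizerClosure A (fun a => ψ a ⊓ M) ⊔ S :=
      iSup_le fun b => hcov b b.2.1 b.2.2
    intro g hg
    have hgK := hYK hg.1
    have hga : g * a = a * g := Subgroup.mem_centralizer_singleton_iff.mp hg.2
    have hAYM : A ≤ normalizer (signalizerClosure A (fun a => ψ a ⊓ M) : Set G) :=
      signalizerClosure_normalized hψM.1
    have hcop : (orderOf a).Coprime
        (Nat.card (signalizerClosure A (fun a => ψ a ⊓ M) ⊓ S : Subgroup G)) := by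
      have h1 : orderOf a ∣ p := orderOf_dvd_of_pow_eq_one (hA.2 a ha)
      have h2 : ¬ p ∣ Nat.card (signalizerClosure A (fun a => ψ a ⊓ M) ⊓ S : Subgroup G) :=
        fun h => hS.1.2.1 (dvd_trans h (Subgroup.card_dvd_of_le inf_le_right))
      exact Nat.Coprime.coprime_dvd_left h1 ((Nat.Prime.coprime_iff_not_dvd hp).mpr h2)
    obtain ⟨n, hn, h, hh, hna, hha, rfl⟩ :=
      cent_sup_factor (hSY.trans hnorm) (hAYM ha) (hAS ha) hcop hgK hga
    have h1 : n ∈ ψ a := (ihM a ha ha1 ⟨hn, Subgroup.mem_centralizer_singleton_iff.mpr hna⟩).1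
    have h2 : h ∈ ψ a :=
      hS.1.2.2.2 a ha ha1 ⟨hh, Subgroup.mem_centralizer_singleton_iff.mpr hha⟩
    exact mul_mem h1 h2

/-- **Signalizer functor theorem inside a solvable `p'`-group.** If `A` is elementary abelian of
rank at least 3 and `ψ` is a solvable `A`-signalizer functor whose closure `⟨ψ a⟩` is a solvable
group of order prime to `p`, then `ψ` is complete: `⟨ψ a⟩ ∩ C(a) = ψ a`. -/
theorem wssft {p : ℕ} [Fact p.Prime] {A : Subgroup G}
    (hA : IsElementaryAbelian p A) (hA3 : p ^ 3 ≤ Nat.card A) (ψ : G → Subgroup G)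
    (hψ : IsSolvableSignalizerFunctor p A ψ)
    (hsolv : Group.IsSolvable (signalizerClosure A ψ))
    (hp' : ¬ p ∣ Nat.card (signalizerClosure A ψ)) :
    ∀ a ∈ A, a ≠ 1 → signalizerClosure A ψ ⊓ centralizer {a} = ψ a := by
  intro a ha ha1
  apply le_antisymm
  · exact wssft_aux hA hA3 _ ψ hψ hsolv hp' le_rfl a ha ha1
  · exact le_inf (le_signalizerClosure ψ ha ha1) (hψ.1.1 a ha ha1)

end WSSFT

end Cfsg.Agent.Lib.Helper30
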