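import Cfsg.Agent.Lib.Helper30.TransferFP
import Cfsg.Agent.Lib.Helper30.CommBinom
import Cfsg.Agent.Lib.Helper30.Conj
import Cfsg.Agent.Lib.Helper58.SylowConj
import Cfsg.Agent.Lib.Helper88.FratA
import Cfsg.Agent.Lib.Helper2.Tate2
import Cfsg.Prelude.Def_Transfer

set_option autoImplicit false

/-!
The Wielandt–Yoshida transfer theorem for a weakly closed subgroup `W` of a Sylow `p`-subgroup
`S`: if `N_G(W)` does not control `p`-transfer then some iterated commutator `[x, z; p-1]`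
(`x ∈ S`, `z ∈ W`) lies in a maximal subgroup `W₀` of `W` but not in `Φ(W₀)`.
-/

namespace Cfsg.Agent.Lib.Helper30

open MulAction Cfsg.Agent.Lib.Helper87 Cfsg.Agent.Lib.Helper88

section WY

variable {G : Type*} [Group G]

theorem le_normalizer_of_weaklyClosed {S W : Subgroup G} (hW : Cfsg.IsWeaklyClosed W S) :
    S ≤ Subgroup.normalizer (W : Set G) := by
  intro s hs
  rw [mem_normalizer_iff_map_conj]
  apply hW.2
  rintro _ ⟨w, hw, rfl⟩
  show s * w * s⁻¹ ∈ S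
  exact S.mul_mem (S.mul_mem hs (hW.1 hw)) (S.inv_mem hs)

theorem conj_mem_of_mem_normalizer {W : Subgroup G} {n : G}
    (hn : n ∈ Subgroup.normalizer (W : Set G)) {w : G} (hw : w ∈ W) :
    n * w * n⁻¹ ∈ W ∧ n⁻¹ * w * n ∈ W := by
  refine ⟨(Subgroup.mem_normalizer_iff.mp hn w).mp hw, ?_⟩
  have := (Subgroup.mem_normalizer_iff.mp (Subgroup.inv_mem _ hn) w).mp hw
  simpa using this

variable [Finite G] {p : ℕ} [hp : Fact p.Prime]

/-- weak closure: if `W` fixes the coset `x₀ N`, `N = N_G(W)`, then `x₀ ∈ N` -/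
theorem mem_normalizer_of_fix (S : Sylow p G) {W : Subgroup G}
    (hW : Cfsg.IsWeaklyClosed W (S : Subgroup G)) (x₀ : G)
    (h : ∀ w ∈ W, x₀⁻¹ * w * x₀ ∈ Subgroup.normalizer (W : Set G)) :
    x₀ ∈ Subgroup.normalizer (W : Set G) := by
  have hSN := le_normalizer_of_weaklyClosed hW
  have hWp : IsPGroup p W := S.isPGroup'.to_le hW.1
  have hQ : IsPGroup p ↥(W.map (MulAut.conj x₀⁻¹).toMonoidHom) := hWp.map _
  have hQN : W.map (MulAut.conj x₀⁻¹).toMonoidHom ≤ Subgroup.normalizer (W : Set G) := by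
    rintro _ ⟨w, hw, rfl⟩
    have := h w hw
    simpa [MulAut.conj_apply] using this
  obtain ⟨n, hnN, hn⟩ := Cfsg.Agent.Lib.Helper58.exists_conj_le_sylow_of_le S hSN hQN hQ
  have h1 : W.map (MulAut.conj (n * x₀⁻¹)).toMonoidHom ≤ (S : Subgroup G) := by
    rintro _ ⟨w, hw, rfl⟩
    have h2 := hn (x₀⁻¹ * w * x₀) ⟨w, hw, by simp [MulAut.conj_apply]⟩
    have e : (MulAut.conj (n * x₀⁻¹)).toMonoidHom w = n * (x₀⁻¹ * w * x₀) * n⁻¹ := by
      simp [MulAut.conj_apply, mul_assoc]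
    rw [e]
    exact h2
  have h3 := hW.2 _ h1
  have h4 : n * x₀⁻¹ ∈ Subgroup.normalizer (W : Set G) := mem_normalizer_iff_map_conj.mpr h3
  have h5 := Subgroup.mul_mem _ (Subgroup.inv_mem _ hnN) h4
  have e : n⁻¹ * (n * x₀⁻¹) = x₀⁻¹ := by group
  rw [e] at h5
  simpa using Subgroup.inv_mem _ h5

/-- a proper subgroup of a finite `p`-group lies in a normal subgroup of index `p` -/
theorem exists_normal_index_p (K R : Subgroup G) (hK : IsPGroup p K) (hRK : R ≤ K)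
    (hne : R ≠ K) :
    ∃ M : Subgroup G, R ≤ M ∧ M ≤ K ∧ (M.subgroupOf K).Normal ∧ (M.subgroupOf K).index = p := by
  obtain ⟨e, he⟩ := IsPGroup.iff_card.mp hK
  have hR' : IsPGroup p ↥(R.subgroupOf K) := hK.to_subgroup _
  obtain ⟨n, hn⟩ := IsPGroup.iff_card.mp hR'
  have hlt : Nat.card ↥(R.subgroupOf K) < Nat.card ↥K := by
    have hle : Nat.card ↥(R.subgroupOf K) ≤ Nat.card ↥K := Subgroup.card_le_card_group _
    rcases lt_or_eq_of_le hle with h | h
    · exact h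
    · exfalso
      apply hne
      have htop : R.subgroupOf K = ⊤ := Subgroup.eq_top_of_card_eq _ h
      exact le_antisymm hRK (Subgroup.subgroupOf_eq_top.mp htop)
  rw [hn, he] at hlt
  have hne' : n < e := (Nat.pow_lt_pow_iff_right hp.out.one_lt).mp hlt
  obtain ⟨M', hM'c, hM'R⟩ := Sylow.exists_subgroup_card_pow_prime_le p (m := e - 1)
    (by rw [he]; exact pow_dvd_pow p (Nat.sub_le e 1)) (R.subgroupOf K) hn (by omega)
  have hidx : M'.index = p := by
    have h1 := M'.card_mul_index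
    rw [hM'c, he] at h1
    have e1 : p ^ e = p ^ (e - 1) * p := by
      rw [← pow_succ]; congr 1; omega
    rw [e1] at h1
    exact Nat.eq_of_mul_eq_mul_left (pow_pos hp.out.pos _) h1
  have hnorm : M'.Normal := by
    apply Subgroup.normal_of_index_eq_minFac_card
    rw [hidx, he, Nat.Prime.pow_minFac hp.out (by omega)]
  have hsub : (M'.map K.subtype).subgroupOf K = M' :=
    Subgroup.comap_map_eq_self_of_injective K.subtype_injective M'
  refine ⟨M'.map K.subtype, ?_, ?_, ?_, ?_⟩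
  · intro r hr
    exact ⟨⟨r, hRK hr⟩, hM'R (Subgroup.mem_subgroupOf.mpr hr), rfl⟩
  · rintro _ ⟨k, _, rfl⟩
    exact k.2
  · rw [hsub]; exact hnorm
  · rw [hsub]; exact hidx

theorem exists_orderOf_eq_pow (S : Sylow p G) {u : G} (hu : u ∈ (S : Subgroup G)) :
    ∃ e : ℕ, orderOf u = p ^ e := by
  obtain ⟨e, he⟩ := IsPGroup.iff_orderOf.mp S.isPGroup' ⟨u, hu⟩
  exact ⟨e, by rw [← he, Subgroup.orderOf_mk]⟩

/-- the key vanishing statement: for `u ∈ S` such that the transfer agrees with `lam` on the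
elements of `S` of smaller order, `lam (a⁻¹ u^k a) = 1` whenever `p ∣ k` -/
theorem lam_conj_pow_eq_one (S : Sylow p G) (N : Subgroup G) (hSN : (S : Subgroup G) ≤ N)
    (lam : ↥N →* Multiplicative (ZMod p)) (u : G) (hu : u ∈ (S : Subgroup G)) (hu1 : u ≠ 1)
    (IH : ∀ s (hs : s ∈ (S : Subgroup G)), orderOf s < orderOf u →
      MonoidHom.transfer lam s = lam ⟨s, hSN hs⟩)
    (w : G) (hw : w ∈ N) (a : G) (k : ℕ) (hk : p ∣ k) (hwa : w = a⁻¹ * u ^ k * a) :
    lam ⟨w, hw⟩ = 1 := by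
  obtain ⟨e, he⟩ := exists_orderOf_eq_pow S hu
  have he0 : e ≠ 0 := by
    rintro rfl
    rw [pow_zero, orderOf_eq_one_iff] at he
    exact hu1 he
  have hord : orderOf w = orderOf (u ^ k) := by
    rw [hwa]
    have := orderOf_conj a⁻¹ (u ^ k)
    rwa [inv_inv] at this
  have hlt : orderOf (u ^ k) < orderOf u := by
    rw [orderOf_pow]
    apply Nat.div_lt_self (orderOf_pos u)
    have h1 : p ∣ Nat.gcd (orderOf u) k :=
      Nat.dvd_gcd (by rw [he]; exact dvd_pow_self p he0) hk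
    have h2 : 0 < Nat.gcd (orderOf u) k := Nat.gcd_pos_of_pos_left _ (orderOf_pos u)
    exact lt_of_lt_of_le hp.out.one_lt (Nat.le_of_dvd h2 h1)
  have hdvd : orderOf w ∣ p ^ e := by
    rw [hord, ← he]; exact orderOf_pow_dvd k
  obtain ⟨j, _, hj⟩ := (Nat.dvd_prime_pow hp.out).mp hdvd
  have hQ : IsPGroup p ↥(Subgroup.zpowers w) := by
    apply IsPGroup.of_card (n := j)
    rw [Nat.card_zpowers, hj]
  have hQN : Subgroup.zpowers w ≤ N := (Subgroup.zpowers_le).mpr hw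
  obtain ⟨g, hgN, hg⟩ := Cfsg.Agent.Lib.Helper58.exists_conj_le_sylow_of_le S hSN hQN hQ
  have hs : g * w * g⁻¹ ∈ (S : Subgroup G) := hg w (Subgroup.mem_zpowers w)
  have hso : orderOf (g * w * g⁻¹) < orderOf u := by
    rw [orderOf_conj, hord]; exact hlt
  have h1 := IH _ hs hso
  have h2 : MonoidHom.transfer lam (g * w * g⁻¹) = 1 := by
    rw [map_mul, map_mul, map_inv, mul_inv_cancel_comm, hwa, map_mul, map_mul, map_inv,
      inv_mul_cancel_comm, map_pow]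
    obtain ⟨m, rfl⟩ := hk
    rw [pow_mul, pow_p_mult_zmod, one_pow]
  have h3 : (⟨g * w * g⁻¹, hSN hs⟩ : ↥N) = ⟨g, hgN⟩ * ⟨w, hw⟩ * ⟨g, hgN⟩⁻¹ := rfl
  rw [h2, h3, map_mul, map_mul, map_inv, mul_inv_cancel_comm] at h1
  exact h1.symm

/-- under the vanishing statement, the transfer of `u` is the product of the fixed-point
labels -/
theorem transfer_eq_prod_fixed (S : Sylow p G) (N : Subgroup G)
    (lam : ↥N →* Multiplicative (ZMod p)) (u : G) (hu : u ∈ (S : Subgroup G))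
    (hc2 : ∀ (w : G) (hw : w ∈ N) (a : G) (k : ℕ), p ∣ k → w = a⁻¹ * u ^ k * a →
      lam ⟨w, hw⟩ = 1) [Fintype (G ⧸ N)] :
    MonoidHom.transfer lam u = ∏ y : G ⧸ N, lbl N lam u 1 y := by
  apply transfer_eq_prod_lbl_one
  intro y hy
  induction y using QuotientGroup.induction_on with
  | H a =>
    obtain ⟨e, he⟩ := exists_orderOf_eq_pow S hu
    have hdvd : per N u (a : G ⧸ N) ∣ p ^ e := by
      rw [← he, per_dvd_iff, pow_orderOf_eq_one, one_smul]
    obtain ⟨j, _, hj⟩ := (Nat.dvd_prime_pow hp.out).mp hdvd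
    have hj0 : j ≠ 0 := by
      rintro rfl
      exact hy (by rw [hj, pow_zero])
    have hpk : p ∣ per N u (a : G ⧸ N) := by rw [hj]; exact dvd_pow_self p hj0
    by_cases h : a⁻¹ * u ^ per N u (a : G ⧸ N) * a ∈ N
    · rw [lbl_of_mem _ _ _ _ _ h]
      exact hc2 _ h a _ hpk rfl
    · rw [lbl_of_not_mem _ _ _ _ _ h]

theorem conj_pow_inv (a g : G) (k : ℕ) : (a⁻¹ * g * a) ^ k = a⁻¹ * g ^ k * a := by
  have := conj_pow (a := a⁻¹) (b := g) (i := k)
  simpa using this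

/-- the block lemma: the product of the fixed-point labels of `u` over a `W⟨u⟩`-orbit other
than the trivial coset is `1`, unless the conclusion of the Wielandt–Yoshida theorem holds -/
theorem prod_orbit_eq_one (S : Sylow p G) {W : Subgroup G}
    (hW : Cfsg.IsWeaklyClosed W (S : Subgroup G)) (N : Subgroup G)
    (hN : N = Subgroup.normalizer (W : Set G))
    (lam : ↥N →* Multiplicative (ZMod p)) (u : G)
    (hu : u ∈ (S : Subgroup G))
    (hc2 : ∀ (w : G) (hw : w ∈ N) (a : G) (k : ℕ), p ∣ k →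
      w = a⁻¹ * u ^ k * a → lam ⟨w, hw⟩ = 1)
    (hno : ∀ z ∈ W, ∀ W₀ : Subgroup ↥W, W₀.index = p → z ∉ W₀.map W.subtype →
      (u ∈ W → u ∈ W₀.map W.subtype) →
      (fun y : G => y⁻¹ * z⁻¹ * y * z)^[p - 1] u ∈ W₀.map W.subtype →
      (fun y : G => y⁻¹ * z⁻¹ * y * z)^[p - 1] u ∈
        ((frattini ↥W₀).map W₀.subtype).map W.subtype)
    (x₀ : G) (hx₀ : x₀ ∉ N) (hfix : x₀⁻¹ * u * x₀ ∈ N) [Fintype (G ⧸ N)] :
    (open Classical in ∏ y ∈ Finset.univ.filter (fun y : G ⧸ N =>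
        y ∈ orbit ↥(W ⊔ Subgroup.zpowers u) (x₀ : G ⧸ N)),
      lbl N lam u 1 y) = 1 := by
  classical
  set K := W ⊔ Subgroup.zpowers u with hKdef
  have hp2 : 2 ≤ p := hp.out.two_le
  have hSN : (S : Subgroup G) ≤ N := by rw [hN]; exact le_normalizer_of_weaklyClosed hW
  have hWK : W ≤ K := le_sup_left
  have huK : u ∈ K := (le_sup_right : Subgroup.zpowers u ≤ K) (Subgroup.mem_zpowers u)
  have hKS : K ≤ (S : Subgroup G) := sup_le hW.1 ((Subgroup.zpowers_le).mpr hu)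
  have hKp : IsPGroup p K := S.isPGroup'.to_le hKS
  -- the stabilizer
  have hstab : ∀ g : G, g ∈ stabilizer G (x₀ : G ⧸ N) ↔ x₀⁻¹ * g * x₀ ∈ N := by
    intro g
    rw [mem_stabilizer_iff]
    have h1 : g • (x₀ : G ⧸ N) = ((g * x₀ : G) : G ⧸ N) := rfl
    rw [h1, eq_comm, QuotientGroup.eq]
    simp [mul_assoc]
  have huR : u ∈ K ⊓ stabilizer G (x₀ : G ⧸ N) := ⟨huK, (hstab u).mpr hfix⟩
  have hRne : K ⊓ stabilizer G (x₀ : G ⧸ N) ≠ K := by
    intro hRK
    apply hx₀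
    rw [hN]
    apply mem_normalizer_of_fix S hW x₀
    intro w hw
    have h1 : w ∈ K ⊓ stabilizer G (x₀ : G ⧸ N) := by rw [hRK]; exact hWK hw
    rw [← hN]
    exact (hstab w).mp h1.2
  obtain ⟨M, hRM, hMK, hMn, hMi⟩ :=
    exists_normal_index_p K (K ⊓ stabilizer G (x₀ : G ⧸ N)) hKp inf_le_left hRne
  have huM : u ∈ M := hRM huR
  have hWM : ¬ W ≤ M := by
    intro hWM
    have hKM : K ≤ M := sup_le hWM ((Subgroup.zpowers_le).mpr huM)
    have h1 : M.subgroupOf K = ⊤ := Subgroup.subgroupOf_eq_top.mpr hKM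
    rw [h1, Subgroup.index_top] at hMi
    exact hp.out.one_lt.ne hMi
  obtain ⟨z, hzW, hzM⟩ := SetLike.not_le_iff_exists.mp hWM
  have hzK : z ∈ K := hWK hzW
  -- `K` normalizes `M`
  have hnorm : ∀ k ∈ K, ∀ m ∈ M, k * m * k⁻¹ ∈ M := by
    intro k hk m hm
    have h1 : (⟨m, hMK hm⟩ : ↥K) ∈ M.subgroupOf K := Subgroup.mem_subgroupOf.mpr hm
    have h2 := hMn.conj_mem _ h1 ⟨k, hk⟩
    exact Subgroup.mem_subgroupOf.mp h2
  have hnorm' : ∀ k ∈ K, ∀ m ∈ M, k⁻¹ * m * k ∈ M := by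
    intro k hk m hm
    have := hnorm k⁻¹ (K.inv_mem hk) m hm
    simpa using this
  -- the quotient `K / M` of order `p`, generated by `z`
  have hcardQ : Nat.card (↥K ⧸ M.subgroupOf K) = p := by rw [← Subgroup.index_eq_card, hMi]
  have hz'ne : (((⟨z, hzK⟩ : ↥K)) : ↥K ⧸ M.subgroupOf K) ≠ 1 := by
    intro h
    rw [QuotientGroup.eq_one_iff] at h
    exact hzM (Subgroup.mem_subgroupOf.mp h)
  have hdec : ∀ k ∈ K, ∃ i < p, (z ^ i)⁻¹ * k ∈ M := by
    intro k hk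
    have htop := zpowers_eq_top_of_prime_card (p := p) hcardQ hz'ne
    have hmem : ((⟨k, hk⟩ : ↥K) : ↥K ⧸ M.subgroupOf K) ∈
        Subgroup.zpowers (((⟨z, hzK⟩ : ↥K)) : ↥K ⧸ M.subgroupOf K) := by
      rw [htop]; trivial
    rw [← mem_powers_iff_mem_zpowers] at hmem
    obtain ⟨n, hn⟩ := hmem
    refine ⟨n % p, Nat.mod_lt _ hp.out.pos, ?_⟩
    have h0 := pow_mod_natCard (((⟨z, hzK⟩ : ↥K)) : ↥K ⧸ M.subgroupOf K) n
    rw [hcardQ] at h0
    have h2 : (((⟨z, hzK⟩ : ↥K) ^ (n % p) : ↥K) : ↥K ⧸ M.subgroupOf K) =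
        ((⟨k, hk⟩ : ↥K) : ↥K ⧸ M.subgroupOf K) := by
      rw [QuotientGroup.mk_pow, h0]; exact hn
    have h3 := QuotientGroup.eq.mp h2
    exact Subgroup.mem_subgroupOf.mp h3
  have hordz : orderOf (((⟨z, hzK⟩ : ↥K)) : ↥K ⧸ M.subgroupOf K) = p := by
    apply orderOf_eq_prime
    · have := pow_card_eq_one' (G := ↥K ⧸ M.subgroupOf K)
        (x := (((⟨z, hzK⟩ : ↥K)) : ↥K ⧸ M.subgroupOf K))
      rwa [hcardQ] at this
    · exact hz'ne
  have hinj : ∀ i < p, ∀ j < p, (z ^ j)⁻¹ * z ^ i ∈ M → i = j := by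
    intro i hi j hj h
    have h1 : (((⟨z, hzK⟩ : ↥K) ^ j : ↥K) : ↥K ⧸ M.subgroupOf K) =
        (((⟨z, hzK⟩ : ↥K) ^ i : ↥K) : ↥K ⧸ M.subgroupOf K) :=
      QuotientGroup.eq.mpr (Subgroup.mem_subgroupOf.mpr h)
    rw [QuotientGroup.mk_pow, QuotientGroup.mk_pow] at h1
    exact (pow_injOn_Iio_orderOf (by rw [hordz]; exact hj) (by rw [hordz]; exact hi) h1).symm
  have hui : ∀ i : ℕ, (z ^ i)⁻¹ * u * z ^ i ∈ M := fun i =>
    hnorm' (z ^ i) (K.pow_mem hzK i) u huM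
  have hai : ∀ i : ℕ, u⁻¹ * (z ^ i)⁻¹ * u * z ^ i ∈ W ⊓ M := by
    intro i
    constructor
    · exact W.mul_mem
        (conj_mem_of_mem_normalizer (hN ▸ hSN hu) (W.inv_mem (W.pow_mem hzW i))).2
        (W.pow_mem hzW i)
    · have e : u⁻¹ * (z ^ i)⁻¹ * u * z ^ i = u⁻¹ * ((z ^ i)⁻¹ * u * z ^ i) := by group
      rw [e]
      exact M.mul_mem (M.inv_mem huM) (hui i)
  -- decomposition of the `K`-orbit into the `z^i`-translates of the `M`-orbit
  have hprod : (∏ y ∈ Finset.univ.filter (fun y : G ⧸ N => y ∈ orbit ↥K (x₀ : G ⧸ N)),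
        lbl N lam u 1 y) =
      ∏ x ∈ (Finset.range p) ×ˢ
          Finset.univ.filter (fun y : G ⧸ N => y ∈ orbit ↥M (x₀ : G ⧸ N)),
        lbl N lam u 1 (z ^ x.1 • x.2) := by
    symm
    apply Finset.prod_nbij (fun x : ℕ × (G ⧸ N) => z ^ x.1 • x.2)
    · rintro ⟨i, y⟩ hx
      rw [Finset.mem_product, Finset.mem_filter] at hx
      obtain ⟨m, rfl⟩ := hx.2.2
      rw [Finset.mem_filter]
      refine ⟨Finset.mem_univ _,
        ⟨⟨z ^ i * (m : G), K.mul_mem (K.pow_mem hzK i) (hMK m.2)⟩, ?_⟩⟩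
      show (z ^ i * (m : G)) • (x₀ : G ⧸ N) = z ^ i • ((m : G) • (x₀ : G ⧸ N))
      rw [mul_smul]
    · rintro ⟨i, y⟩ hx ⟨j, y'⟩ hx' heq
      rw [Finset.mem_coe, Finset.mem_product, Finset.mem_filter] at hx hx'
      obtain ⟨m, rfl⟩ := hx.2.2
      obtain ⟨m', rfl⟩ := hx'.2.2
      have hi := Finset.mem_range.mp hx.1
      have hj := Finset.mem_range.mp hx'.1
      have h0 : (z ^ i * (m : G)) • (x₀ : G ⧸ N) = (z ^ j * (m' : G)) • (x₀ : G ⧸ N) := by
        rw [mul_smul, mul_smul]; exact heq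
      have h1 : ((z ^ j * (m' : G))⁻¹ * (z ^ i * (m : G))) • (x₀ : G ⧸ N) = (x₀ : G ⧸ N) := by
        rw [mul_smul, h0, inv_smul_smul]
      have h2 : (z ^ j * (m' : G))⁻¹ * (z ^ i * (m : G)) ∈ M := by
        apply hRM
        refine ⟨?_, h1⟩
        exact K.mul_mem (K.inv_mem (K.mul_mem (K.pow_mem hzK j) (hMK m'.2)))
          (K.mul_mem (K.pow_mem hzK i) (hMK m.2))
      have h3 : (z ^ j)⁻¹ * z ^ i ∈ M := by
        have h4 := M.mul_mem (M.mul_mem m'.2 h2) (M.inv_mem m.2)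
        have e : (m' : G) * ((z ^ j * (m' : G))⁻¹ * (z ^ i * (m : G))) * (m : G)⁻¹ =
            (z ^ j)⁻¹ * z ^ i := by group
        rwa [e] at h4
      have hij := hinj i hi j hj h3
      subst hij
      have h5 : (m : ↥M) • (x₀ : G ⧸ N) = (m' : ↥M) • (x₀ : G ⧸ N) :=
        (MulAction.injective (z ^ i)) heq
      exact congrArg (Prod.mk i) h5
    · intro y hy
      rw [Finset.mem_coe, Finset.mem_filter] at hy
      obtain ⟨k, rfl⟩ := hy.2
      obtain ⟨i, hi, hm⟩ := hdec k k.2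
      refine ⟨(i, ((z ^ i)⁻¹ * (k : G)) • (x₀ : G ⧸ N)), ?_, ?_⟩
      · rw [Finset.mem_coe, Finset.mem_product, Finset.mem_filter]
        exact ⟨Finset.mem_range.mpr hi, Finset.mem_univ _, ⟨⟨_, hm⟩, rfl⟩⟩
      · show z ^ i • (((z ^ i)⁻¹ * (k : G)) • (x₀ : G ⧸ N)) = (k : G) • (x₀ : G ⧸ N)
        rw [smul_smul, mul_inv_cancel_left]
    · intro x _
      rfl
  rw [hprod, Finset.prod_product]
  -- each block is a transfer inside `M`
  obtain ⟨e, he⟩ := exists_orderOf_eq_pow S hu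
  have hblock : ∀ i ∈ Finset.range p,
      (∏ y ∈ Finset.univ.filter (fun y : G ⧸ N => y ∈ orbit ↥M (x₀ : G ⧸ N)),
        lbl N lam u 1 (z ^ i • y)) =
      MonoidHom.transfer (lam.comp (stabHom N M x₀)) (⟨(z ^ i)⁻¹ * u * z ^ i, hui i⟩ : ↥M) := by
    intro i _
    have h1 : ∀ y : G ⧸ N, lbl N lam u 1 (z ^ i • y) = lbl N lam ((z ^ i)⁻¹ * u * z ^ i) 1 y :=
      fun y => lbl_smul N lam u (z ^ i) 1 y
    simp_rw [h1]
    apply prod_orbit_eq_transfer N lam M x₀ _ (hui i)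
    intro l hl
    have hordi : orderOf ((z ^ i)⁻¹ * u * z ^ i) = p ^ e := by
      have := orderOf_conj (z ^ i)⁻¹ u
      rw [inv_inv] at this
      rw [this, he]
    have hdvd : per N ((z ^ i)⁻¹ * u * z ^ i) ((((l : G) * x₀ : G)) : G ⧸ N) ∣ p ^ e := by
      rw [← hordi, per_dvd_iff, pow_orderOf_eq_one, one_smul]
    obtain ⟨j, _, hj⟩ := (Nat.dvd_prime_pow hp.out).mp hdvd
    have hj0 : j ≠ 0 := by
      rintro rfl
      exact hl (by rw [hj, pow_zero])
    have hpk : p ∣ per N ((z ^ i)⁻¹ * u * z ^ i) ((((l : G) * x₀ : G)) : G ⧸ N) := by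
      rw [hj]; exact dvd_pow_self p hj0
    by_cases h : ((l : G) * x₀)⁻¹ * ((z ^ i)⁻¹ * u * z ^ i) ^
        per N ((z ^ i)⁻¹ * u * z ^ i) ((((l : G) * x₀ : G)) : G ⧸ N) * ((l : G) * x₀) ∈ N
    · rw [lbl_of_mem _ _ _ _ _ h]
      apply hc2 _ h (z ^ i * (l : G) * x₀) _ hpk
      rw [conj_pow_inv]
      group
    · rw [lbl_of_not_mem _ _ _ _ _ h]
  rw [Finset.prod_congr rfl hblock]
  set ν : ↥M →* Multiplicative (ZMod p) := MonoidHom.transfer (lam.comp (stabHom N M x₀)) with hν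
  -- split off `u`
  have hsplit : ∀ i ∈ Finset.range p, ν (⟨(z ^ i)⁻¹ * u * z ^ i, hui i⟩ : ↥M) =
      ν ⟨u, huM⟩ * ν ⟨u⁻¹ * (z ^ i)⁻¹ * u * z ^ i, (Subgroup.mem_inf.mp (hai i)).2⟩ := by
    intro i _
    rw [← map_mul]
    congr 1
    apply Subtype.ext
    show (z ^ i)⁻¹ * u * z ^ i = u * (u⁻¹ * (z ^ i)⁻¹ * u * z ^ i)
    group
  rw [Finset.prod_congr rfl hsplit, Finset.prod_mul_distrib, Finset.prod_const, Finset.card_range,
    pow_p_mult_zmod, one_mul]
  -- the function `χ`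
  let χ : G → Multiplicative (ZMod p) := fun g => if h : g ∈ M then ν ⟨g, h⟩ else 1
  have hχ : MulOn (W ⊓ M) χ := by
    intro a ha b hb
    show (if h : a * b ∈ M then ν ⟨a * b, h⟩ else 1) =
      (if h : a ∈ M then ν ⟨a, h⟩ else 1) * (if h : b ∈ M then ν ⟨b, h⟩ else 1)
    rw [dif_pos (M.mul_mem (Subgroup.mem_inf.mp ha).2 (Subgroup.mem_inf.mp hb).2),
      dif_pos (Subgroup.mem_inf.mp ha).2, dif_pos (Subgroup.mem_inf.mp hb).2, ← map_mul]
    rfl
  have hχa : ∀ i ∈ Finset.range p, ν ⟨u⁻¹ * (z ^ i)⁻¹ * u * z ^ i, (Subgroup.mem_inf.mp (hai i)).2⟩ =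
      χ (u⁻¹ * (z ^ i)⁻¹ * u * z ^ i) := by
    intro i _
    show _ = (if h : u⁻¹ * (z ^ i)⁻¹ * u * z ^ i ∈ M then ν ⟨_, h⟩ else 1)
    rw [dif_pos (Subgroup.mem_inf.mp (hai i)).2]
  rw [Finset.prod_congr rfl hχa]
  have hzY : ∀ y ∈ W ⊓ M, z⁻¹ * y * z ∈ W ⊓ M := fun y hy =>
    Subgroup.mem_inf.mpr ⟨W.mul_mem (W.mul_mem (W.inv_mem hzW) (Subgroup.mem_inf.mp hy).1) hzW,
      hnorm' z hzK y (Subgroup.mem_inf.mp hy).2⟩
  have hcY : u⁻¹ * z⁻¹ * u * z ∈ W ⊓ M := by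
    have := hai 1
    simpa using this
  rw [prod_comm_pow_eq p (pow_p_mult_zmod p) (W ⊓ M) χ hχ z u hzY hcY]
  have helt : (fun y : G => y⁻¹ * z⁻¹ * y * z)^[p - 1] u ∈ W ⊓ M := by
    have e2 : p - 1 = (p - 2) + 1 := by omega
    rw [e2, Function.iterate_succ_apply]
    exact iterate_comm_mem z hzY hcY (p - 2)
  -- apply the hypothesis
  have hmap : ((W ⊓ M).subgroupOf W).map W.subtype = W ⊓ M :=
    Subgroup.map_subgroupOf_eq_of_le inf_le_left
  have hidx : ((W ⊓ M).subgroupOf W).index = p := by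
    show (W ⊓ M).relIndex W = p
    rw [Subgroup.inf_relIndex_left, ← Subgroup.relIndex_subgroupOf hWK]
    have h1 : (M.subgroupOf K).relIndex (W.subgroupOf K) ∣ p := by
      rw [← hMi]; exact Subgroup.relIndex_dvd_index_of_normal _ _
    rcases (Nat.dvd_prime hp.out).mp h1 with h2 | h2
    · exfalso
      apply hWM
      have h3 : W.subgroupOf K ≤ M.subgroupOf K := Subgroup.relIndex_eq_one.mp h2
      intro w hw
      exact Subgroup.mem_subgroupOf.mp (h3 (Subgroup.mem_subgroupOf.mpr hw : (⟨w, hWK hw⟩ : ↥K) ∈ W.subgroupOf K))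
    · exact h2
  have hfr := hno z hzW ((W ⊓ M).subgroupOf W) hidx
    (by rw [hmap]; exact fun h => hzM (Subgroup.mem_inf.mp h).2)
    (fun huW => by rw [hmap]; exact Subgroup.mem_inf.mpr ⟨huW, huM⟩) (by rw [hmap]; exact helt)
  obtain ⟨w', ⟨f, hf, rfl⟩, hw'⟩ := hfr
  let j : ↥((W ⊓ M).subgroupOf W) →* ↥M :=
    { toFun := fun w => ⟨((w : ↥W) : G), (Subgroup.mem_subgroupOf.mp w.2).2⟩
      map_one' := rfl
      map_mul' := fun _ _ => rfl }
  have hkill := hom_zmod_kills_frattini (ν.comp j) hf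
  show (if h : (fun y : G => y⁻¹ * z⁻¹ * y * z)^[p - 1] u ∈ M then ν ⟨_, h⟩ else 1) = 1
  rw [dif_pos (Subgroup.mem_inf.mp helt).2, ← hkill]
  show ν _ = ν (j f)
  congr 1
  apply Subtype.ext
  exact hw'.symm

/-- unless the conclusion of the Wielandt–Yoshida theorem holds, the transfer of any
`lam : N_G(W) → Z_p` agrees with `lam` on `S` -/
theorem transfer_eq_of_no_triple (S : Sylow p G) {W : Subgroup G}
    (hW : Cfsg.IsWeaklyClosed W (S : Subgroup G)) (N : Subgroup G)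
    (hN : N = Subgroup.normalizer (W : Set G)) (hSN : (S : Subgroup G) ≤ N)
    (hno : ∀ u ∈ (S : Subgroup G), ∀ z ∈ W, ∀ W₀ : Subgroup ↥W, W₀.index = p →
      z ∉ W₀.map W.subtype → (u ∈ W → u ∈ W₀.map W.subtype) →
      (fun y : G => y⁻¹ * z⁻¹ * y * z)^[p - 1] u ∈ W₀.map W.subtype →
      (fun y : G => y⁻¹ * z⁻¹ * y * z)^[p - 1] u ∈
        ((frattini ↥W₀).map W₀.subtype).map W.subtype)
    (lam : ↥N →* Multiplicative (ZMod p)) :
    ∀ u (hu : u ∈ (S : Subgroup G)), MonoidHom.transfer lam u = lam ⟨u, hSN hu⟩ := by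
  classical
  suffices H : ∀ n : ℕ, ∀ u (hu : u ∈ (S : Subgroup G)), orderOf u = n →
      MonoidHom.transfer lam u = lam ⟨u, hSN hu⟩ from fun u hu => H _ u hu rfl
  intro n
  induction n using Nat.strong_induction_on with
  | _ n ih =>
    intro u hu hn
    by_cases hu1 : u = 1
    · subst hu1
      rw [map_one]
      exact (map_one lam).symm
    have IH : ∀ s (hs : s ∈ (S : Subgroup G)), orderOf s < orderOf u →
        MonoidHom.transfer lam s = lam ⟨s, hSN hs⟩ := by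
      intro s hs hlt
      exact ih (orderOf s) (hn ▸ hlt) s hs rfl
    have hc2 : ∀ (w : G) (hw : w ∈ N) (a : G) (k : ℕ), p ∣ k → w = a⁻¹ * u ^ k * a →
        lam ⟨w, hw⟩ = 1 := fun w hw a k hk hwa =>
      lam_conj_pow_eq_one S N hSN lam u hu hu1 IH w hw a k hk hwa
    let _ : Fintype (G ⧸ N) := Fintype.ofFinite _
    rw [transfer_eq_prod_fixed S N lam u hu hc2]
    let _ : Fintype (Quotient (orbitRel ↥(W ⊔ Subgroup.zpowers u) (G ⧸ N))) := Fintype.ofFinite _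
    have hKN : W ⊔ Subgroup.zpowers u ≤ N :=
      (sup_le hW.1 ((Subgroup.zpowers_le).mpr hu)).trans hSN
    rw [← Finset.prod_fiberwise (Finset.univ : Finset (G ⧸ N))
      (fun y => (Quotient.mk (orbitRel ↥(W ⊔ Subgroup.zpowers u) (G ⧸ N)) y))
      (fun y => lbl N lam u 1 y)]
    rw [Finset.prod_eq_single
      (Quotient.mk (orbitRel ↥(W ⊔ Subgroup.zpowers u) (G ⧸ N)) ((1 : G) : G ⧸ N))]
    · -- the trivial orbit
      rw [Finset.prod_eq_single_of_mem ((1 : G) : G ⧸ N)]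
      · have h : (1 : G)⁻¹ * u ^ 1 * 1 ∈ N := by simpa using hSN hu
        rw [lbl_of_mem _ _ _ _ _ h]
        congr 1
        apply Subtype.ext
        simp
      · rw [Finset.mem_filter]
        exact ⟨Finset.mem_univ _, rfl⟩
      · intro y hy hne
        exfalso
        apply hne
        rw [Finset.mem_filter] at hy
        have h2 : y ∈ orbit ↥(W ⊔ Subgroup.zpowers u) ((1 : G) : G ⧸ N) := Quotient.exact hy.2
        obtain ⟨k, rfl⟩ := h2
        show (((k : G) * 1 : G) : G ⧸ N) = ((1 : G) : G ⧸ N)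
        rw [QuotientGroup.eq]
        simpa using N.inv_mem (hKN k.2)
    · intro q _ hq
      induction q using Quotient.inductionOn with
      | _ y₁ =>
        by_cases hex : ∃ y : G ⧸ N,
            Quotient.mk (orbitRel ↥(W ⊔ Subgroup.zpowers u) (G ⧸ N)) y =
              Quotient.mk (orbitRel ↥(W ⊔ Subgroup.zpowers u) (G ⧸ N)) y₁ ∧ u • y = y
        · obtain ⟨y₀, hy₀, hfix⟩ := hex
          have hx : ((y₀.out : G) : G ⧸ N) = y₀ := QuotientGroup.out_eq' y₀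
          have hx₀ : y₀.out ∉ N := by
            intro hmem
            apply hq
            rw [← hy₀, ← hx]
            apply Quotient.sound
            show ((y₀.out : G) : G ⧸ N) ∈ orbit ↥(W ⊔ Subgroup.zpowers u) ((1 : G) : G ⧸ N)
            have e : ((y₀.out : G) : G ⧸ N) = ((1 : G) : G ⧸ N) := by
              rw [QuotientGroup.eq]
              simpa using N.inv_mem hmem
            rw [e]
            exact mem_orbit_self _
          have hfix' : (y₀.out)⁻¹ * u * y₀.out ∈ N := by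
            have h1 : u ^ 1 • ((y₀.out : G) : G ⧸ N) = ((y₀.out : G) : G ⧸ N) := by
              rw [hx, pow_one]; exact hfix
            have h2 := (pow_smul_mk_eq_iff N u 1 y₀.out).mp h1
            simpa using h2
          have hfilt : Finset.univ.filter (fun y : G ⧸ N =>
              Quotient.mk (orbitRel ↥(W ⊔ Subgroup.zpowers u) (G ⧸ N)) y =
                Quotient.mk (orbitRel ↥(W ⊔ Subgroup.zpowers u) (G ⧸ N)) y₁) =
              Finset.univ.filter (fun y : G ⧸ N =>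
                y ∈ orbit ↥(W ⊔ Subgroup.zpowers u) ((y₀.out : G) : G ⧸ N)) := by
            apply Finset.filter_congr
            intro y _
            rw [hx, ← hy₀]
            exact Quotient.eq
          rw [hfilt]
          exact prod_orbit_eq_one S hW N hN lam u hu hc2 (hno u hu) y₀.out hx₀ hfix'
        · apply Finset.prod_eq_one
          intro y hy
          rw [Finset.mem_filter] at hy
          apply lbl_eq_one_of_not_fixed
          intro hfix
          apply hex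
          exact ⟨y, hy.2, by simpa using hfix⟩
    · intro h
      exact absurd (Finset.mem_univ _) h

end WY

end Cfsg.Agent.Lib.Helper30
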