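import Cfsg.Agent.Lib.Helper30.WYCore

set_option autoImplicit false

/-!
A Tate-type theorem in terms of transfer into a group of order `p`, and the resulting core
form of the Wielandt–Yoshida theorem.
-/

namespace Cfsg.Agent.Lib.Helper30

open Cfsg.Agent.Lib.Helper2 Cfsg.Agent.Lib.Helper88

open scoped commutatorElement

section WYTate

/-- a homomorphism to a group of order `p` kills `O^p` -/
theorem hom_zmod_kills_pResidual {H : Type*} [Group H] {p : ℕ} [Fact p.Prime]
    (f : H →* Multiplicative (ZMod p)) {g : H} (hg : g ∈ Cfsg.pResidual p H) : f g = 1 := by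
  have hle : Cfsg.pResidual p H ≤ f.ker := by
    unfold Cfsg.pResidual
    rw [Subgroup.closure_le]
    intro g hg
    rw [SetLike.mem_coe, MonoidHom.mem_ker]
    have h1 : orderOf (f g) ∣ p := orderOf_dvd_of_pow_eq_one (pow_p_mult_zmod p _)
    have h2 : orderOf (f g) ∣ orderOf g := orderOf_map_dvd f g
    have h3 : orderOf (f g) = 1 :=
      Nat.Coprime.eq_one_of_dvd (Nat.Coprime.coprime_dvd_left h2 hg) h1
    exact orderOf_eq_one_iff.mp h3
  exact MonoidHom.mem_ker.1 (hle hg)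

/-- a `p`-element congruent to an element of `O^p(H)` modulo `H'` lies in `H'` -/
theorem mem_commutator_of_mul_mem_pResidual {H : Type*} [Group H] {p : ℕ} (x c : H)
    (hc : c ∈ commutator H) (hxK : c⁻¹ * x ∈ Cfsg.pResidual p H) (k : ℕ)
    (hx : x ^ p ^ k = 1) : x ∈ commutator H := by
  let T : Subgroup (Abelianization H) :=
    { carrier := {a | Nat.Coprime (orderOf a) p}
      one_mem' := by simp
      mul_mem' := by
        intro a b ha hb
        have h1 : orderOf (a * b) ∣ orderOf a * orderOf b :=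
          (Commute.all a b).orderOf_mul_dvd_lcm.trans (Nat.lcm_dvd_mul _ _)
        exact Nat.Coprime.coprime_dvd_left h1 (Nat.Coprime.mul_left ha hb)
      inv_mem' := by
        intro a ha
        show Nat.Coprime (orderOf a⁻¹) p
        rw [orderOf_inv]; exact ha }
  have hT : Cfsg.pResidual p H ≤ T.comap Abelianization.of := by
    unfold Cfsg.pResidual
    rw [Subgroup.closure_le]
    intro g hg
    show Nat.Coprime (orderOf (Abelianization.of g)) p
    exact Nat.Coprime.coprime_dvd_left (orderOf_map_dvd _ g) hg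
  have hc1 : Abelianization.of c = 1 := by
    rw [← Abelianization.ker_of] at hc
    exact hc
  have hfx : Nat.Coprime (orderOf (Abelianization.of x)) p := by
    have h1 : Nat.Coprime (orderOf (Abelianization.of (c⁻¹ * x))) p := hT hxK
    rwa [map_mul, map_inv, hc1, inv_one, one_mul] at h1
  have h2 : orderOf (Abelianization.of x) ∣ p ^ k :=
    orderOf_dvd_of_pow_eq_one (by rw [← map_pow, hx, map_one])
  have h3 : orderOf (Abelianization.of x) = 1 :=
    Nat.Coprime.eq_one_of_dvd (Nat.Coprime.pow_right k hfx) h2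
  have h4 : Abelianization.of x = 1 := orderOf_eq_one_iff.mp h3
  rw [← Abelianization.ker_of]
  exact h4

variable {G : Type*} [Group G] [Finite G] {p : ℕ} [hp : Fact p.Prime]

/-- if the transfer of `lam` agrees with `lam` on a Sylow `p`-subgroup, it agrees on all of
`N` -/
theorem transfer_eq_on_all (P : Sylow p G) (N : Subgroup G) (hPN : (P : Subgroup G) ≤ N)
    (lam : ↥N →* Multiplicative (ZMod p))
    (hE : ∀ u (hu : u ∈ (P : Subgroup G)), MonoidHom.transfer lam u = lam ⟨u, hPN hu⟩) :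
    ∀ n : ↥N, MonoidHom.transfer lam (n : G) = lam n := by
  let ρ : ↥N →* Multiplicative (ZMod p) := ((MonoidHom.transfer lam).comp N.subtype) * lam⁻¹
  have hρ : ∀ n : ↥N, ρ n = MonoidHom.transfer lam (n : G) * (lam n)⁻¹ := fun n => rfl
  have hPker : ((P.subtype hPN : Sylow p ↥N) : Subgroup ↥N) ≤ ρ.ker := by
    intro x hx
    have hx' : (x : G) ∈ (P : Subgroup G) := hx
    rw [MonoidHom.mem_ker, hρ, hE _ hx']
    exact mul_inv_cancel _
  have hidx : ρ.ker.index ∣ p := by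
    rw [Subgroup.index_ker]
    have := Subgroup.card_subgroup_dvd_card ρ.range
    rwa [card_mult_zmod] at this
  have h1 : ρ.ker.index ∣ ((P.subtype hPN : Sylow p ↥N) : Subgroup ↥N).index :=
    Subgroup.index_dvd_of_le hPker
  have h2 : ¬ p ∣ ((P.subtype hPN : Sylow p ↥N) : Subgroup ↥N).index :=
    (P.subtype hPN).not_dvd_index
  have h3 : ρ.ker.index = 1 := by
    rcases (Nat.dvd_prime hp.out).mp hidx with h | h
    · exact h
    · rw [h] at h1
      exact absurd h1 h2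
  have h4 : ρ.ker = ⊤ := Subgroup.index_eq_one.mp h3
  intro n
  have h5 : n ∈ ρ.ker := h4 ▸ Subgroup.mem_top n
  rw [MonoidHom.mem_ker, hρ] at h5
  exact mul_inv_eq_one.mp h5

/-- **Tate's theorem**, transfer form: if the transfer `G → Z_p` of every `lam : N → Z_p`
restricts to `lam` on the Sylow `p`-subgroup `P ≤ N`, then `N ∩ O^p(G) ≤ O^p(N)`. -/
theorem tate_of_transfer_eq (P : Sylow p G) (H : Subgroup G) (hPH : (P : Subgroup G) ≤ H)
    (hE : ∀ lam : ↥H →* Multiplicative (ZMod p), ∀ u (hu : u ∈ (P : Subgroup G)),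
      MonoidHom.transfer lam u = lam ⟨u, hPH hu⟩) :
    (Cfsg.pResidual p G).subgroupOf H ≤ Cfsg.pResidual p H := by
  haveI hKn : (Cfsg.pResidual p G).Normal := pResidual_normal p
  haveI hLn : (Cfsg.pResidual p H).Normal := pResidual_normal p
  let M' : Subgroup H := (Cfsg.pResidual p G).subgroupOf H
  haveI : M'.Normal := Subgroup.normal_subgroupOf
  let L' : Subgroup H := Cfsg.pResidual p H
  haveI : L'.Normal := hLn
  have hLM : L' ≤ M' := pResidual_le_subgroupOf p H
  haveI : (⁅M', (⊤ : Subgroup H)⁆).Normal := Subgroup.commutator_normal M' ⊤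
  let M₁ : Subgroup H := ⁅M', (⊤ : Subgroup H)⁆ ⊔ L'
  haveI : M₁.Normal := Subgroup.sup_normal _ _
  have hM₁ : M₁ ≤ M' := sup_le (Subgroup.commutator_le_left M' ⊤) hLM
  have hcen : ⁅M', (⊤ : Subgroup H)⁆ ≤ M₁ := le_sup_left
  have hLM₁ : L' ≤ M₁ := le_sup_right
  have hpq : IsPGroup p (H ⧸ M₁) := by
    intro q
    obtain ⟨h, rfl⟩ := QuotientGroup.mk_surjective q
    obtain ⟨k, hk⟩ := pow_mem_pResidual p h
    exact ⟨k, by rw [← QuotientGroup.mk_pow]; exact (QuotientGroup.eq_one_iff _).mpr (hLM₁ hk)⟩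
  have hidx : H.index.Coprime p := by
    have h1 : H.index ∣ (P : Subgroup G).index := Subgroup.index_dvd_of_le hPH
    have h2 : (P : Subgroup G).index.Coprime p := by
      rw [Nat.coprime_comm, Nat.Prime.coprime_iff_not_dvd Fact.out]; exact P.not_dvd_index
    exact Nat.Coprime.coprime_dvd_left h1 h2
  obtain ⟨φ, hφK, hφ⟩ := tate_core H hidx M₁ hM₁ hcen hpq
  have hcentral : ∀ m : H, m ∈ M' → ∀ f : H ⧸ M₁, (m : H ⧸ M₁) * f = f * (m : H ⧸ M₁) := by
    intro m hm f
    obtain ⟨y, rfl⟩ := QuotientGroup.mk_surjective f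
    rw [← QuotientGroup.mk_mul, ← QuotientGroup.mk_mul]
    apply QuotientGroup.eq.2
    apply hcen
    have : (m * y)⁻¹ * (y * m) = ⁅y⁻¹, m⁻¹⁆ := by rw [commutatorElement_def]; group
    rw [this, Subgroup.commutator_comm]
    exact Subgroup.commutator_mem_commutator (Subgroup.mem_top _) (Subgroup.inv_mem _ hm)
  have hδdesc : ∀ h : H, ∃ m : H, m ∈ M' ∧ (h : H ⧸ M₁) * (φ (h : G))⁻¹ = (m : H ⧸ M₁) := by
    intro h
    obtain ⟨h', hh', hh'K⟩ := hφ (h : G)
    refine ⟨h * h'⁻¹, ?_, ?_⟩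
    · show ((h * h'⁻¹ : H) : G) ∈ Cfsg.pResidual p G
      have h1 := hKn.conj_mem _ (Subgroup.inv_mem _ hh'K) (h : G)
      have h2 : (h : G) * ((h : G)⁻¹ * (h' : G))⁻¹ * (h : G)⁻¹ = ((h * h'⁻¹ : H) : G) := by
        simp only [Subgroup.coe_mul, Subgroup.coe_inv]; group
      rw [← h2]
      exact h1
    · rw [hh', ← QuotientGroup.mk_inv, ← QuotientGroup.mk_mul]
  let δ : H →* H ⧸ M₁ := MonoidHom.mk' (fun h => (h : H ⧸ M₁) * (φ (h : G))⁻¹) (by
    intro a b
    obtain ⟨m, hm, hmb⟩ := hδdesc b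
    show ((a * b : H) : H ⧸ M₁) * (φ ((a * b : H) : G))⁻¹ =
      (a : H ⧸ M₁) * (φ (a : G))⁻¹ * ((b : H ⧸ M₁) * (φ (b : G))⁻¹)
    rw [hmb, Subgroup.coe_mul, map_mul, mul_inv_rev, QuotientGroup.mk_mul]
    calc (a : H ⧸ M₁) * (b : H ⧸ M₁) * ((φ (b : G))⁻¹ * (φ (a : G))⁻¹)
        = (a : H ⧸ M₁) * ((b : H ⧸ M₁) * (φ (b : G))⁻¹) * (φ (a : G))⁻¹ := by group
      _ = (a : H ⧸ M₁) * ((m : H ⧸ M₁) * (φ (a : G))⁻¹) := by rw [hmb, mul_assoc]
      _ = (a : H ⧸ M₁) * ((φ (a : G))⁻¹ * (m : H ⧸ M₁)) := by rw [hcentral m hm]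
      _ = _ := by rw [mul_assoc])
  have hδ : ∀ h : H, δ h = (h : H ⧸ M₁) * (φ (h : G))⁻¹ := fun h => rfl
  have hδM : ∀ m : H, m ∈ M' → δ m = (m : H ⧸ M₁) := by
    intro m hm
    have hm' : (m : G) ∈ Cfsg.pResidual p G := hm
    rw [hδ, hφK _ hm', inv_one, mul_one]
  have hMM₁ : M' ≤ M₁ := by
    by_contra hnot
    obtain ⟨m₀, hm₀M, hm₀⟩ := SetLike.not_le_iff_exists.mp hnot
    let Z : Subgroup (H ⧸ M₁) := M'.map (QuotientGroup.mk' M₁)
    have hZp : IsPGroup p Z := hpq.to_subgroup Z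
    have hZnt : Nontrivial Z := by
      refine ⟨⟨⟨QuotientGroup.mk' M₁ m₀, Subgroup.mem_map_of_mem _ hm₀M⟩, 1, fun h => hm₀ ?_⟩⟩
      have h1 := congrArg Subtype.val h
      exact (QuotientGroup.eq_one_iff m₀).1 h1
    obtain ⟨θ, hθ⟩ := exists_hom_zmod_ne_one hZp hZnt
    have hδZ : ∀ h : H, δ h ∈ Z := by
      intro h
      obtain ⟨m, hm, hmh⟩ := hδdesc h
      rw [hδ, hmh]
      exact Subgroup.mem_map_of_mem _ hm
    let δ' : H →* Z := δ.codRestrict Z hδZ
    let lam : H →* Multiplicative (ZMod p) := θ.comp δ'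
    apply hθ
    ext ⟨zq, hzq⟩
    obtain ⟨m, hm, rfl⟩ := hzq
    have h1 : δ' m = ⟨QuotientGroup.mk' M₁ m, Subgroup.mem_map_of_mem _ hm⟩ :=
      Subtype.ext (hδM m hm)
    have h2 : lam m = 1 := by
      rw [← transfer_eq_on_all P H hPH lam (hE lam) m]
      exact hom_zmod_kills_pResidual _ hm
    show θ ⟨QuotientGroup.mk' M₁ m, _⟩ = 1
    rw [← h1]
    exact h2
  haveI : Group.IsNilpotent (H ⧸ L') := by
    have hpL : IsPGroup p (H ⧸ L') := by
      intro q
      obtain ⟨h, rfl⟩ := QuotientGroup.mk_surjective q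
      obtain ⟨k, hk⟩ := pow_mem_pResidual p h
      exact ⟨k, by rw [← QuotientGroup.mk_pow]; exact (QuotientGroup.eq_one_iff _).mpr hk⟩
    exact hpL.isNilpotent
  have hbar : M'.map (QuotientGroup.mk' L') ≤
      ⁅M'.map (QuotientGroup.mk' L'), (⊤ : Subgroup (H ⧸ L'))⁆ := by
    have h1 : M'.map (QuotientGroup.mk' L') ≤ M₁.map (QuotientGroup.mk' L') :=
      Subgroup.map_mono hMM₁
    have h2 : M₁.map (QuotientGroup.mk' L') =
        ⁅M'.map (QuotientGroup.mk' L'), (⊤ : Subgroup (H ⧸ L'))⁆ := by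
      show (⁅M', (⊤ : Subgroup H)⁆ ⊔ L').map (QuotientGroup.mk' L') = _
      rw [Subgroup.map_sup, Subgroup.map_commutator, QuotientGroup.map_mk'_self, sup_bot_eq,
        ← MonoidHom.range_eq_map, MonoidHom.range_eq_top.2 (QuotientGroup.mk'_surjective L')]
    rw [← h2]
    exact h1
  have hbot := eq_bot_of_le_commutator_top _ hbar
  intro m hm
  have h1 : (QuotientGroup.mk' L' m) ∈ M'.map (QuotientGroup.mk' L') :=
    Subgroup.mem_map_of_mem _ hm
  rw [hbot, Subgroup.mem_bot] at h1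
  exact (QuotientGroup.eq_one_iff m).1 h1

/-- converse of Tate's theorem: if `H ∩ O^p(G) ≤ O^p(H)` for `H` containing a Sylow
`p`-subgroup `P`, then `P ∩ G' ≤ H'` -/
theorem focal_le_of_subgroupOf_le (P : Sylow p G) (H : Subgroup G)
    (hPH : (P : Subgroup G) ≤ H)
    (hML : (Cfsg.pResidual p G).subgroupOf H ≤ Cfsg.pResidual p H) :
    (P : Subgroup G) ⊓ commutator G ≤ ⁅H, H⁆ := by
  haveI hLn : (Cfsg.pResidual p H).Normal := pResidual_normal p
  haveI hKn : (Cfsg.pResidual p G).Normal := pResidual_normal p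
  haveI : ((Cfsg.pResidual p G).subgroupOf H).Normal := Subgroup.normal_subgroupOf
  have hidx : H.index.Coprime p := by
    have h1 : H.index ∣ (P : Subgroup G).index := Subgroup.index_dvd_of_le hPH
    have h2 : (P : Subgroup G).index.Coprime p := by
      rw [Nat.coprime_comm, Nat.Prime.coprime_iff_not_dvd Fact.out]; exact P.not_dvd_index
    exact Nat.Coprime.coprime_dvd_left h1 h2
  have hpq : IsPGroup p (H ⧸ Cfsg.pResidual p H) := by
    intro q
    obtain ⟨h, rfl⟩ := QuotientGroup.mk_surjective q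
    obtain ⟨k, hk⟩ := pow_mem_pResidual p h
    exact ⟨k, by rw [← QuotientGroup.mk_pow]; exact (QuotientGroup.eq_one_iff _).mpr hk⟩
  have hcen : ⁅(Cfsg.pResidual p G).subgroupOf H, (⊤ : Subgroup H)⁆ ≤ Cfsg.pResidual p H :=
    (Subgroup.commutator_le_left _ _).trans hML
  obtain ⟨φ, hφK, hφ⟩ := tate_core H hidx (Cfsg.pResidual p H) (pResidual_le_subgroupOf p H)
    hcen hpq
  have hφN : ∀ n : H, φ (n : G) = (n : H ⧸ Cfsg.pResidual p H) := by
    intro n
    obtain ⟨h, hh, hhK⟩ := hφ (n : G)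
    rw [hh]
    apply QuotientGroup.eq.2
    apply hML
    show ((h⁻¹ * n : H) : G) ∈ Cfsg.pResidual p G
    have h1 := Subgroup.inv_mem _ hhK
    simpa using h1
  rintro x ⟨hxP, hxc⟩
  have hxN : x ∈ H := hPH hxP
  have h1 : φ x ∈ commutator (H ⧸ Cfsg.pResidual p H) := by
    have h0 : φ x ∈ (commutator G).map φ := Subgroup.mem_map_of_mem _ hxc
    rw [commutator_def, Subgroup.map_commutator] at h0
    rw [commutator_def]
    exact Subgroup.commutator_mono le_top le_top h0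
  have h2 : commutator (H ⧸ Cfsg.pResidual p H) =
      (commutator H).map (QuotientGroup.mk' (Cfsg.pResidual p H)) := by
    rw [commutator_def, commutator_def, Subgroup.map_commutator, ← MonoidHom.range_eq_map,
      MonoidHom.range_eq_top.2 (QuotientGroup.mk'_surjective _)]
  rw [hφN ⟨x, hxN⟩, h2] at h1
  obtain ⟨c, hc, hcx⟩ := h1
  have hl : c⁻¹ * ⟨x, hxN⟩ ∈ Cfsg.pResidual p H := QuotientGroup.eq.1 hcx
  obtain ⟨k, hk⟩ := P.isPGroup' ⟨x, hxP⟩
  have hk' : (⟨x, hxN⟩ : H) ^ p ^ k = 1 := by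
    apply Subtype.ext
    simpa using congrArg Subtype.val hk
  have hx' : (⟨x, hxN⟩ : H) ∈ commutator H :=
    mem_commutator_of_mul_mem_pResidual _ c hc hl k hk'
  rw [← Subgroup.map_subtype_commutator]
  exact ⟨⟨x, hxN⟩, hx', rfl⟩

/-- the core form of the **Wielandt–Yoshida** theorem -/
theorem wy_core (S : Sylow p G) {W : Subgroup G}
    (hW : Cfsg.IsWeaklyClosed W (S : Subgroup G))
    (h : ¬ (Cfsg.pResidual p G).subgroupOf (Subgroup.normalizer (W : Set G)) ≤
      Cfsg.pResidual p (Subgroup.normalizer (W : Set G))) :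
    ∃ u ∈ (S : Subgroup G), ∃ z ∈ W, ∃ W₀ : Subgroup ↥W, W₀.index = p ∧
      z ∉ W₀.map W.subtype ∧ (u ∈ W → u ∈ W₀.map W.subtype) ∧
      (fun y : G => y⁻¹ * z⁻¹ * y * z)^[p - 1] u ∈ W₀.map W.subtype ∧
      (fun y : G => y⁻¹ * z⁻¹ * y * z)^[p - 1] u ∉
        ((frattini ↥W₀).map W₀.subtype).map W.subtype := by
  by_contra hcon
  apply h
  have hSN := le_normalizer_of_weaklyClosed hW
  apply tate_of_transfer_eq S _ hSN
  intro lam
  apply transfer_eq_of_no_triple S hW _ rfl hSN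
  intro u hu z hz W₀ hidx hzW₀ huW helt
  by_contra hfr
  exact hcon ⟨u, hu, z, hz, W₀, hidx, hzW₀, huW, helt, hfr⟩

/-- the Wielandt–Yoshida theorem, focal subgroup form -/
theorem wy_focal (S : Sylow p G) {W : Subgroup G}
    (hW : Cfsg.IsWeaklyClosed W (S : Subgroup G))
    (h : (S : Subgroup G) ⊓ commutator G ≠ (S : Subgroup G) ⊓
      ⁅Subgroup.normalizer (W : Set G), Subgroup.normalizer (W : Set G)⁆) :
    ∃ u ∈ (S : Subgroup G), ∃ z ∈ W, ∃ W₀ : Subgroup ↥W, W₀.index = p ∧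
      z ∉ W₀.map W.subtype ∧ (u ∈ W → u ∈ W₀.map W.subtype) ∧
      (fun y : G => y⁻¹ * z⁻¹ * y * z)^[p - 1] u ∈ W₀.map W.subtype ∧
      (fun y : G => y⁻¹ * z⁻¹ * y * z)^[p - 1] u ∉
        ((frattini ↥W₀).map W₀.subtype).map W.subtype := by
  apply wy_core S hW
  intro hML
  apply h
  have hSN := le_normalizer_of_weaklyClosed hW
  apply le_antisymm
  · exact le_inf inf_le_left (focal_le_of_subgroupOf_le S _ hSN hML)
  · apply inf_le_inf_left
    rw [commutator_def]
    exact Subgroup.commutator_mono le_top le_top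

/-- a subgroup of prime index is maximal -/
theorem isCoatom_of_index_eq_prime {H : Type*} [Group H] {q : ℕ} (hq : q.Prime)
    (K : Subgroup H) (hK : K.index = q) : IsCoatom K := by
  refine ⟨?_, fun b hb => ?_⟩
  · rintro rfl
    rw [Subgroup.index_top] at hK
    exact hq.one_lt.ne hK
  · have h1 : b.index ∣ q := hK ▸ Subgroup.index_dvd_of_le hb.le
    rcases (Nat.dvd_prime hq).mp h1 with h2 | h2
    · exact Subgroup.index_eq_one.mp h2
    · exfalso
      have h3 := Subgroup.relIndex_mul_index hb.le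
      rw [hK, h2] at h3
      have h4 : K.relIndex b = 1 := by
        have : K.relIndex b * q = 1 * q := by rw [h3, one_mul]
        exact Nat.eq_of_mul_eq_mul_right hq.pos this
      exact hb.not_ge (Subgroup.relIndex_eq_one.mp h4)

end WYTate

end Cfsg.Agent.Lib.Helper30
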